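import Mathlib

set_option autoImplicit false
set_option linter.unusedSimpArgs false

/-! Weights of an elementary abelian group `F^ι` acting on a vector space in cross characteristic. -/

namespace Cfsg.Agent.H41

open Matrix

open scoped Classical

section
variable {F : Type*} [Field F] [Fintype F] {L : Type*} [Field L]

/-- A nontrivial additive character with values in the algebraic closure. -/
theorem exists_addChar (K : Type*) [Field K] (h : ringChar K ≠ ringChar F) :
    ∃ ψ : AddChar F (AlgebraicClosure K), ψ ≠ 1 := by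
  let P := AddChar.FiniteField.primitiveChar F K h
  obtain ⟨n, ψ, hψ⟩ : ∃ (n : ℕ+) (ψ : AddChar F (CyclotomicField n K)), ψ.IsPrimitive := ⟨P.n, P.char, P.prim⟩
  have hfd : FiniteDimensional K (CyclotomicField n K) :=
    (Polynomial.IsSplittingField.finiteDimensional (Polynomial.cyclotomic n K).SplittingField (Polynomial.cyclotomic n K) :
      FiniteDimensional K (Polynomial.cyclotomic n K).SplittingField)
  let f : CyclotomicField n K →ₐ[K] AlgebraicClosure K := IsAlgClosed.lift
  refine ⟨(f : CyclotomicField n K →* AlgebraicClosure K).compAddChar ψ, ?_⟩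
  intro hf
  have h1 : ψ = 1 := by
    ext x
    apply f.injective
    have := DFunLike.congr_fun hf x
    simpa using this
  apply hψ (a := 1) one_ne_zero
  ext x
  rw [AddChar.mulShift_apply, one_mul, h1]

variable (ψ : AddChar F L) (hψ : ψ ≠ 1) {ι : Type*} [Fintype ι] [DecidableEq ι]

/-- the character `u ↦ ψ (a ⬝ u)` -/
def chi (a : ι → F) : AddChar (ι → F) L where
  toFun u := ψ (a ⬝ᵥ u)
  map_zero_eq_one' := by simp
  map_add_eq_mul' u v := by rw [dotProduct_add, AddChar.map_add_eq_mul]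

theorem chi_apply (a u : ι → F) : chi ψ a u = ψ (a ⬝ᵥ u) := rfl

include hψ in
theorem sum_chi (u : ι → F) (hu : u ≠ 0) : ∑ a : ι → F, ψ (a ⬝ᵥ u) = 0 := by
  classical
  have h1 : chi ψ u ≠ 1 := by
    intro h
    obtain ⟨i, hi⟩ : ∃ i, u i ≠ 0 := by
      by_contra hcon
      push Not at hcon
      exact hu (funext hcon)
    apply hψ
    ext x
    have := DFunLike.congr_fun h (Pi.single i (x / u i))
    rw [chi_apply, dotProduct_single, mul_div_cancel₀ _ hi] at this
    simpa using this
  have := AddChar.sum_eq_zero_of_ne_one h1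
  rw [← this]
  apply Finset.sum_congr rfl
  intro a _
  rw [chi_apply, dotProduct_comm]

section rep
variable {V : Type*} [AddCommGroup V] [Module L V] (W : (ι → F) → (V →ₗ[L] V))

/-- nonzero weight vectors exist -/
def WtNe (a : ι → F) : Prop := ∃ v : V, v ≠ 0 ∧ ∀ u, W u v = ψ (a ⬝ᵥ u) • v

/-- the projection onto a weight space (unnormalised) -/
noncomputable def PP (a : ι → F) : V →ₗ[L] V := ∑ u : ι → F, ψ (-(a ⬝ᵥ u)) • W u

theorem PP_apply (a : ι → F) (v : V) : PP ψ W a v = ∑ u : ι → F, ψ (-(a ⬝ᵥ u)) • W u v := by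
  rw [PP, LinearMap.sum_apply]; rfl

theorem W_PP (hW : ∀ a b v, W (a + b) v = W a (W b v)) (a u : ι → F) (v : V) :
    W u (PP ψ W a v) = ψ (a ⬝ᵥ u) • PP ψ W a v := by
  rw [PP_apply, map_sum, Finset.smul_sum, ← Equiv.sum_comp (Equiv.subRight u) (fun x => W u (ψ (-(a ⬝ᵥ x)) • W x v))]
  apply Finset.sum_congr rfl
  intro x _
  rw [map_smul, ← hW, Equiv.subRight_apply, add_sub_cancel, smul_smul, ← AddChar.map_add_eq_mul, dotProduct_sub]
  congr 2
  ring

include hψ in
theorem sum_PP (h0 : ∀ v, W 0 v = v) (v : V) : ∑ a, PP ψ W a v = (Fintype.card (ι → F) : L) • v := by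
  simp only [PP_apply]
  rw [Finset.sum_comm]
  have h1 : ∀ u : ι → F, ∑ a : ι → F, ψ (-(a ⬝ᵥ u)) • W u v = if u = 0 then (Fintype.card (ι → F) : L) • v else 0 := by
    intro u
    rw [← Finset.sum_smul]
    split_ifs with hu
    · subst hu
      simp [h0]
    · have : ∑ a : ι → F, ψ (-(a ⬝ᵥ u)) = 0 := by
        rw [← sum_chi ψ hψ (-u) (neg_ne_zero.mpr hu)]
        apply Finset.sum_congr rfl
        intro a _
        rw [dotProduct_neg]
      rw [this, zero_smul]
  rw [Finset.sum_congr rfl (fun u _ => h1 u), Finset.sum_ite_eq']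
  simp

include hψ in
/-- If `W u₀` is not the identity then there is a weight nontrivial on `u₀`. -/
theorem exists_weight (hW : ∀ a b v, W (a + b) v = W a (W b v)) (h0 : ∀ v, W 0 v = v)
    (hcard : (Fintype.card (ι → F) : L) ≠ 0) (u₀ : ι → F) (v : V) (hv : W u₀ v ≠ v) :
    ∃ a, WtNe ψ W a ∧ a ⬝ᵥ u₀ ≠ 0 := by
  by_contra hcon
  push Not at hcon
  apply hv
  have h1 : ∀ a, W u₀ (PP ψ W a v) = PP ψ W a v := by
    intro a
    by_cases hp : PP ψ W a v = 0
    · rw [hp, map_zero]
    · have h2 := hcon a ⟨_, hp, fun u => W_PP ψ W hW a u v⟩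
      rw [W_PP ψ W hW, h2, AddChar.map_zero_eq_one, one_smul]
  have h3 := congrArg (W u₀) (sum_PP ψ hψ W h0 v)
  rw [map_sum, Finset.sum_congr rfl (fun a _ => h1 a), sum_PP ψ hψ W h0, map_smul] at h3
  exact (smul_right_injective V hcard h3).symm

include hψ in
theorem PP_of_weight (a b : ι → F) (v : V) (hv : ∀ u, W u v = ψ (a ⬝ᵥ u) • v) :
    PP ψ W b v = if b = a then (Fintype.card (ι → F) : L) • v else 0 := by
  rw [PP_apply]
  have h1 : ∀ u : ι → F, ψ (-(b ⬝ᵥ u)) • W u v = ψ (u ⬝ᵥ (a - b)) • v := by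
    intro u
    rw [hv, smul_smul, ← AddChar.map_add_eq_mul, dotProduct_comm u, sub_dotProduct]
    congr 2
    ring
  rw [Finset.sum_congr rfl (fun u _ => h1 u), ← Finset.sum_smul]
  split_ifs with h
  · subst h
    simp
  · rw [sum_chi ψ hψ _ (sub_ne_zero.mpr (Ne.symm h)), zero_smul]

include hψ in
/-- the number of weights is at most the dimension -/
theorem card_weights_le [FiniteDimensional L V] (hcard : (Fintype.card (ι → F) : L) ≠ 0) (S : Finset (ι → F))
    (hS : ∀ a ∈ S, WtNe ψ W a) : S.card ≤ Module.finrank L V := by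
  have h1 : ∀ a : S, WtNe ψ W a := fun a => hS a a.2
  choose v hv0 hv using h1
  have hli : LinearIndependent L v := by
    rw [Fintype.linearIndependent_iff]
    intro c hc b
    have h2 := congrArg (PP ψ W b) hc
    rw [map_sum, map_zero, Finset.sum_eq_single b] at h2
    · rw [map_smul, PP_of_weight ψ hψ W b b _ (hv b), if_pos rfl, smul_smul] at h2
      rcases smul_eq_zero.mp h2 with h3 | h3
      · exact (mul_eq_zero.mp h3).resolve_right hcard
      · exact absurd h3 (hv0 b)
    · intro a _ hab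
      rw [map_smul, PP_of_weight ψ hψ W a b _ (hv a), if_neg (fun h => hab (Subtype.ext h).symm), smul_zero]
    · intro h; exact absurd (Finset.mem_univ b) h
  have := hli.fintype_card_le_finrank
  rwa [Fintype.card_coe] at this

/-- transport of weights -/
theorem WtNe.transport {a b : ι → F} (h : WtNe ψ W a) (T : V →ₗ[L] V) (hT : Function.Injective T) (g : (ι → F) → (ι → F))
    (hg : ∀ u v, W u (T v) = T (W (g u) v)) (hab : ∀ u, a ⬝ᵥ g u = b ⬝ᵥ u) : WtNe ψ W b := by
  obtain ⟨v, hv0, hv⟩ := h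
  refine ⟨T v, fun h => hv0 (hT (by rw [h, map_zero])), fun u => ?_⟩
  rw [hg, hv, map_smul, hab]

end rep

theorem card_fun_ne_zero (K : Type*) [Field K] (h : ringChar K ≠ ringChar F) :
    (Fintype.card (ι → F) : AlgebraicClosure K) ≠ 0 := by
  obtain ⟨p, hp⟩ := CharP.exists F
  obtain ⟨n, hpp, hcard⟩ := FiniteField.card F p
  rw [Fintype.card_fun, hcard]
  have hpK : (p : K) ≠ 0 := by
    intro h0
    apply h
    have h1 : ringChar K ∣ p := (ringChar.spec K p).mp h0
    have h2 : ringChar F = p := ringChar.eq F p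
    rw [h2]
    rcases (Nat.dvd_prime hpp).mp h1 with h3 | h3
    · exfalso
      have : Nontrivial K := inferInstance
      exact CharP.ringChar_ne_one h3
    · exact h3
  have hpK' : (p : AlgebraicClosure K) ≠ 0 := by
    intro h0
    apply hpK
    apply (algebraMap K (AlgebraicClosure K)).injective
    rw [map_natCast, map_zero, h0]
  push_cast
  exact pow_ne_zero _ (pow_ne_zero _ hpK')

end

end Cfsg.Agent.H41

namespace Cfsg.Agent.H41

open Matrix
open scoped Classical

/-- The general lower bound in cross characteristic. -/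
theorem cross_bound {F : Type*} [Field F] [Fintype F] {ι : Type*} [Fintype ι] [DecidableEq ι] {K : Type*} [Field K]
    (hK : ringChar K ≠ ringChar F) {G : Type*} [Group G] {d : ℕ} (ρ : G →* GL (Fin d) K) (x : (ι → F) → G)
    (hx : ∀ u v, x (u + v) = x u * x v) (u₀ : ι → F) (hx0 : ρ (x u₀) ≠ 1) (S : (ι → F) → Finset (ι → F))
    (hS : ∀ a, a ⬝ᵥ u₀ ≠ 0 → ∀ b ∈ S a, ∃ (g : G) (g' : (ι → F) → (ι → F)), (∀ u, x u * g = g * x (g' u)) ∧
      ∀ u, a ⬝ᵥ g' u = b ⬝ᵥ u) : ∃ a, a ⬝ᵥ u₀ ≠ 0 ∧ (S a).card ≤ d := by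
  obtain ⟨ψ, hψ⟩ := exists_addChar (F := F) K hK
  have hcard := card_fun_ne_zero (F := F) (ι := ι) K hK
  let Φ : G →* GL (Fin d) (AlgebraicClosure K) := (Matrix.GeneralLinearGroup.map (algebraMap K (AlgebraicClosure K))).comp ρ
  have hΦ : ∀ g, ((Φ g : GL (Fin d) (AlgebraicClosure K)) : Matrix (Fin d) (Fin d) (AlgebraicClosure K)) =
      ((ρ g : GL (Fin d) K) : Matrix (Fin d) (Fin d) K).map (algebraMap K (AlgebraicClosure K)) := fun g => rfl
  let M : G → ((Fin d → AlgebraicClosure K) →ₗ[AlgebraicClosure K] (Fin d → AlgebraicClosure K)) :=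
    fun g => Matrix.toLin' ((Φ g : GL (Fin d) (AlgebraicClosure K)) : Matrix (Fin d) (Fin d) (AlgebraicClosure K))
  have hM : ∀ g h v, M (g * h) v = M g (M h v) := by
    intro g h v
    show Matrix.toLin' ((Φ (g * h) : GL (Fin d) (AlgebraicClosure K)) : Matrix (Fin d) (Fin d) (AlgebraicClosure K)) v = _
    rw [map_mul, Units.val_mul, Matrix.toLin'_mul]
    rfl
  have hM1 : ∀ v, M 1 v = v := by
    intro v
    show Matrix.toLin' ((Φ 1 : GL (Fin d) (AlgebraicClosure K)) : Matrix (Fin d) (Fin d) (AlgebraicClosure K)) v = _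
    rw [map_one, Units.val_one, Matrix.toLin'_one]
    rfl
  have hx00 : x 0 = 1 := by
    have := hx 0 0
    rw [add_zero] at this
    exact left_eq_mul.mp this
  obtain ⟨v, hv⟩ : ∃ v, M (x u₀) v ≠ v := by
    by_contra hcon
    push Not at hcon
    apply hx0
    have h1 : M (x u₀) = Matrix.toLin' 1 := by
      apply LinearMap.ext
      intro v
      rw [hcon, Matrix.toLin'_one]; rfl
    have h2 := Matrix.toLin'.injective h1
    rw [hΦ] at h2
    apply Units.ext
    apply Matrix.map_injective (algebraMap K (AlgebraicClosure K)).injective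
    refine h2.trans ?_
    simp
  obtain ⟨a, ha, ha0⟩ := exists_weight ψ hψ (fun u => M (x u)) (fun a b v => by rw [hx, hM]) (fun v => by rw [hx00, hM1])
    hcard u₀ v hv
  refine ⟨a, ha0, ?_⟩
  have h1 := card_weights_le ψ hψ (fun u => M (x u)) hcard (S a) (by
    intro b hb
    obtain ⟨g, g', hg, hg'⟩ := hS a ha0 b hb
    refine WtNe.transport ψ (fun u => M (x u)) ha (M g) ?_ g' ?_ hg'
    · intro v w hvw
      have := congrArg (M g⁻¹) hvw
      rwa [← hM, ← hM, inv_mul_cancel, hM1, hM1] at this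
    · intro u v
      show M (x u) (M g v) = M g (M (x (g' u)) v)
      rw [← hM, ← hM, hg])
  simpa using h1

end Cfsg.Agent.H41
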