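import Mathlib
import Cfsg.Agent.H12.JordanCycle

set_option autoImplicit false

/-! Permutation groups of degree eleven: preliminary facts on fixed points. -/

namespace Cfsg.Agent.H41.D11

open Equiv.Perm MulAction

variable {α : Type*} [Fintype α] [DecidableEq α]

/-- the set of fixed points -/
def fx (g : Equiv.Perm α) : Finset α := Finset.univ.filter (fun a => g a = a)

theorem mem_fx {g : Equiv.Perm α} {a : α} : a ∈ fx g ↔ g a = a := by
  simp [fx]

theorem card_fx_add (g : Equiv.Perm α) : (fx g).card + g.support.card = Fintype.card α := by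
  have h1 : fx g = g.supportᶜ := by
    ext a
    simp [fx]
  rw [h1, Finset.card_compl]
  have := g.support.card_le_univ
  omega

theorem fx_pow_le (g : Equiv.Perm α) (n : ℕ) : fx g ⊆ fx (g ^ n) := by
  intro a ha
  rw [mem_fx] at ha ⊢
  induction n with
  | zero => simp
  | succ k ih => rw [pow_succ, Equiv.Perm.mul_apply, ha, ih]

theorem modEq_of_invariant (g : Equiv.Perm α) {q : ℕ} (hq : q.Prime) (hg : g ^ q = 1)
    (S : Finset α) (hS : ∀ a, a ∈ S → g a ∈ S) :
    S.card ≡ (S.filter (fun a => g a = a)).card [MOD q] := by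
  have : Fact q.Prime := ⟨hq⟩
  let f : Function.End {a // a ∈ S} := fun a => ⟨g a.1, hS a.1 a.2⟩
  have hfn : ∀ (n : ℕ) (a : {a // a ∈ S}), (((f ^ n : Function.End {a // a ∈ S}) a : {a // a ∈ S}) : α) = (g ^ n) a.1 := by
    intro n
    induction n with
    | zero => intro a; rfl
    | succ k ih =>
      intro a
      have h1 : (f ^ (k + 1)) a = f ((f ^ k) a) := by rw [pow_succ']; rfl
      rw [h1, pow_succ', Equiv.Perm.mul_apply, ← ih a]
  have hf : f ^ q ^ 1 = 1 := by
    funext a
    apply Subtype.ext
    rw [hfn, pow_one, hg]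
    rfl
  have h1 := Equiv.Perm.card_fixedPoints_modEq (f := f) hf
  have h2 : Fintype.card (Function.fixedPoints f) = (S.filter (fun a => g a = a)).card := by
    rw [← Fintype.card_coe]
    apply Fintype.card_congr
    refine ⟨fun x => ⟨x.1.1, ?_⟩, fun x => ⟨⟨x.1, (Finset.mem_filter.1 x.2).1⟩, ?_⟩, ?_, ?_⟩
    · rw [Finset.mem_filter]
      exact ⟨x.1.2, congrArg Subtype.val x.2⟩
    · apply Subtype.ext
      exact (Finset.mem_filter.1 x.2).2
    · intro x; rfl
    · intro x; rfl
  rw [h2, Fintype.card_coe] at h1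
  exact h1

theorem card_modEq_fx (g : Equiv.Perm α) {q : ℕ} (hq : q.Prime) (hg : g ^ q = 1) :
    Fintype.card α ≡ (fx g).card [MOD q] := by
  have := modEq_of_invariant g hq hg Finset.univ (fun a _ => Finset.mem_univ _)
  simpa [fx] using this

theorem eq_one_of_card_fx (g : Equiv.Perm α) (h : (fx g).card = Fintype.card α) : g = 1 := by
  have h1 : fx g = Finset.univ := Finset.eq_univ_of_card _ h
  ext a
  have : a ∈ fx g := by rw [h1]; exact Finset.mem_univ a
  rw [mem_fx] at this
  rw [this]; rfl

theorem card_fx_conj (g h : Equiv.Perm α) : (fx (h * g * h⁻¹)).card = (fx g).card := by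
  apply Finset.card_bij' (fun a _ => h⁻¹ a) (fun a _ => h a)
  · intro a ha
    rw [mem_fx] at ha ⊢
    have := congrArg (fun x => h⁻¹ x) ha
    simpa [Equiv.Perm.mul_apply] using this
  · intro a ha
    rw [mem_fx] at ha ⊢
    simp [Equiv.Perm.mul_apply, ha]
  · intro a _; simp
  · intro a _; simp

/-- a prime order element with few moved points is a cycle: Jordan's theorem applies -/
theorem not_cycle (G : Subgroup (Equiv.Perm α)) (hG : IsPreprimitive G α)
    (hA : ¬ alternatingGroup α ≤ G) {q : ℕ} (hq : q.Prime) (hqn : q + 3 ≤ Fintype.card α)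
    {g : Equiv.Perm α} (hg : g ∈ G) (ho : orderOf g = q) : (fx g).card + q ≠ Fintype.card α := by
  intro h
  have h1 := card_fx_add g
  have h2 : g.support.card = q := by omega
  have h3 : g.IsCycle := by
    apply Equiv.Perm.isCycle_of_prime_order (by rw [ho]; exact hq)
    rw [h2, ho]
    have := hq.pos
    omega
  exact hA (H12.jordan_prime_cycle G hG hq hqn h3 h2 hg)

theorem sign_involution (g : Equiv.Perm α) (ho : orderOf g = 2) :
    ∃ k : ℕ, g.support.card = 2 * k ∧ Equiv.Perm.sign g = (-1) ^ k ∧ 0 < k := by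
  obtain ⟨n, hn⟩ := Equiv.Perm.cycleType_prime_order (σ := g) (by rw [ho]; exact Nat.prime_two)
  refine ⟨n + 1, ?_, ?_, by omega⟩
  · rw [← Equiv.Perm.sum_cycleType, hn, Multiset.sum_replicate, ho]
    simp [mul_comm]
  · rw [Equiv.Perm.sign_of_cycleType, hn, Multiset.sum_replicate, ho, Multiset.card_replicate]
    rw [smul_eq_mul, show (n + 1) * 2 + (n + 1) = 2 * (n + 1) + (n + 1) by ring, pow_add, pow_mul]
    simp

section Eleven

variable (hα : Fintype.card α = 11) (G : Subgroup (Equiv.Perm α)) (hG : IsPreprimitive G α)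
  (hA : ¬ alternatingGroup α ≤ G)

include hα hG hA

theorem no_order_seven {g : Equiv.Perm α} (hg : g ∈ G) : orderOf g ≠ 7 := by
  intro ho
  have h1 := card_modEq_fx g (q := 7) (by norm_num) (by rw [← ho]; exact pow_orderOf_eq_one g)
  have h2 := card_fx_add g
  have h3 := not_cycle G hG hA (q := 7) (by norm_num) (by omega) hg ho
  rw [hα] at h1 h2 h3
  have h4 : (fx g).card = 11 := by
    have : (fx g).card ≤ 11 := by omega
    unfold Nat.ModEq at h1
    omega
  have := eq_one_of_card_fx g (by rw [h4, hα])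
  rw [this, orderOf_one] at ho
  omega

theorem card_fx_order_five {g : Equiv.Perm α} (hg : g ∈ G) (ho : orderOf g = 5) :
    (fx g).card = 1 := by
  have h1 := card_modEq_fx g (q := 5) (by norm_num) (by rw [← ho]; exact pow_orderOf_eq_one g)
  have h2 := card_fx_add g
  have h3 := not_cycle G hG hA (q := 5) (by norm_num) (by omega) hg ho
  rw [hα] at h1 h2 h3
  have h5 : (fx g).card ≠ 11 := by
    intro h4
    have := eq_one_of_card_fx g (by rw [h4, hα])
    rw [this, orderOf_one] at ho
    omega
  unfold Nat.ModEq at h1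
  omega

theorem not_dvd_seven : ¬ 7 ∣ Nat.card G := by
  intro h
  have : Fact (Nat.Prime 7) := ⟨by norm_num⟩
  obtain ⟨x, hx⟩ := exists_prime_orderOf_dvd_card' (G := G) 7 h
  exact no_order_seven hα G hG hA x.2 (by rw [Subgroup.orderOf_coe]; exact hx)

theorem not_dvd_twentyfive : ¬ 25 ∣ Nat.card G := by
  intro h
  have : Fact (Nat.Prime 5) := ⟨by norm_num⟩
  obtain ⟨Q, hQ⟩ := Sylow.exists_subgroup_card_pow_prime (G := G) 5 (n := 2) (by norm_num; exact h)
  have hQp : IsPGroup 5 Q := IsPGroup.of_card hQ
  have hfin : Finite α := inferInstance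
  -- fixed point
  have h1 := hQp.card_modEq_card_fixedPoints α
  rw [Nat.card_eq_fintype_card (α := α), hα] at h1
  have h2 : Nat.card (MulAction.fixedPoints Q α) ≠ 0 := by
    intro h0
    rw [h0] at h1
    exact absurd h1 (by decide)
  obtain ⟨⟨u, hu⟩⟩ : Nonempty (MulAction.fixedPoints Q α) := by
    by_contra hne
    rw [not_nonempty_iff] at hne
    exact h2 Nat.card_of_isEmpty
  -- another point
  obtain ⟨w, hw⟩ : ∃ w : α, w ≠ u := by
    have : Nontrivial α := by rw [← Fintype.one_lt_card_iff_nontrivial, hα]; norm_num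
    exact exists_ne u
  -- stabilizer of w in Q trivial
  have h3 : ¬ 5 ∣ Nat.card (MulAction.stabilizer Q w) := by
    intro h5
    obtain ⟨z, hz⟩ := exists_prime_orderOf_dvd_card' (G := MulAction.stabilizer Q w) 5 h5
    have hz1 : orderOf ((z : Q) : G) = 5 := by
      rw [Subgroup.orderOf_coe, Subgroup.orderOf_coe]; exact hz
    have hz2 : orderOf (((z : Q) : G) : Equiv.Perm α) = 5 := by
      rw [Subgroup.orderOf_coe]; exact hz1
    have h6 := card_fx_order_five hα G hG hA ((z : Q) : G).2 hz2
    rw [Finset.card_eq_one] at h6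
    obtain ⟨v, hv⟩ := h6
    have hu1 : u ∈ fx (((z : Q) : G) : Equiv.Perm α) := by
      rw [mem_fx]; exact hu (z : Q)
    have hw1 : w ∈ fx (((z : Q) : G) : Equiv.Perm α) := by
      rw [mem_fx]; exact z.2
    rw [hv, Finset.mem_singleton] at hu1 hw1
    exact hw (hw1.trans hu1.symm)
  have h4 : Nat.card (MulAction.stabilizer Q w) = 1 := by
    have hsub : IsPGroup 5 (MulAction.stabilizer Q w) := hQp.to_subgroup _
    obtain ⟨n, hn⟩ := IsPGroup.iff_card.1 hsub
    rcases n with _ | n
    · simpa using hn
    · exact absurd (by rw [hn, pow_succ]; exact dvd_mul_left _ _) h3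
  have h5 := Subgroup.card_mul_index (MulAction.stabilizer Q w)
  rw [MulAction.index_stabilizer, h4, one_mul, hQ] at h5
  have h6 : (MulAction.orbit Q w).ncard ≤ 11 := by
    rw [← hα, ← Nat.card_eq_fintype_card (α := α)]
    exact Set.ncard_le_card _
  omega

/-- centralizers of elements of order five -/
theorem card_centralizer_five (hE : G ≤ alternatingGroup α) (y : G) (hy : orderOf y = 5) :
    Nat.card (Subgroup.centralizer ({y} : Set G)) = 5 := by
  have hy' : orderOf (y : Equiv.Perm α) = 5 := by rw [Subgroup.orderOf_coe]; exact hy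
  have hfy := card_fx_order_five hα G hG hA y.2 hy'
  rw [Finset.card_eq_one] at hfy
  obtain ⟨u, hu⟩ := hfy
  have key : ∀ q : ℕ, q.Prime → q ∣ Nat.card (Subgroup.centralizer ({y} : Set G)) → q = 5 := by
    intro q hq hdvd
    by_contra hq5
    have : Fact q.Prime := ⟨hq⟩
    obtain ⟨z, hz⟩ := exists_prime_orderOf_dvd_card' (G := Subgroup.centralizer ({y} : Set G)) q hdvd
    have hcomm : (y : Equiv.Perm α) * ((z : G) : Equiv.Perm α) = ((z : G) : Equiv.Perm α) * (y : Equiv.Perm α) := by
      have := Subgroup.mem_centralizer_iff.1 z.2 y (Set.mem_singleton y)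
      exact congrArg Subtype.val this
    obtain ⟨w, hw⟩ : ∃ w : Equiv.Perm α, w = ((z : G) : Equiv.Perm α) := ⟨_, rfl⟩
    have hwo : orderOf w = q := by
      rw [hw, Subgroup.orderOf_coe, Subgroup.orderOf_coe]; exact hz
    rw [← hw] at hcomm
    have hwq : w ^ q = 1 := by rw [← hwo]; exact pow_orderOf_eq_one w
    have hinv : ∀ a, a ∈ fx w → (y : Equiv.Perm α) a ∈ fx w := by
      intro a ha
      rw [mem_fx] at ha ⊢
      have := congrArg (fun g : Equiv.Perm α => g a) hcomm
      simp only [Equiv.Perm.mul_apply] at this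
      rw [← this, ha]
    have h1 := modEq_of_invariant (y : Equiv.Perm α) (q := 5) (by norm_num)
      (by rw [← hy']; exact pow_orderOf_eq_one _) (fx w) hinv
    have huw : w u = u := by
      have hu1 : (y : Equiv.Perm α) u = u := by
        rw [← mem_fx, hu, Finset.mem_singleton]
      have h2 : w u ∈ fx (y : Equiv.Perm α) := by
        rw [mem_fx]
        have := congrArg (fun g : Equiv.Perm α => g u) hcomm
        simp only [Equiv.Perm.mul_apply] at this
        rw [this, hu1]
      rw [hu, Finset.mem_singleton] at h2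
      exact h2
    have h2 : (fx w).filter (fun a => (y : Equiv.Perm α) a = a) = {u} := by
      ext a
      rw [Finset.mem_filter, Finset.mem_singleton]
      constructor
      · rintro ⟨_, h3⟩
        rw [← mem_fx, hu, Finset.mem_singleton] at h3
        exact h3
      · rintro rfl
        refine ⟨by rw [mem_fx]; exact huw, ?_⟩
        rw [← mem_fx, hu, Finset.mem_singleton]
    rw [h2, Finset.card_singleton] at h1
    have h3 := card_modEq_fx w hq hwq
    rw [hα] at h3
    have h4 := card_fx_add w
    rw [hα] at h4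
    have h5 : (fx w).card ≠ 11 := by
      intro h6
      have := eq_one_of_card_fx w (by rw [h6, hα])
      rw [this, orderOf_one] at hwo
      exact hq.one_lt.ne hwo
    have h6 : (fx w).card = 1 ∨ (fx w).card = 6 := by
      unfold Nat.ModEq at h1
      omega
    have hqdvd : q ∣ 11 - (fx w).card := (Nat.modEq_iff_dvd' (by omega)).1 h3.symm
    rcases h6 with h6 | h6
    · rw [h6] at hqdvd
      have h7 : q = 2 := by
        have h8 : q ∣ 2 * 5 := hqdvd
        rcases (hq.dvd_mul).1 h8 with h9 | h9
        · exact (Nat.prime_dvd_prime_iff_eq hq (by norm_num)).1 h9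
        · exact absurd ((Nat.prime_dvd_prime_iff_eq hq (by norm_num)).1 h9) hq5
      obtain ⟨k, hk1, hk2, hk3⟩ := sign_involution w (by rw [hwo, h7])
      have h8 : k = 5 := by omega
      have h9 : w ∈ alternatingGroup α := hE (by rw [hw]; exact (z : G).2)
      rw [Equiv.Perm.mem_alternatingGroup, hk2, h8] at h9
      exact absurd h9 (by decide)
    · rw [h6] at hqdvd
      exact hq5 ((Nat.prime_dvd_prime_iff_eq hq (by norm_num)).1 hqdvd)
  have h5mem : 5 ∣ Nat.card (Subgroup.centralizer ({y} : Set G)) := by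
    have h1 : y ∈ Subgroup.centralizer ({y} : Set G) := by
      rw [Subgroup.mem_centralizer_iff]
      intro h hh
      rw [Set.mem_singleton_iff] at hh
      rw [hh]
    have := Subgroup.orderOf_dvd_natCard _ h1
    rwa [hy] at this
  have h25 : ¬ 25 ∣ Nat.card (Subgroup.centralizer ({y} : Set G)) := fun h =>
    not_dvd_twentyfive hα G hG hA (h.trans (Subgroup.card_subgroup_dvd_card _))
  obtain ⟨m, hm⟩ := h5mem
  have hm0 : 0 < Nat.card (Subgroup.centralizer ({y} : Set G)) := Nat.card_pos
  rcases Nat.lt_or_ge 1 m with h1 | h1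
  · exfalso
    obtain ⟨q, hq, hqm⟩ := Nat.exists_prime_and_dvd (n := m) (by omega)
    have := key q hq (by rw [hm]; exact Dvd.dvd.mul_left hqm 5)
    rw [this] at hqm
    obtain ⟨n, hn⟩ := hqm
    exact h25 ⟨n, by rw [hm, hn]; ring⟩
  · have : m = 1 := by
      rcases Nat.eq_zero_or_pos m with h2 | h2
      · rw [h2] at hm; omega
      · omega
    rw [hm, this]

end Eleven

end Cfsg.Agent.H41.D11
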