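import Mathlib
import Cfsg.Agent.H41.DegEleven
import Cfsg.Agent.H12.PrimeDegreeC

set_option autoImplicit false

/-! Permutation groups of degree eleven: the Sylow 11-normaliser. -/

namespace Cfsg.Agent.H41.D11

open Equiv.Perm MulAction

theorem card_normalizer_dvd {G : Type*} [Group G] [Finite G] {p : ℕ} [Fact p.Prime]
    (P : Subgroup G) (hP : Nat.card P = p) (hC : Subgroup.centralizer (P : Set G) ≤ P) :
    Nat.card (Subgroup.normalizer (P : Set G)) ∣ p * (p - 1) := by
  have hcyc : IsCyclic P := isCyclic_of_prime_card hP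
  have h1 : Nat.card (MulAut P) = p - 1 := by
    rw [IsCyclic.card_mulAut, hP, Nat.totient_prime Fact.out]
  have h2 := Subgroup.card_mul_index P.normalizerMonoidHom.ker
  rw [← h2]
  apply mul_dvd_mul
  · have h3 : Nat.card P.normalizerMonoidHom.ker ∣ Nat.card P := by
      have h4 : (P.normalizerMonoidHom.ker).map (Subgroup.normalizer (P : Set G)).subtype ≤ P := by
        rw [Subgroup.normalizerMonoidHom_ker]
        rintro x ⟨y, hy, rfl⟩
        exact hC hy
      have h5 := Subgroup.card_dvd_of_le h4
      rwa [Subgroup.card_map_of_injective (Subgroup.subtype_injective _)] at h5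
    rwa [hP] at h3
  · rw [Subgroup.index_ker, ← h1]
    exact Subgroup.card_subgroup_dvd_card _

variable {α : Type*} [Fintype α] [DecidableEq α]

theorem mem_zpowers_of_commute {p : ℕ} [hp : Fact p.Prime] (hα : Fintype.card α = p)
    (x t : Equiv.Perm α) (hx : orderOf x = p) (h : x * t = t * x) : t ∈ Subgroup.zpowers x := by
  obtain ⟨e, he⟩ := H12.exists_coords hα x hx
  obtain ⟨c, hc⟩ : ∃ c, c = e (t (e.symm 0)) := ⟨_, rfl⟩
  have h1 : ∀ n : ℕ, e (t (e.symm (n : ZMod p))) = (n : ZMod p) + c := by
    intro n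
    induction n with
    | zero => simp [hc]
    | succ k ih =>
      have h2 : e.symm ((k + 1 : ℕ) : ZMod p) = x (e.symm (k : ZMod p)) := by
        apply e.injective
        rw [he]
        simp
      rw [h2]
      have h3 := congrArg (fun g : Equiv.Perm α => g (e.symm (k : ZMod p))) h
      simp only [Equiv.Perm.mul_apply] at h3
      rw [← h3, he, ih]
      push_cast
      ring
  have h2 : ∀ (n : ℕ) (a : α), e ((x ^ n) a) = e a + n := by
    intro n a
    induction n with
    | zero => simp
    | succ k ih =>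
      rw [pow_succ', Equiv.Perm.mul_apply, he, ih]
      push_cast
      ring
  refine Subgroup.mem_zpowers_iff.2 ⟨(c.val : ℕ), ?_⟩
  ext a
  apply e.injective
  rw [zpow_natCast, h2, ZMod.natCast_zmod_val]
  have h3 := h1 (e a).val
  rw [ZMod.natCast_zmod_val, Equiv.symm_apply_apply] at h3
  rw [h3]

theorem centralizer_le {p : ℕ} [hp : Fact p.Prime] (hα : Fintype.card α = p)
    (G : Subgroup (Equiv.Perm α)) (P : Subgroup G) (x : G) (hx : orderOf x = p)
    (hP : P = Subgroup.zpowers x) : Subgroup.centralizer (P : Set G) ≤ P := by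
  intro t ht
  have hx' : orderOf (x : Equiv.Perm α) = p := by rw [Subgroup.orderOf_coe]; exact hx
  have h1 : x * t = t * x := Subgroup.mem_centralizer_iff.1 ht x (by rw [hP]; exact Subgroup.mem_zpowers x)
  have h2 := mem_zpowers_of_commute hα (x : Equiv.Perm α) (t : Equiv.Perm α) hx' (congrArg Subtype.val h1)
  rw [hP]
  obtain ⟨k, hk⟩ := Subgroup.mem_zpowers_iff.1 h2
  refine Subgroup.mem_zpowers_iff.2 ⟨k, ?_⟩
  apply Subtype.ext
  rw [← hk]
  rfl

theorem normalizer_card_dvd {p : ℕ} [hp : Fact p.Prime] (hα : Fintype.card α = p)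
    (G : Subgroup (Equiv.Perm α)) [IsPretransitive G α] (P : Sylow p G) :
    Nat.card (Subgroup.normalizer ((P : Subgroup G) : Set G)) ∣ p * (p - 1) := by
  obtain ⟨h1, x, hx, hPx⟩ := H12.sylow_eq_zpowers hα G P
  exact card_normalizer_dvd _ h1 (centralizer_le hα G _ x hx hPx)

theorem normalizer_ne {p : ℕ} [hp : Fact p.Prime] (hα : Fintype.card α = p)
    (G : Subgroup (Equiv.Perm α)) [IsPretransitive G α] (hG : ¬ Group.IsSolvable G)
    (P : Sylow p G) : Nat.card (Subgroup.normalizer ((P : Subgroup G) : Set G)) ≠ p := by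
  intro hN
  obtain ⟨h1, x, hx, hPx⟩ := H12.sylow_eq_zpowers hα G P
  have hprim : IsPreprimitive G α := IsPreprimitive.of_prime_card (by
    rw [Nat.card_eq_fintype_card, hα]; exact hp.out)
  have h2 : (P : Subgroup G) = Subgroup.normalizer ((P : Subgroup G) : Set G) := by
    apply Subgroup.eq_of_le_of_card_ge Subgroup.le_normalizer
    rw [hN, h1]
  have hcyc : IsCyclic (P : Subgroup G) := isCyclic_of_prime_card h1
  have h3 : Subgroup.normalizer ((P : Subgroup G) : Set G) ≤ Subgroup.centralizer ((P : Subgroup G) : Set G) := by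
    rw [← h2]
    intro a ha
    rw [Subgroup.mem_centralizer_iff]
    intro b hb
    have hcomm : IsMulCommutative (P : Subgroup G) := hcyc.isMulCommutative
    exact congrArg Subtype.val (mul_comm' (⟨b, hb⟩ : (P : Subgroup G)) ⟨a, ha⟩)
  have h4 := MonoidHom.ker_transferSylow_isComplement' P h3
  have h5 := MonoidHom.not_dvd_card_ker_transferSylow P h3
  have h6 : (MonoidHom.transferSylow P h3).ker = ⊥ := by
    by_contra hne
    have h7 := H12.normal_isPretransitive (MonoidHom.transferSylow P h3).ker hne
    apply h5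
    have hne' : Nonempty α := Fintype.card_pos_iff.1 (by rw [hα]; exact hp.out.pos)
    obtain ⟨a⟩ := hne'
    have h8 := MulAction.index_stabilizer_of_transitive (MonoidHom.transferSylow P h3).ker a
    rw [Nat.card_eq_fintype_card (α := α), hα] at h8
    have h9 := Subgroup.index_dvd_card (MulAction.stabilizer (MonoidHom.transferSylow P h3).ker a)
    rw [h8] at h9
    exact h9
  rw [h6] at h4
  have h7 : Nat.card G = p := by
    have h8 := h4.card_mul_card
    rw [Subgroup.card_bot, one_mul] at h8
    rw [← h8]; exact h1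
  apply hG
  have : IsCyclic G := isCyclic_of_prime_card h7
  exact Group.isSolvable_of_comm (fun a b => IsCyclic.commGroup.mul_comm a b)

theorem eleven_zero : (11 : ZMod 11) = 0 := by decide

theorem isSolvable_of_prime_card {G : Type*} [Group G] {p : ℕ} [Fact p.Prime]
    (h : Nat.card G = p) : Group.IsSolvable G := by
  have : IsCyclic G := isCyclic_of_prime_card h
  exact Group.isSolvable_of_comm (fun a b => IsCyclic.commGroup.mul_comm a b)

section Eleven

variable (hα : Fintype.card α = 11) (G : Subgroup (Equiv.Perm α)) [IsPretransitive G α]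
  (hS : ¬ Group.IsSolvable G)

include hα hS

theorem normalizer_even_card (hE : G ≤ alternatingGroup α) [Fact (Nat.Prime 11)] (P : Sylow 11 G) :
    Nat.card (Subgroup.normalizer ((P : Subgroup G) : Set G)) = 55 := by
  have h1 := normalizer_card_dvd hα G P
  have h2 := normalizer_ne hα G hS P
  obtain ⟨hPc, x, hx, hPx⟩ := H12.sylow_eq_zpowers hα G P
  have h3 : 11 ∣ Nat.card (Subgroup.normalizer ((P : Subgroup G) : Set G)) := by
    have h30 := Subgroup.card_dvd_of_le (Subgroup.le_normalizer (H := (P : Subgroup G)))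
    rw [hPc] at h30
    exact h30
  have hmemz : ∀ g : G, g ∈ (P : Subgroup G) ↔ g ∈ Subgroup.zpowers x := fun g => by rw [hPx]
  have h4 : ¬ 2 ∣ Nat.card (Subgroup.normalizer ((P : Subgroup G) : Set G)) := by
    intro h5
    have : Fact (Nat.Prime 2) := ⟨Nat.prime_two⟩
    obtain ⟨t, ht⟩ := exists_prime_orderOf_dvd_card' (G := Subgroup.normalizer ((P : Subgroup G) : Set G)) 2 h5
    obtain ⟨s, hs⟩ : ∃ s : Equiv.Perm α, s = ((t : G) : Equiv.Perm α) := ⟨_, rfl⟩
    have hso : orderOf s = 2 := by
      rw [hs, Subgroup.orderOf_coe, Subgroup.orderOf_coe]; exact ht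
    have hx' : orderOf (x : Equiv.Perm α) = 11 := by rw [Subgroup.orderOf_coe]; exact hx
    obtain ⟨e, he⟩ := H12.exists_coords hα (x : Equiv.Perm α) hx'
    have hs1 : s ≠ 1 := by
      intro h; rw [h, orderOf_one] at hso; omega
    have hs2 : s * s = 1 := by
      have := pow_orderOf_eq_one s
      rwa [hso, pow_two] at this
    have hn : s * (x : Equiv.Perm α) * s⁻¹ ∈ Subgroup.zpowers (x : Equiv.Perm α) := by
      have h6 := (Subgroup.mem_normalizer_iff.1 t.2 x).1 (by
        show x ∈ (P : Subgroup G)
        exact (hmemz x).2 (Subgroup.mem_zpowers x))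
      have h7 : (t : G) * x * (t : G)⁻¹ ∈ Subgroup.zpowers x := (hmemz _).1 h6
      obtain ⟨k, hk⟩ := Subgroup.mem_zpowers_iff.1 h7
      refine Subgroup.mem_zpowers_iff.2 ⟨k, ?_⟩
      have h8 := congrArg Subtype.val hk
      rw [hs]
      exact h8
    obtain ⟨c, hc⟩ := H12.exists_reflection (by norm_num) (x : Equiv.Perm α) s e he hs1 hs2 hn
    have h6 : fx s = {e.symm (6 * c)} := by
      ext a
      rw [mem_fx, Finset.mem_singleton]
      constructor
      · intro h
        apply e.injective
        rw [Equiv.apply_symm_apply]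
        have h7 := hc a
        rw [h] at h7
        have h8 : (11 : ZMod 11) = 0 := eleven_zero
        linear_combination (6 : ZMod 11) * h7 + (- e a) * h8
      · rintro rfl
        apply e.injective
        rw [hc, Equiv.apply_symm_apply]
        have h8 : (11 : ZMod 11) = 0 := eleven_zero
        linear_combination (-c) * h8
    obtain ⟨k, hk1, hk2, hk3⟩ := sign_involution s hso
    have h7 := card_fx_add s
    rw [h6, Finset.card_singleton, hα, hk1] at h7
    have h8 : k = 5 := by omega
    have h9 : s ∈ alternatingGroup α := hE (by rw [hs]; exact (t : G).2)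
    rw [Equiv.Perm.mem_alternatingGroup, hk2, h8] at h9
    exact absurd h9 (by decide)
  obtain ⟨m, hm⟩ := h3
  rw [hm] at h1 h2 h4 ⊢
  have h5 : m ∣ 10 := Nat.dvd_of_mul_dvd_mul_left (by norm_num) h1
  have h6 : m ≤ 10 := Nat.le_of_dvd (by norm_num) h5
  interval_cases m <;> simp_all

theorem eq_cases (hA : ¬ alternatingGroup α ≤ G) (hE : G ≤ alternatingGroup α) :
    Nat.card G = 660 ∨ Nat.card G = 7920 := by
  have h11 : Fact (Nat.Prime 11) := ⟨by norm_num⟩
  have hprim : IsPreprimitive G α := IsPreprimitive.of_prime_card (by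
    rw [Nat.card_eq_fintype_card, hα]; norm_num)
  obtain ⟨P⟩ : Nonempty (Sylow 11 G) := inferInstance
  have hN := normalizer_even_card hα G hS hE P
  obtain ⟨hPc, x, hx, hPx⟩ := H12.sylow_eq_zpowers hα G P
  have h1 := card_sylow_modEq_one 11 G
  have h2 : Nat.card (Sylow 11 G) = (Subgroup.normalizer ((P : Subgroup G) : Set G)).index :=
    P.card_eq_index_normalizer
  have h3 := Subgroup.card_mul_index (Subgroup.normalizer ((P : Subgroup G) : Set G))
  rw [hN, ← h2] at h3
  obtain ⟨t, ht⟩ : ∃ t, t = Nat.card (Sylow 11 G) := ⟨_, rfl⟩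
  rw [← ht] at h1 h3 h2
  have h4 : Nat.card G ∣ 19958400 := by
    have h5 := Subgroup.card_dvd_of_le hE
    have hnt : Nontrivial α := by rw [← Fintype.one_lt_card_iff_nontrivial, hα]; norm_num
    rw [nat_card_alternatingGroup, Nat.card_eq_fintype_card (α := α), hα] at h5
    exact h5
  have h7 := not_dvd_seven hα G hprim hA
  have h25 := not_dvd_twentyfive hα G hprim hA
  rw [← h3] at h4 h7 h25
  have h5 : t ∣ 362880 := Nat.dvd_of_mul_dvd_mul_left (k := 55) (by norm_num) h4
  have h6 : ¬ 5 ∣ t := by
    rintro ⟨s, hs⟩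
    exact h25 ⟨11 * s, by rw [hs]; ring⟩
  have h8 : ¬ 7 ∣ t := fun h => h7 (Dvd.dvd.mul_left h 55)
  have h9 : t ∣ 10368 := by
    have c1 : Nat.Coprime t 35 := by
      rw [show 35 = 5 * 7 by norm_num]
      exact Nat.Coprime.mul_right ((Nat.Prime.coprime_iff_not_dvd (by norm_num)).2 h6).symm
        ((Nat.Prime.coprime_iff_not_dvd (by norm_num)).2 h8).symm
    exact c1.dvd_of_dvd_mul_right (by norm_num; exact h5)
  have h10 : t = 1 ∨ t = 12 ∨ t = 144 ∨ t = 1728 := by
    have key : ∀ s ∈ Nat.divisors 10368, s % 11 = 1 → s = 1 ∨ s = 12 ∨ s = 144 ∨ s = 1728 := by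
      decide +kernel
    exact key t (Nat.mem_divisors.2 ⟨h9, by norm_num⟩) h1
  rcases h10 with h10 | h10 | h10 | h10
  · exfalso
    rw [h10] at h2 h3
    have h11' : Subgroup.normalizer ((P : Subgroup G) : Set G) = ⊤ := Subgroup.index_eq_one.1 h2.symm
    have hnorm : (P : Subgroup G).Normal := Subgroup.normalizer_eq_top_iff.1 h11'
    apply hS
    rw [Group.isSolvable_iff_subgroup_quotient (P : Subgroup G)]
    refine ⟨isSolvable_of_prime_card hPc, ?_⟩
    have : Fact (Nat.Prime 5) := ⟨by norm_num⟩
    apply isSolvable_of_prime_card (p := 5)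
    have h12 := Subgroup.card_eq_card_quotient_mul_card_subgroup (P : Subgroup G)
    rw [← h3, hPc] at h12
    omega
  · left; rw [← h3, h10]
  · right; rw [← h3, h10]
  · exfalso
    rw [h10] at h3
    have hG : Nat.card G = 95040 := by rw [← h3]
    have : Fact (Nat.Prime 5) := ⟨by norm_num⟩
    obtain ⟨Q⟩ : Nonempty (Sylow 5 G) := inferInstance
    have hQ : Nat.card (Q : Subgroup G) = 5 := by
      have h12 := Q.card_eq_multiplicity
      have h13 : (Nat.card G).factorization 5 = 1 := by
        rw [hG]
        rw [show (95040 : ℕ) = 5 ^ 1 * 19008 by norm_num]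
        rw [Nat.factorization_mul (by norm_num) (by norm_num), Finsupp.add_apply,
          Nat.Prime.factorization_pow (by norm_num), Finsupp.single_eq_same,
          Nat.factorization_eq_zero_of_not_dvd (by norm_num)]
      rw [h13, pow_one] at h12
      exact h12
    have hcent : Subgroup.centralizer ((Q : Subgroup G) : Set G) ≤ Q := by
      obtain ⟨y, hy⟩ := exists_prime_orderOf_dvd_card' (G := (Q : Subgroup G)) 5 (by rw [hQ])
      have hy' : orderOf (y : G) = 5 := by rw [Subgroup.orderOf_coe]; exact hy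
      have h12 := card_centralizer_five hα G hprim hA hE (y : G) hy'
      have h13 : (Q : Subgroup G) ≤ Subgroup.centralizer ({(y : G)} : Set G) := by
        have hcyc : IsCyclic (Q : Subgroup G) := isCyclic_of_prime_card hQ
        have hcomm : IsMulCommutative (Q : Subgroup G) := hcyc.isMulCommutative
        intro a ha
        rw [Subgroup.mem_centralizer_iff]
        intro b hb
        rw [Set.mem_singleton_iff] at hb
        rw [hb]
        exact congrArg Subtype.val (mul_comm' y (⟨a, ha⟩ : (Q : Subgroup G)))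
      have h14 : (Q : Subgroup G) = Subgroup.centralizer ({(y : G)} : Set G) := by
        apply Subgroup.eq_of_le_of_card_ge h13
        rw [h12, hQ]
      rw [h14]
      apply Subgroup.centralizer_le
      rw [Set.singleton_subset_iff, ← h14]
      exact y.2
    have h12 := card_normalizer_dvd (Q : Subgroup G) hQ hcent
    have h13 := card_sylow_modEq_one 5 G
    have h14 : Nat.card (Sylow 5 G) = (Subgroup.normalizer ((Q : Subgroup G) : Set G)).index :=
      Q.card_eq_index_normalizer
    have h15 := Subgroup.card_mul_index (Subgroup.normalizer ((Q : Subgroup G) : Set G))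
    rw [← h14, hG] at h15
    obtain ⟨n, hn⟩ : ∃ n, n = Nat.card (Subgroup.normalizer ((Q : Subgroup G) : Set G)) := ⟨_, rfl⟩
    rw [← hn] at h12 h15
    have h16 : 5 ∣ n := by
      have h160 := Subgroup.card_dvd_of_le (Subgroup.le_normalizer (H := (Q : Subgroup G)))
      rw [hQ] at h160
      rw [hn]
      exact h160
    obtain ⟨m, hm⟩ := h16
    rw [hm] at h12 h15
    have h17 : m ∣ 4 := Nat.dvd_of_mul_dvd_mul_left (k := 5) (by norm_num) h12
    have h18 : m ≤ 4 := Nat.le_of_dvd (by norm_num) h17
    unfold Nat.ModEq at h13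
    obtain ⟨c, hc⟩ : ∃ c, c = Nat.card (Sylow 5 G) := ⟨_, rfl⟩
    rw [← hc] at h13 h15
    clear hn h14 hc h12
    interval_cases m <;> omega

end Eleven

end Cfsg.Agent.H41.D11
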