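import Mathlib
import Cfsg.Agent.H41.DegElevenB
import Cfsg.Agent.H72.ClassSize

set_option autoImplicit false

/-! Permutation groups of degree eleven: the group of order 7920 is sharply 4-transitive. -/

namespace Cfsg.Agent.H41.D11

open Equiv.Perm MulAction

variable {α : Type*} [Fintype α] [DecidableEq α]

theorem card_stabilizer_mul (G : Subgroup (Equiv.Perm α)) (n : ℕ)
    (h : IsMultiplyPretransitive G α n) (x : Fin n ↪ α) :
    Nat.card (stabilizer G x) * (Fintype.card α).descFactorial n = Nat.card G := by
  have h1 := Subgroup.card_mul_index (stabilizer G x)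
  have h2 : (stabilizer G x).index = Nat.card (Fin n ↪ α) :=
    @MulAction.index_stabilizer_of_transitive G _ _ _ x h
  rw [h2, Nat.card_eq_fintype_card (α := Fin n ↪ α),
    Fintype.card_embedding_eq, Fintype.card_fin] at h1
  exact h1

theorem card_two (G : Subgroup (Equiv.Perm α)) (h : IsMultiplyPretransitive G α 2) {a b : α}
    (hab : a ≠ b) :
    Nat.card (stabilizer G a ⊓ stabilizer G b : Subgroup G) * (Fintype.card α).descFactorial 2 = Nat.card G := by
  obtain ⟨x, hx0, hx1⟩ : ∃ x : Fin 2 ↪ α, x 0 = a ∧ x 1 = b := by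
    refine ⟨⟨![a, b], ?_⟩, rfl, rfl⟩
    intro i j hij
    fin_cases i <;> fin_cases j <;> simp_all
  rw [← card_stabilizer_mul G 2 h x]
  congr 2
  apply congrArg (fun K : Subgroup G => (K : Type _))
  ext g
  rw [Subgroup.mem_inf, mem_stabilizer_iff, mem_stabilizer_iff, mem_stabilizer_iff]
  constructor
  · rintro ⟨h1, h2⟩
    ext i
    fin_cases i
    · show g • x 0 = x 0
      rw [hx0]; exact h1
    · show g • x 1 = x 1
      rw [hx1]; exact h2
  · intro h1
    have h2 : ∀ i, g • x i = x i := fun i => congrArg (fun y : Fin 2 ↪ α => y i) h1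
    refine ⟨?_, ?_⟩
    · rw [← hx0]; exact h2 0
    · rw [← hx1]; exact h2 1

omit [Fintype α] [DecidableEq α] in
theorem exists_emb4 {a b c d : α} (hab : a ≠ b) (hac : a ≠ c) (had : a ≠ d) (hbc : b ≠ c)
    (hbd : b ≠ d) (hcd : c ≠ d) :
    ∃ x : Fin 4 ↪ α, x 0 = a ∧ x 1 = b ∧ x 2 = c ∧ x 3 = d := by
  refine ⟨⟨![a, b, c, d], ?_⟩, rfl, rfl, rfl, rfl⟩
  intro i j hij
  fin_cases i <;> fin_cases j <;> simp_all

theorem regular_of {G X : Type*} [Group G] [Finite G] [Finite X] [MulAction G X] (x : X)
    (h : stabilizer G x = ⊥) (hc : Nat.card G = Nat.card X) :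
    IsPretransitive G X ∧ ∀ y : X, stabilizer G y = ⊥ := by
  have horb : orbit G x = Set.univ := by
    have h5 := Subgroup.card_mul_index (stabilizer G x)
    rw [MulAction.index_stabilizer, h, Subgroup.card_bot, one_mul] at h5
    apply Set.eq_of_subset_of_ncard_le (Set.subset_univ _)
    rw [h5, Set.ncard_univ, hc]
  have h4 : IsPretransitive G X := by
    constructor
    intro y z
    have hy : y ∈ orbit G x := by rw [horb]; trivial
    have hz : z ∈ orbit G x := by rw [horb]; trivial
    obtain ⟨g, hg⟩ := hy
    obtain ⟨h, hh⟩ := hz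
    refine ⟨h * g⁻¹, ?_⟩
    rw [← hg, ← hh]
    show (h * g⁻¹) • g • x = h • x
    rw [smul_smul, inv_mul_cancel_right]
  refine ⟨h4, ?_⟩
  intro y
  have h5 := Subgroup.card_mul_index (stabilizer G y)
  rw [MulAction.index_stabilizer_of_transitive, hc] at h5
  have hX : 0 < Nat.card X := by rw [← hc]; exact Nat.card_pos
  have h6 : Nat.card (stabilizer G y) = 1 := by
    have h7 : Nat.card (stabilizer G y) * Nat.card X = 1 * Nat.card X := by rw [h5, one_mul]
    exact Nat.eq_of_mul_eq_mul_right hX h7
  exact Subgroup.card_eq_one.1 h6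

section Eleven

variable (hα : Fintype.card α = 11) (G : Subgroup (Equiv.Perm α))

include hα

theorem involution_fix (hE : G ≤ alternatingGroup α) (h2 : IsMultiplyPretransitive G α 2)
    (hcard : Nat.card G = 7920)
    (h48 : ∀ x : G, orderOf x = 2 → Nat.card (Subgroup.centralizer ({x} : Set G)) = 48)
    (t : G) (ht : orderOf t = 2) : (fx (t : Equiv.Perm α)).card = 3 := by
  classical
  have ht' : orderOf (t : Equiv.Perm α) = 2 := by rw [Subgroup.orderOf_coe]; exact ht
  obtain ⟨k, hk1, hk2, hk3⟩ := sign_involution (t : Equiv.Perm α) ht'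
  have h1 : (t : Equiv.Perm α) ∈ alternatingGroup α := hE t.2
  rw [Equiv.Perm.mem_alternatingGroup, hk2] at h1
  have h3 := card_fx_add (t : Equiv.Perm α)
  rw [hα, hk1] at h3
  have h4 : k = 2 ∨ k = 4 := by
    have : k ≤ 5 := by omega
    interval_cases k
    · exact absurd h1 (by decide)
    · left; rfl
    · exact absurd h1 (by decide)
    · right; rfl
    · exact absurd h1 (by decide)
  rcases h4 with h4 | h4
  swap
  · omega
  exfalso
  have h7 : (fx (t : Equiv.Perm α)).card = 7 := by omega
  have hfin : Fintype G := Fintype.ofFinite G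
  -- the conjugacy class
  obtain ⟨C, hC⟩ : ∃ C : Finset G, C = Finset.univ.filter (fun s => s ∈ H72.Cl t) := ⟨_, rfl⟩
  have hCcard : C.card = 165 := by
    have h5 := H72.card_Cl t
    have h6 := Subgroup.card_mul_index (H72.Cx t)
    have h8 : Nat.card (H72.Cx t) = 48 := h48 t ht
    rw [h8, hcard] at h6
    have h9 : C.card = Nat.card (H72.Cl t) := by
      rw [hC, Nat.card_eq_fintype_card, Fintype.card_subtype]
    rw [h9, h5]
    omega
  have hC7 : ∀ s ∈ C, (fx (s : Equiv.Perm α)).card = 7 := by
    intro s hs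
    rw [hC, Finset.mem_filter] at hs
    obtain ⟨g, hg⟩ := hs.2
    have h5 : (s : Equiv.Perm α) = (g : Equiv.Perm α) * t * (g : Equiv.Perm α)⁻¹ := by
      rw [← hg]; rfl
    rw [h5, card_fx_conj, h7]
  have hC2 : ∀ s ∈ C, s * s = 1 := by
    intro s hs
    rw [hC, Finset.mem_filter] at hs
    obtain ⟨g, hg⟩ := hs.2
    have h5 : t * t = 1 := by
      have := pow_orderOf_eq_one t
      rwa [ht, pow_two] at this
    have h6 : s = g * t * g⁻¹ := hg.symm
    rw [h6]
    calc g * t * g⁻¹ * (g * t * g⁻¹) = g * (t * t) * g⁻¹ := by group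
      _ = 1 := by rw [h5]; group
  have hC1 : ∀ s ∈ C, s ≠ 1 := by
    intro s hs h1
    have := hC7 s hs
    rw [h1] at this
    have h5 : fx ((1 : G) : Equiv.Perm α) = Finset.univ := by
      ext a; simp [fx]
    rw [h5, Finset.card_univ, hα] at this
    omega
  -- pigeonhole
  obtain ⟨a, b, hab, hI⟩ : ∃ a b : α, a ≠ b ∧
      63 ≤ (C.filter (fun s : G => (s : Equiv.Perm α) a = a ∧ (s : Equiv.Perm α) b = b)).card := by
    by_contra hcon
    push Not at hcon
    have h5 : ∑ s ∈ C, (fx (s : Equiv.Perm α)).offDiag.card = 6930 := by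
      rw [Finset.sum_congr rfl (fun s hs => by rw [Finset.offDiag_card, hC7 s hs])]
      rw [Finset.sum_const, hCcard]
      norm_num
    have h6 : ∑ s ∈ C, (fx (s : Equiv.Perm α)).offDiag.card =
        ∑ p ∈ (Finset.univ : Finset α).offDiag,
          (C.filter (fun s : G => (s : Equiv.Perm α) p.1 = p.1 ∧ (s : Equiv.Perm α) p.2 = p.2)).card := by
      have h8 : ∀ s : G, (fx (s : Equiv.Perm α)).offDiag =
          (Finset.univ : Finset α).offDiag.filter (fun p => (s : Equiv.Perm α) p.1 = p.1 ∧ (s : Equiv.Perm α) p.2 = p.2) := by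
        intro s
        ext p
        simp only [Finset.mem_offDiag, Finset.mem_filter, mem_fx, Finset.mem_univ, true_and]
        tauto
      rw [Finset.sum_congr rfl (fun s _ => by rw [h8 s])]
      simp only [Finset.card_filter]
      rw [Finset.sum_comm]
    have h8 : ∑ p ∈ (Finset.univ : Finset α).offDiag,
          (C.filter (fun s : G => (s : Equiv.Perm α) p.1 = p.1 ∧ (s : Equiv.Perm α) p.2 = p.2)).card ≤
        ∑ p ∈ (Finset.univ : Finset α).offDiag, 62 := by
      apply Finset.sum_le_sum
      intro p hp
      rw [Finset.mem_offDiag] at hp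
      have := hcon p.1 p.2 hp.2.2
      omega
    rw [← h6, h5, Finset.sum_const, Finset.offDiag_card, Finset.card_univ, hα] at h8
    norm_num at h8
  obtain ⟨K, hK⟩ : ∃ K : Finset G, K = Finset.univ.filter
    (fun s : G => (s : Equiv.Perm α) a = a ∧ (s : Equiv.Perm α) b = b) := ⟨_, rfl⟩
  have hKmem : ∀ g : G, g ∈ K ↔ g ∈ (stabilizer G a ⊓ stabilizer G b : Subgroup G) := by
    intro g
    rw [hK, Finset.mem_filter, Subgroup.mem_inf, mem_stabilizer_iff, mem_stabilizer_iff]
    exact ⟨fun h => h.2, fun h => ⟨Finset.mem_univ _, h⟩⟩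
  have hKcard' : Nat.card (stabilizer G a ⊓ stabilizer G b : Subgroup G) = 72 := by
    have h5 := card_two G h2 hab
    rw [hα, hcard] at h5
    have h6 : Nat.descFactorial 11 2 = 110 := by decide
    rw [h6] at h5
    omega
  have hKcard : K.card = 72 := by
    rw [← hKcard', Nat.card_eq_fintype_card, Fintype.card_subtype]
    congr 1
    ext g
    rw [hKmem, Finset.mem_filter]
    exact ⟨fun h => ⟨Finset.mem_univ _, h⟩, fun h => h.2⟩
  obtain ⟨I, hIdef⟩ : ∃ I : Finset G, I = C.filter
    (fun s : G => (s : Equiv.Perm α) a = a ∧ (s : Equiv.Perm α) b = b) := ⟨_, rfl⟩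
  rw [← hIdef] at hI
  have hIC : ∀ s ∈ I, s ∈ C := fun s hs => by
    rw [hIdef, Finset.mem_filter] at hs; exact hs.1
  have hIK : ∀ s ∈ I, s ∈ K := fun s hs => by
    rw [hIdef, Finset.mem_filter] at hs
    rw [hK, Finset.mem_filter]; exact ⟨Finset.mem_univ _, hs.2⟩
  -- every element of I is central in K
  have hcen : ∀ s ∈ I, ∀ g ∈ K, s * g = g * s := by
    intro s hs
    have h5 : 54 ≤ (I ∩ I.image (fun u => s * u)).card := by
      have h6 : (I ∪ I.image (fun u => s * u)).card ≤ 72 := by
        rw [← hKcard]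
        apply Finset.card_le_card
        intro u hu
        rw [Finset.mem_union, Finset.mem_image] at hu
        rcases hu with hu | ⟨v, hv, rfl⟩
        · exact hIK u hu
        · exact (hKmem _).2 (Subgroup.mul_mem _ ((hKmem _).1 (hIK s hs)) ((hKmem _).1 (hIK v hv)))
      have h8 : (I.image (fun u => s * u)).card = I.card :=
        Finset.card_image_of_injective _ (mul_right_injective s)
      have h9 := Finset.card_union_add_card_inter I (I.image (fun u => s * u))
      omega
    have h6 : ((stabilizer G a ⊓ stabilizer G b : Subgroup G) ⊓ Subgroup.centralizer ({s} : Set G)) =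
        (stabilizer G a ⊓ stabilizer G b : Subgroup G) := by
      apply Subgroup.eq_of_le_of_card_ge inf_le_left
      rw [hKcard']
      have h8 : 54 ≤ Nat.card ((stabilizer G a ⊓ stabilizer G b : Subgroup G) ⊓
          Subgroup.centralizer ({s} : Set G) : Subgroup G) := by
        have h9 : (I ∩ I.image (fun u => s * u)).card ≤ Nat.card ((stabilizer G a ⊓ stabilizer G b : Subgroup G) ⊓
          Subgroup.centralizer ({s} : Set G) : Subgroup G) := by
          rw [Nat.card_eq_fintype_card, Fintype.card_subtype]
          apply Finset.card_le_card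
          intro v hv
          rw [Finset.mem_inter, Finset.mem_image] at hv
          obtain ⟨hv1, u, hu, huv⟩ := hv
          rw [Finset.mem_filter]
          refine ⟨Finset.mem_univ _, (hKmem _).1 (hIK v hv1), ?_⟩
          refine Subgroup.mem_centralizer_singleton_iff.2 ?_
          have e1 := hC2 s (hIC s hs)
          have e2 := hC2 v (hIC v hv1)
          have e3 := hC2 u (hIC u hu)
          have e4 : s * v = u := by rw [← huv, ← mul_assoc, e1, one_mul]
          have e5 : s * v * (s * v) = 1 := by rw [e4]; exact e3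
          calc v * s = s * (s * v * (s * v)) * v := by
                rw [show s * (s * v * (s * v)) * v = (s * s) * v * s * (v * v) by group, e1, e2]; group
            _ = s * v := by rw [e5]; group
        omega
      have h9 := Subgroup.card_dvd_of_le (inf_le_left : (stabilizer G a ⊓ stabilizer G b : Subgroup G) ⊓
          Subgroup.centralizer ({s} : Set G) ≤ _)
      rw [hKcard'] at h9
      obtain ⟨c, hc⟩ := h9
      obtain ⟨m, hm⟩ : ∃ m, m = Nat.card ((stabilizer G a ⊓ stabilizer G b : Subgroup G) ⊓
          Subgroup.centralizer ({s} : Set G) : Subgroup G) := ⟨_, rfl⟩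
      rw [← hm] at h8 hc ⊢
      have : c = 1 := by
        rcases c with _ | _ | c
        · omega
        · rfl
        · nlinarith
      rw [this] at hc
      omega
    intro g hg
    have h8 := (hKmem g).1 hg
    rw [← h6] at h8
    have h9 := Subgroup.mem_centralizer_singleton_iff.1 h8.2
    exact h9.symm
  have : Fact (Nat.Prime 3) := ⟨by norm_num⟩
  obtain ⟨x, hx⟩ := exists_prime_orderOf_dvd_card' (G := (stabilizer G a ⊓ stabilizer G b : Subgroup G)) 3
    (by rw [hKcard']; norm_num)
  have hx' : orderOf (x : G) = 3 := by rw [Subgroup.orderOf_coe]; exact hx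
  have hxK : (x : G) ∈ K := (hKmem _).2 x.2
  have h5 : Disjoint I (I.image (fun u => (x : G) * u)) := by
    rw [Finset.disjoint_left]
    intro v hv hv'
    rw [Finset.mem_image] at hv'
    obtain ⟨u, hu, rfl⟩ := hv'
    have e1 := hC2 _ (hIC _ hv)
    have e2 := hC2 u (hIC u hu)
    have e3 := hcen u hu x hxK
    have e4 : (x : G) * x = 1 := by
      calc (x : G) * x = x * x * (u * u) := by rw [e2, mul_one]
        _ = x * (x * u) * u := by group
        _ = x * (u * x) * u := by rw [e3]
        _ = (x * u) * (x * u) := by group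
        _ = 1 := e1
    have e5 : orderOf (x : G) ∣ 2 := orderOf_dvd_of_pow_eq_one (by rw [pow_two]; exact e4)
    rw [hx'] at e5
    omega
  have h6 : (I ∪ I.image (fun u => (x : G) * u)).card ≤ 72 := by
    rw [← hKcard]
    apply Finset.card_le_card
    intro u hu
    rw [Finset.mem_union, Finset.mem_image] at hu
    rcases hu with hu | ⟨v, hv, rfl⟩
    · exact hIK u hu
    · exact (hKmem _).2 (Subgroup.mul_mem _ x.2 ((hKmem _).1 (hIK v hv)))
  rw [Finset.card_union_of_disjoint h5, Finset.card_image_of_injective _ (mul_right_injective (x : G))] at h6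
  omega

set_option maxHeartbeats 4000000 in
theorem sharply (hE : G ≤ alternatingGroup α) (hA : ¬ alternatingGroup α ≤ G)
    (h2 : IsMultiplyPretransitive G α 2)
    (hcard : Nat.card G = 7920)
    (hinv : ∀ t : G, orderOf t = 2 → (fx (t : Equiv.Perm α)).card = 3) :
    IsMultiplyPretransitive G α 4 ∧ ∀ x : Fin 4 ↪ α, stabilizer G x = ⊥ := by
  classical
  have hprim : IsPreprimitive G α := isPreprimitive_of_is_two_pretransitive h2
  have hnt : Nontrivial α := by rw [← Fintype.one_lt_card_iff_nontrivial, hα]; norm_num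
  obtain ⟨a, b, hab⟩ := exists_pair_ne α
  have hKcard : Nat.card (stabilizer G a ⊓ stabilizer G b : Subgroup G) = 72 := by
    have h5 := card_two G h2 hab
    rw [hα, hcard] at h5
    have h6 : Nat.descFactorial 11 2 = 110 := by decide
    rw [h6] at h5
    omega
  obtain ⟨K, hK⟩ : ∃ K : Subgroup G, K = stabilizer G a ⊓ stabilizer G b := ⟨_, rfl⟩
  rw [← hK] at hKcard
  have hKa : ∀ g ∈ K, g • a = a := fun g hg => by
    rw [hK, Subgroup.mem_inf] at hg; exact hg.1
  have hKb : ∀ g ∈ K, g • b = b := fun g hg => by
    rw [hK, Subgroup.mem_inf] at hg; exact hg.2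
  -- general fact: a p-subgroup of K and its fixed points
  have hfixp : ∀ (p : ℕ) [Fact p.Prime] (S : Subgroup K), IsPGroup p S →
      11 ≡ Nat.card (fixedPoints S α) [MOD p] := by
    intro p _ S hS
    have := hS.card_modEq_card_fixedPoints α
    rwa [Nat.card_eq_fintype_card (α := α), hα] at this
  -- the Sylow 2-subgroup
  have f2 : Fact (Nat.Prime 2) := ⟨Nat.prime_two⟩
  obtain ⟨S, hS⟩ := Sylow.exists_subgroup_card_pow_prime (G := K) 2 (n := 3) (by rw [hKcard]; norm_num)
  have hSp : IsPGroup 2 S := IsPGroup.of_card hS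
  have hSfix := hfixp 2 S hSp
  have hSa : a ∈ fixedPoints S α := fun s => hKa _ (s : K).2
  have hSb : b ∈ fixedPoints S α := fun s => hKb _ (s : K).2
  obtain ⟨c, hca, hcb, hSc⟩ : ∃ c, c ≠ a ∧ c ≠ b ∧ c ∈ fixedPoints S α := by
    by_contra hcon
    push Not at hcon
    have h5 : fixedPoints S α = {a, b} := by
      ext d
      simp only [Set.mem_insert_iff, Set.mem_singleton_iff]
      constructor
      · intro hd
        by_contra hne
        push Not at hne
        exact hcon d hne.1 hne.2 hd
      · rintro (rfl | rfl)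
        · exact hSa
        · exact hSb
    rw [h5] at hSfix
    have h6 : Nat.card ({a, b} : Set α) = 2 := by
      rw [Nat.card_coe_set_eq, Set.ncard_pair hab]
    rw [h6] at hSfix
    exact absurd hSfix (by decide)
  -- stabilizers in S of further points are trivial
  have hSd : ∀ d, d ≠ a → d ≠ b → d ≠ c → ∀ s : S, s • d = d → s = 1 := by
    intro d hda hdb hdc
    have h5 : ¬ 2 ∣ Nat.card (stabilizer S d) := by
      intro h6
      obtain ⟨z, hz⟩ := exists_prime_orderOf_dvd_card' (G := stabilizer S d) 2 h6
      have hz1 : orderOf (((z : S) : K) : G) = 2 := by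
        rw [Subgroup.orderOf_coe, Subgroup.orderOf_coe, Subgroup.orderOf_coe]; exact hz
      have h7 := hinv _ hz1
      have h8 : ({a, b, c, d} : Finset α) ⊆ fx ((((z : S) : K) : G) : Equiv.Perm α) := by
        intro e he
        rw [mem_fx]
        simp only [Finset.mem_insert, Finset.mem_singleton] at he
        rcases he with rfl | rfl | rfl | rfl
        · exact hSa (z : S)
        · exact hSb (z : S)
        · exact hSc (z : S)
        · exact z.2
      have h9 := Finset.card_le_card h8
      have h10 : ({a, b, c, d} : Finset α).card = 4 := by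
        rw [Finset.card_insert_of_notMem, Finset.card_insert_of_notMem, Finset.card_pair hdc.symm]
        · simp [hcb.symm, hdb.symm]
        · simp [hab, hca.symm, hda.symm]
      omega
    have h6 : Nat.card (stabilizer S d) = 1 := by
      obtain ⟨n, hn⟩ := IsPGroup.iff_card.1 (hSp.to_subgroup (stabilizer S d))
      rcases n with _ | n
      · simpa using hn
      · exact absurd (by rw [hn, pow_succ]; exact dvd_mul_left _ _) h5
    intro s hs
    have h7 : stabilizer S d = ⊥ := Subgroup.card_eq_one.1 h6
    have h8 : s ∈ stabilizer S d := hs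
    rw [h7] at h8
    exact Subgroup.mem_bot.1 h8
  -- K does not fix c
  obtain ⟨g₀, hg₀⟩ : ∃ g₀ : K, g₀ • c ≠ c := by
    by_contra hcon
    push Not at hcon
    have f3 : Fact (Nat.Prime 3) := ⟨Nat.prime_three⟩
    obtain ⟨R, hR⟩ := Sylow.exists_subgroup_card_pow_prime (G := K) 3 (n := 2) (by rw [hKcard]; norm_num)
    have hRp : IsPGroup 3 R := IsPGroup.of_card hR
    have hRfix := hfixp 3 R hRp
    have hRa : a ∈ fixedPoints R α := fun s => hKa _ (s : K).2
    have hRb : b ∈ fixedPoints R α := fun s => hKb _ (s : K).2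
    have hRc : c ∈ fixedPoints R α := fun s => hcon (s : K)
    have h3le : 3 ≤ Nat.card (fixedPoints R α) := by
      have h5 : ({a, b, c} : Set α) ⊆ fixedPoints R α := by
        rintro e (rfl | rfl | rfl)
        · exact hRa
        · exact hRb
        · exact hRc
      have h6 := Set.ncard_le_ncard h5
      have h7 : ({a, b, c} : Set α).ncard = 3 :=
        Set.ncard_eq_three.2 ⟨a, b, c, hab, hca.symm, hcb.symm, rfl⟩
      rw [h7] at h6
      exact h6
    have h5le : 5 ≤ Nat.card (fixedPoints R α) := by
      unfold Nat.ModEq at hRfix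
      omega
    -- elements of order three in R
    have h3el : ∀ z : R, orderOf z = 3 → ∀ d, z • d = d → d ∈ fixedPoints R α := by
      intro z hz
      have hz1 : orderOf ((((z : K) : G)) : Equiv.Perm α) = 3 := by
        rw [Subgroup.orderOf_coe, Subgroup.orderOf_coe, Subgroup.orderOf_coe]; exact hz
      have h5 := card_modEq_fx ((((z : K) : G)) : Equiv.Perm α) (q := 3) Nat.prime_three
        (by rw [← hz1]; exact pow_orderOf_eq_one _)
      have h6 := not_cycle G hprim hA (q := 3) Nat.prime_three (by omega) ((z : K) : G).2 hz1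
      have h7 := card_fx_add ((((z : K) : G)) : Equiv.Perm α)
      rw [hα] at h5 h6 h7
      have h8 : (fx ((((z : K) : G)) : Equiv.Perm α)).card ≠ 11 := by
        intro h9
        have := eq_one_of_card_fx _ (by rw [h9, hα])
        rw [this, orderOf_one] at hz1
        omega
      have h9 : (fx ((((z : K) : G)) : Equiv.Perm α)).card ≤ 5 := by
        unfold Nat.ModEq at h5
        omega
      have h10 : fixedPoints R α ⊆ (fx ((((z : K) : G)) : Equiv.Perm α) : Set α) := by
        intro d hd
        rw [Finset.mem_coe, mem_fx]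
        exact hd z
      have h11 : fixedPoints R α = (fx ((((z : K) : G)) : Equiv.Perm α) : Set α) := by
        apply Set.eq_of_subset_of_ncard_le h10
        rw [Set.ncard_coe_finset]
        exact h9.trans h5le
      intro d hd
      rw [h11, Finset.mem_coe, mem_fx]
      exact hd
    obtain ⟨d, hd⟩ : ∃ d, d ∉ fixedPoints R α := by
      by_contra hcon2
      push Not at hcon2
      have h5 : 3 ∣ Nat.card R := by rw [hR]; norm_num
      obtain ⟨z, hz⟩ := exists_prime_orderOf_dvd_card' (G := R) 3 h5
      have hz1 : orderOf ((((z : K) : G)) : Equiv.Perm α) = 3 := by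
        rw [Subgroup.orderOf_coe, Subgroup.orderOf_coe, Subgroup.orderOf_coe]; exact hz
      have : ((((z : K) : G)) : Equiv.Perm α) = 1 := by
        ext e
        exact hcon2 e z
      rw [this, orderOf_one] at hz1
      omega
    have h5 : ¬ 3 ∣ Nat.card (stabilizer R d) := by
      intro h6
      obtain ⟨z, hz⟩ := exists_prime_orderOf_dvd_card' (G := stabilizer R d) 3 h6
      exact hd (h3el (z : R) (by rw [Subgroup.orderOf_coe]; exact hz) d z.2)
    have h6 : Nat.card (stabilizer R d) = 1 := by
      obtain ⟨n, hn⟩ := IsPGroup.iff_card.1 (hRp.to_subgroup (stabilizer R d))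
      rcases n with _ | n
      · simpa using hn
      · exact absurd (by rw [hn, pow_succ]; exact dvd_mul_left _ _) h5
    have h7 := Subgroup.card_mul_index (stabilizer R d)
    rw [h6, one_mul, hR, MulAction.index_stabilizer] at h7
    -- the orbit avoids the fixed points
    have h8 : orbit R d ⊆ (fixedPoints R α)ᶜ := by
      rintro e ⟨r, rfl⟩ he
      apply hd
      have h9 := he r⁻¹
      have h10 : d = r • d := by
        have : r⁻¹ • (r • d) = r • d := h9
        rwa [inv_smul_smul] at this
      rw [h10]
      exact he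
    have h9 := Set.ncard_le_ncard h8
    have h10 := Set.ncard_add_ncard_compl (fixedPoints R α)
    rw [Nat.card_eq_fintype_card (α := α), hα] at h10
    have h11 : (fixedPoints R α).ncard = Nat.card (fixedPoints R α) := rfl
    omega
  -- the stabilizer of c in K has order 8
  have horb : 9 ≤ (orbit K c).ncard := by
    obtain ⟨d, hd⟩ : ∃ d, d = g₀ • c := ⟨_, rfl⟩
    have hda : d ≠ a := by
      intro h
      apply hca
      have h5 : g₀ • c = g₀ • a := by
        rw [← hd, h]; exact (hKa _ g₀.2).symm
      exact smul_left_cancel g₀ h5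
    have hdb : d ≠ b := by
      intro h
      apply hcb
      have h5 : g₀ • c = g₀ • b := by
        rw [← hd, h]; exact (hKb _ g₀.2).symm
      exact smul_left_cancel g₀ h5
    have hdc : d ≠ c := by rw [hd]; exact hg₀
    have h5 : stabilizer S d = ⊥ := by
      rw [eq_bot_iff]
      intro s hs
      exact Subgroup.mem_bot.2 (hSd d hda hdb hdc s hs)
    have h6 := Subgroup.card_mul_index (stabilizer S d)
    rw [h5, Subgroup.card_bot, one_mul, hS, ← h5, MulAction.index_stabilizer] at h6
    have h7 : insert c (orbit S d) ⊆ orbit K c := by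
      rintro e (rfl | ⟨s, rfl⟩)
      · exact mem_orbit_self e
      · refine ⟨(s : K) * g₀, ?_⟩
        show ((s : K) * g₀) • c = s • d
        rw [mul_smul, ← hd]
        rfl
    have h8 : c ∉ orbit S d := by
      rintro ⟨s, hs⟩
      apply hdc
      have h9 : s • d = s • c := by
        have h10 : s • d = c := hs
        rw [h10]; exact (hSc s).symm
      exact smul_left_cancel s h9
    have h9 := Set.ncard_le_ncard h7
    rw [Set.ncard_insert_of_notMem h8] at h9
    omega
  have hKc : Nat.card (stabilizer K c) ≤ 8 := by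
    have h5 := Subgroup.card_mul_index (stabilizer K c)
    rw [MulAction.index_stabilizer, hKcard] at h5
    nlinarith
  have hSK : S = stabilizer K c := by
    apply Subgroup.eq_of_le_of_card_ge
    · intro s hs
      exact hSc ⟨s, hs⟩
    · rw [hS]; exact hKc
  -- a fourth point
  obtain ⟨d, hd⟩ : ∃ d, d ∉ ({a, b, c} : Finset α) := by
    by_contra hcon
    push Not at hcon
    have h5 : (Finset.univ : Finset α) ⊆ {a, b, c} := fun e _ => hcon e
    have h6 := Finset.card_le_card h5
    have h7 : ({a, b, c} : Finset α).card ≤ 3 := Finset.card_le_three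
    rw [Finset.card_univ, hα] at h6
    omega
  simp only [Finset.mem_insert, Finset.mem_singleton, not_or] at hd
  obtain ⟨hda, hdb, hdc⟩ := hd
  obtain ⟨x, hx0, hx1, hx2, hx3⟩ := exists_emb4 hab hca.symm (Ne.symm hda) hcb.symm (Ne.symm hdb) (Ne.symm hdc)
  have hstab : stabilizer G x = ⊥ := by
    rw [eq_bot_iff]
    intro g hg
    have h5 : ∀ i, g • x i = x i := fun i => congrArg (fun y : Fin 4 ↪ α => y i) hg
    have ha : g • a = a := by rw [← hx0]; exact h5 0
    have hb : g • b = b := by rw [← hx1]; exact h5 1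
    have hc : g • c = c := by rw [← hx2]; exact h5 2
    have hd' : g • d = d := by rw [← hx3]; exact h5 3
    have hgK : g ∈ K := by
      rw [hK, Subgroup.mem_inf]; exact ⟨ha, hb⟩
    have hgS : (⟨g, hgK⟩ : K) ∈ S := by
      rw [hSK]; exact hc
    have h6 := hSd d hda hdb hdc ⟨⟨g, hgK⟩, hgS⟩ hd'
    rw [Subgroup.mem_bot]
    have h7 := congrArg (fun s : S => ((s : K) : G)) h6
    exact h7
  -- transitivity by counting
  have h6 : Nat.card (Fin 4 ↪ α) = 7920 := by
    rw [Nat.card_eq_fintype_card, Fintype.card_embedding_eq, Fintype.card_fin, hα]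
    decide
  exact regular_of x hstab (by rw [hcard, h6])

end Eleven

end Cfsg.Agent.H41.D11
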