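import Mathlib
import Cfsg.Agent.H41.DegElevenC
import Cfsg.Agent.S0435
import Cfsg.Agent.S0498
import Cfsg.Agent.S1013

set_option autoImplicit false

/-! Permutation groups of degree eleven: passing to the even part. -/

namespace Cfsg.Agent.H41.D11

open Equiv.Perm MulAction

variable {α : Type*} [Fintype α] [DecidableEq α]

theorem sign_eq_one_of_eleven (x : Equiv.Perm α) (hx : orderOf x = 11) : Equiv.Perm.sign x = 1 := by
  have h1 : (Equiv.Perm.sign x) ^ 11 = 1 := by
    rw [← map_pow, ← hx, pow_orderOf_eq_one, map_one]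
  rcases Int.units_eq_one_or (Equiv.Perm.sign x) with h | h
  · exact h
  · rw [h] at h1
    exact absurd h1 (by decide)

section Eleven

variable (hα : Fintype.card α = 11) (G : Subgroup (Equiv.Perm α)) [IsPretransitive G α]

include hα

theorem even_transitive : IsPretransitive (G ⊓ alternatingGroup α : Subgroup (Equiv.Perm α)) α := by
  have : Fact (Nat.Prime 11) := ⟨by norm_num⟩
  obtain ⟨x, hxG, hx⟩ := H12.exists_orderOf_prime_degree hα G
  obtain ⟨e, he⟩ := H12.exists_coords hα x hx
  have hxA : x ∈ (G ⊓ alternatingGroup α : Subgroup (Equiv.Perm α)) := by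
    rw [Subgroup.mem_inf, Equiv.Perm.mem_alternatingGroup]
    exact ⟨hxG, sign_eq_one_of_eleven x hx⟩
  have h2 : ∀ (n : ℕ) (a : α), e ((x ^ n) a) = e a + n := by
    intro n a
    induction n with
    | zero => simp
    | succ k ih =>
      rw [pow_succ', Equiv.Perm.mul_apply, he, ih]
      push_cast
      ring
  constructor
  intro a b
  refine ⟨⟨x, hxA⟩ ^ (e b - e a).val, ?_⟩
  show (x ^ (e b - e a).val) a = b
  apply e.injective
  rw [h2, ZMod.natCast_zmod_val]
  ring

omit hα [IsPretransitive G α] in
theorem even_not_solvable (hS : ¬ Group.IsSolvable G) :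
    ¬ Group.IsSolvable (G ⊓ alternatingGroup α : Subgroup (Equiv.Perm α)) := by
  intro h
  apply hS
  apply Group.isSolvable_of_ker_le_range
    (Subgroup.inclusion (inf_le_left : G ⊓ alternatingGroup α ≤ G)) (Equiv.Perm.sign.comp G.subtype)
  intro g hg
  refine ⟨⟨(g : Equiv.Perm α), ?_⟩, rfl⟩
  rw [Subgroup.mem_inf, Equiv.Perm.mem_alternatingGroup]
  exact ⟨g.2, hg⟩

omit hα [IsPretransitive G α] in
theorem card_even (h : ¬ G ≤ alternatingGroup α) :
    Nat.card G = 2 * Nat.card (G ⊓ alternatingGroup α : Subgroup (Equiv.Perm α)) := by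
  obtain ⟨f, hf⟩ : ∃ f : G →* ℤˣ, f = Equiv.Perm.sign.comp G.subtype := ⟨_, rfl⟩
  have h1 := Subgroup.card_mul_index f.ker
  have h2 : f.range = ⊤ := by
    rw [eq_top_iff]
    intro u _
    rcases Int.units_eq_one_or u with hu | hu
    · rw [hu]; exact one_mem _
    · obtain ⟨g, hg, hgA⟩ := Set.not_subset.1 h
      refine ⟨⟨g, hg⟩, ?_⟩
      rw [hf, hu]
      show Equiv.Perm.sign g = -1
      rcases Int.units_eq_one_or (Equiv.Perm.sign g) with h3 | h3
      · exact absurd (Equiv.Perm.mem_alternatingGroup.2 h3) hgA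
      · exact h3
  have h3 : f.ker.index = 2 := by
    rw [Subgroup.index_ker, h2, Subgroup.card_top, Nat.card_eq_fintype_card]
    rfl
  have h4 : (f.ker.map G.subtype) = G ⊓ alternatingGroup α := by
    ext g
    rw [Subgroup.mem_inf, Equiv.Perm.mem_alternatingGroup]
    constructor
    · rintro ⟨y, hy, rfl⟩
      refine ⟨y.2, ?_⟩
      have h5 : f y = 1 := hy
      rw [hf] at h5
      exact h5
    · rintro ⟨hg, hs⟩
      refine ⟨⟨g, hg⟩, ?_, rfl⟩
      show f ⟨g, hg⟩ = 1
      rw [hf]
      exact hs
  rw [← h4, Subgroup.card_map_of_injective (Subgroup.subtype_injective _), ← h1, h3, mul_comm]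

theorem simple_of (hS : ¬ Group.IsSolvable G) (hE : G ≤ alternatingGroup α)
    (hcard : Nat.card G ≠ 55) : IsSimpleGroup G := by
  have : Fact (Nat.Prime 11) := ⟨by norm_num⟩
  obtain ⟨P⟩ : Nonempty (Sylow 11 G) := inferInstance
  have hN := normalizer_even_card hα G hS hE P
  obtain ⟨hPc, x, hx, hPx⟩ := H12.sylow_eq_zpowers hα G P
  have h2 : Nat.card (Sylow 11 G) = (Subgroup.normalizer ((P : Subgroup G) : Set G)).index :=
    P.card_eq_index_normalizer
  have h3 := Subgroup.card_mul_index (Subgroup.normalizer ((P : Subgroup G) : Set G))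
  rw [hN, ← h2] at h3
  have hpos : 0 < Nat.card (Sylow 11 G) := Nat.card_pos
  have hn : 1 < Nat.card (Sylow 11 G) := by
    by_contra hcon
    have h5 : Nat.card (Sylow 11 G) = 1 := by omega
    rw [h5] at h3
    exact hcard (by omega)
  apply S1013.result hα G P hn
  have h5 := Subgroup.card_mul_index
    ((P : Subgroup ↥G).subgroupOf (Subgroup.normalizer ((P : Subgroup ↥G) : Set ↥G)))
  rw [hN, Nat.card_congr (Subgroup.subgroupOfEquivOfLe Subgroup.le_normalizer).toEquiv, hPc] at h5
  have h6 : ((P : Subgroup ↥G).subgroupOf (Subgroup.normalizer ((P : Subgroup ↥G) : Set ↥G))).index = 5 := by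
    omega
  rw [h6]
  norm_num

theorem order7920 (hS : ¬ Group.IsSolvable G) (hA : ¬ alternatingGroup α ≤ G)
    (hE : G ≤ alternatingGroup α) (hcard : Nat.card G = 7920) :
    IsMultiplyPretransitive G α 4 ∧ ∀ x : Fin 4 ↪ α, stabilizer G x = ⊥ := by
  have : Fact (Nat.Prime 11) := ⟨by norm_num⟩
  have hM : Cfsg.IsM11 G := ⟨simple_of hα G hS hE (by omega), hcard⟩
  have h2 := H12.burnside_prime_degree hα G hS
  exact sharply hα G hE hA h2 hcard
    (fun t ht => involution_fix hα G hE h2 hcard (fun x hx => S0435.result hM x hx) t ht)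

theorem order660 (hS : ¬ Group.IsSolvable G) 
    (hE : G ≤ alternatingGroup α) (hcard : Nat.card G = 660) :
    Nonempty (G ≃* Matrix.ProjectiveSpecialLinearGroup (Fin 2) (ZMod 11)) := by
  have : Fact (Nat.Prime 11) := ⟨by norm_num⟩
  have := simple_of hα G hS hE (by omega)
  exact S0498.result 11 (Or.inl rfl) (by rw [hcard]; norm_num) (ZMod.card 11)

theorem is_even (hS : ¬ Group.IsSolvable G) (hA : ¬ alternatingGroup α ≤ G) :
    G ≤ alternatingGroup α := by
  classical
  by_contra hE
  have f11 : Fact (Nat.Prime 11) := ⟨by norm_num⟩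
  have hprim : IsPreprimitive G α := IsPreprimitive.of_prime_card (by
    rw [Nat.card_eq_fintype_card, hα]; norm_num)
  have hc := card_even G hE
  have hT := even_transitive hα G
  have hS' := even_not_solvable G hS
  have hA' : ¬ alternatingGroup α ≤ G ⊓ alternatingGroup α := fun h => hA (h.trans inf_le_left)
  have hE' : G ⊓ alternatingGroup α ≤ alternatingGroup α := inf_le_right
  rcases eq_cases hα (G ⊓ alternatingGroup α) hS' hA' hE' with h | h
  · -- order 1320
    rw [h] at hc
    obtain ⟨P⟩ : Nonempty (Sylow 11 G) := inferInstance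
    obtain ⟨hPc, x, hx, hPx⟩ := H12.sylow_eq_zpowers hα G P
    have h1 := normalizer_card_dvd hα G P
    have h2 : Nat.card (Sylow 11 G) = (Subgroup.normalizer ((P : Subgroup G) : Set G)).index :=
      P.card_eq_index_normalizer
    have h3 := Subgroup.card_mul_index (Subgroup.normalizer ((P : Subgroup G) : Set G))
    have h4 := card_sylow_modEq_one 11 G
    rw [← h2, hc] at h3
    have h5 : 11 ∣ Nat.card (Subgroup.normalizer ((P : Subgroup G) : Set G)) := by
      have h50 := Subgroup.card_dvd_of_le (Subgroup.le_normalizer (H := (P : Subgroup G)))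
      rw [hPc] at h50
      exact h50
    have heven : Even (Nat.card (Subgroup.normalizer ((P : Subgroup G) : Set G))) := by
      obtain ⟨n, hn⟩ : ∃ n, n = Nat.card (Subgroup.normalizer ((P : Subgroup G) : Set G)) := ⟨_, rfl⟩
      obtain ⟨c, hcc⟩ : ∃ c, c = Nat.card (Sylow 11 G) := ⟨_, rfl⟩
      rw [← hn] at h1 h3 h5 ⊢
      rw [← hcc] at h3 h4
      clear hn hcc h2
      obtain ⟨m, rfl⟩ := h5
      have h6 : m ∣ 10 := Nat.dvd_of_mul_dvd_mul_left (k := 11) (by norm_num) h1
      have h7 : m ≤ 10 := Nat.le_of_dvd (by norm_num) h6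
      unfold Nat.ModEq at h4
      have h8 : m = 10 := by
        interval_cases m <;> first | rfl | (exfalso; omega)
      rw [h8]
      decide
    have h6 := H12.three_transitive_prime_degree hα G hS P heven
    obtain ⟨y⟩ : Nonempty (Fin 3 ↪ α) := by
      apply Function.Embedding.nonempty_of_card_le
      rw [Fintype.card_fin, hα]; norm_num
    have h7 := card_stabilizer_mul G 3 h6 y
    rw [hα, hc] at h7
    have h8 : Nat.descFactorial 11 3 = 990 := by decide
    rw [h8] at h7
    omega
  · -- order 15840
    rw [h] at hc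
    obtain ⟨h4, hst⟩ := order7920 hα _ hS' hA' hE' h
    have h4G : IsMultiplyPretransitive G α 4 := by
      constructor
      intro y z
      obtain ⟨g, hg⟩ := h4.exists_smul_eq y z
      exact ⟨⟨g.1, g.2.1⟩, hg⟩
    have hcs : ∀ y : Fin 4 ↪ α, Nat.card (stabilizer G y) = 2 := by
      intro y
      have h7 := card_stabilizer_mul G 4 h4G y
      rw [hα, hc] at h7
      have h8 : Nat.descFactorial 11 4 = 7920 := by decide
      rw [h8] at h7
      omega
    obtain ⟨x⟩ : Nonempty (Fin 4 ↪ α) := by
      apply Function.Embedding.nonempty_of_card_le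
      rw [Fintype.card_fin, hα]; norm_num
    have f2 : Fact (Nat.Prime 2) := ⟨Nat.prime_two⟩
    obtain ⟨r, hr⟩ := exists_prime_orderOf_dvd_card' (G := stabilizer G x) 2 (by rw [hcs])
    have hr1 : orderOf (r : G) = 2 := by rw [Subgroup.orderOf_coe]; exact hr
    obtain ⟨ρ, hρ⟩ : ∃ ρ : Equiv.Perm α, ρ = ((r : G) : Equiv.Perm α) := ⟨_, rfl⟩
    have hρo : orderOf ρ = 2 := by rw [hρ, Subgroup.orderOf_coe]; exact hr1
    have hρG : ρ ∈ G := by rw [hρ]; exact (r : G).2
    -- stabilizers of four points: an element of G fixing four points and even is trivial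
    have hfour : ∀ (y : Fin 4 ↪ α) (g : Equiv.Perm α) (hg : g ∈ G), (∀ i, g (y i) = y i) →
        (⟨g, hg⟩ : G) ∈ stabilizer G y := by
      intro y g hg hy
      rw [mem_stabilizer_iff]
      ext i
      exact hy i
    have hρx : ∀ i, ρ (x i) = x i := by
      intro i
      have h5 : (r : G) • x = x := r.2
      have h6 := congrArg (fun y : Fin 4 ↪ α => y i) h5
      rw [hρ]
      exact h6
    obtain ⟨k, hk1, hk2, hk3⟩ := sign_involution ρ hρo
    have h5 := card_fx_add ρ
    rw [hα, hk1] at h5
    have h6 : 4 ≤ (fx ρ).card := by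
      have h7 : (Finset.univ.map x) ⊆ fx ρ := by
        intro a ha
        rw [Finset.mem_map] at ha
        obtain ⟨i, _, rfl⟩ := ha
        rw [mem_fx]
        exact hρx i
      have h8 := Finset.card_le_card h7
      rwa [Finset.card_map, Finset.card_univ, Fintype.card_fin] at h8
    have hk : k = 1 ∨ k = 3 := by
      have h7 : k ≤ 3 := by omega
      interval_cases k
      · left; rfl
      · exfalso
        have h8 : ρ ∈ G ⊓ alternatingGroup α := by
          rw [Subgroup.mem_inf, Equiv.Perm.mem_alternatingGroup]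
          exact ⟨hρG, by rw [hk2]; decide⟩
        have h9 : (⟨ρ, h8⟩ : (G ⊓ alternatingGroup α : Subgroup (Equiv.Perm α))) ∈
            stabilizer (G ⊓ alternatingGroup α : Subgroup (Equiv.Perm α)) x := by
          rw [mem_stabilizer_iff]
          ext i
          exact hρx i
        rw [hst x, Subgroup.mem_bot] at h9
        have h10 := congrArg Subtype.val h9
        have h11 : ρ = 1 := h10
        rw [h11, orderOf_one] at hρo
        omega
      · right; rfl
    rcases hk with hk | hk
    · -- a transposition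
      have h7 : ρ.support.card = 2 := by rw [hk1, hk]
      have h8 : ρ.IsSwap := Equiv.Perm.card_support_eq_two.1 h7
      have h9 := Equiv.Perm.subgroup_eq_top_of_isPreprimitive_of_isSwap_mem hprim ρ h8 hρG
      exact hA (by rw [h9]; exact le_top)
    · have hF : (fx ρ).card = 5 := by omega
      -- the centralizer is transitive on fixed points
      have huniq : ∀ (y : Fin 4 ↪ α) (g g' : Equiv.Perm α), g ∈ G → g' ∈ G → g ≠ 1 → g' ≠ 1 →
          (∀ i, g (y i) = y i) → (∀ i, g' (y i) = y i) → g = g' := by
        intro y g g' hg hg' h1 h1' hy hy'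
        have h7 := hcs y
        by_contra hne
        have h8 : ({1, ⟨g, hg⟩, ⟨g', hg'⟩} : Set G) ⊆ (stabilizer G y : Set G) := by
          rintro u (rfl | rfl | rfl)
          · exact one_mem _
          · exact hfour y g hg hy
          · exact hfour y g' hg' hy'
        have h9 := Set.ncard_le_ncard h8
        have h10 : ({1, ⟨g, hg⟩, ⟨g', hg'⟩} : Set G).ncard = 3 := by
          rw [Set.ncard_eq_three]
          refine ⟨1, ⟨g, hg⟩, ⟨g', hg'⟩, ?_, ?_, ?_, rfl⟩
          · intro h; exact h1 (congrArg Subtype.val h).symm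
          · intro h; exact h1' (congrArg Subtype.val h).symm
          · intro h; exact hne (congrArg Subtype.val h)
        rw [h10] at h9
        have h11 : (stabilizer G y : Set G).ncard = Nat.card (stabilizer G y) := rfl
        omega
      have hρ1 : ρ ≠ 1 := by
        intro h; rw [h, orderOf_one] at hρo; omega
      have hFcard : Fintype.card {a // a ∈ fx ρ} = 5 := by rw [Fintype.card_coe, hF]
      have htup : ∀ u ∈ fx ρ, ∃ y : Fin 4 ↪ α, y 0 = u ∧ ∀ i, ρ (y i) = y i := by
        intro u hu
        obtain ⟨y0⟩ : Nonempty (Fin 4 ↪ {a // a ∈ fx ρ}) := by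
          apply Function.Embedding.nonempty_of_card_le
          rw [Fintype.card_fin, hFcard]; norm_num
        refine ⟨(y0.trans (Equiv.swap (y0 0) ⟨u, hu⟩).toEmbedding).trans (Function.Embedding.subtype _), ?_, ?_⟩
        · show ((Equiv.swap (y0 0) ⟨u, hu⟩ (y0 0) : {a // a ∈ fx ρ}) : α) = u
          rw [Equiv.swap_apply_left]
        · intro i
          exact mem_fx.1 ((Equiv.swap (y0 0) ⟨u, hu⟩ (y0 i) : {a // a ∈ fx ρ})).2
      have hct : ∀ u ∈ fx ρ, ∀ v ∈ fx ρ, ∃ g : G, g * (r : G) = (r : G) * g ∧ g • u = v := by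
        intro u hu v hv
        obtain ⟨y, hy0, hy⟩ := htup u hu
        obtain ⟨z, hz0, hz⟩ := htup v hv
        obtain ⟨g, hg⟩ := h4G.exists_smul_eq y z
        have h7 : ∀ i, (g : Equiv.Perm α) (y i) = z i := fun i =>
          congrArg (fun w : Fin 4 ↪ α => w i) hg
        have h8 : (g : Equiv.Perm α) * ρ * (g : Equiv.Perm α)⁻¹ = ρ := by
          apply huniq z
          · exact G.mul_mem (G.mul_mem g.2 hρG) (G.inv_mem g.2)
          · exact hρG
          · intro h
            apply hρ1
            have h9 : ρ = (g : Equiv.Perm α)⁻¹ * ((g : Equiv.Perm α) * ρ * (g : Equiv.Perm α)⁻¹) * (g : Equiv.Perm α) := by group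
            rw [h9, h]; group
          · exact hρ1
          · intro i
            have h90 : ((g : Equiv.Perm α)⁻¹) ((g : Equiv.Perm α) (y i)) = y i :=
              (g : Equiv.Perm α).symm_apply_apply (y i)
            rw [← h7 i, Equiv.Perm.mul_apply, Equiv.Perm.mul_apply, h90, hy i]
          · exact hz
        refine ⟨g, ?_, ?_⟩
        · apply Subtype.ext
          show (g : Equiv.Perm α) * ((r : G) : Equiv.Perm α) = ((r : G) : Equiv.Perm α) * (g : Equiv.Perm α)
          rw [← hρ]
          exact mul_inv_eq_iff_eq_mul.1 h8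
        · rw [← hy0, ← hz0]; exact h7 0
      obtain ⟨u, hu⟩ : (fx ρ).Nonempty := by
        rw [← Finset.card_pos]; omega
      have horb : orbit (Subgroup.centralizer ({(r : G)} : Set G)) u = (fx ρ : Set α) := by
        ext v
        constructor
        · rintro ⟨g, rfl⟩
          rw [Finset.mem_coe, mem_fx]
          have h7 : (g : G) * (r : G) = (r : G) * g := Subgroup.mem_centralizer_singleton_iff.1 g.2
          have h8 := congrArg (fun w : G => (w : Equiv.Perm α) u) h7
          have h9 : ((g : G) : Equiv.Perm α) (ρ u) = ρ (((g : G) : Equiv.Perm α) u) := by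
            rw [hρ]; exact h8
          rw [mem_fx.1 hu] at h9
          exact h9.symm
        · intro hv
          obtain ⟨g, hg1, hg2⟩ := hct u hu v (Finset.mem_coe.1 hv)
          exact ⟨⟨g, Subgroup.mem_centralizer_singleton_iff.2 hg1⟩, hg2⟩
      have h7 := Subgroup.card_mul_index (stabilizer (Subgroup.centralizer ({(r : G)} : Set G)) u)
      rw [MulAction.index_stabilizer, horb, Set.ncard_coe_finset, hF] at h7
      have f5 : Fact (Nat.Prime 5) := ⟨by norm_num⟩
      obtain ⟨w, hw⟩ := exists_prime_orderOf_dvd_card' (G := Subgroup.centralizer ({(r : G)} : Set G)) 5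
        (by rw [← h7]; exact dvd_mul_left _ _)
      obtain ⟨η, hη⟩ : ∃ η : Equiv.Perm α, η = ((w : G) : Equiv.Perm α) := ⟨_, rfl⟩
      have hηo : orderOf η = 5 := by
        rw [hη, Subgroup.orderOf_coe, Subgroup.orderOf_coe]; exact hw
      have hηρ : η * ρ = ρ * η := by
        have h8 : (w : G) * (r : G) = (r : G) * w := Subgroup.mem_centralizer_singleton_iff.1 w.2
        rw [hη, hρ]
        exact congrArg Subtype.val h8
      have h8 := card_fx_order_five hα G hprim hA (by rw [hη]; exact (w : G).2) hηo
      have hηa : ∀ a, η (ρ a) = ρ (η a) := fun a => by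
        have := congrArg (fun g : Equiv.Perm α => g a) hηρ
        exact this
      have h9 := modEq_of_invariant η (q := 5) (by norm_num) (by rw [← hηo]; exact pow_orderOf_eq_one η)
        ρ.support (by
          intro a ha
          rw [Equiv.Perm.mem_support] at ha ⊢
          rw [← hηa]
          intro h10
          exact ha (η.injective h10))
      rw [hk1, hk] at h9
      have h10 : 0 < (ρ.support.filter (fun a => η a = a)).card := by
        unfold Nat.ModEq at h9
        omega
      rw [Finset.card_pos] at h10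
      obtain ⟨v, hv⟩ := h10
      rw [Finset.mem_filter, Equiv.Perm.mem_support] at hv
      have h11 : ({v, ρ v} : Finset α) ⊆ fx η := by
        intro a ha
        rw [Finset.mem_insert, Finset.mem_singleton] at ha
        rw [mem_fx]
        rcases ha with rfl | rfl
        · exact hv.2
        · rw [hηa, hv.2]
      have h12 := Finset.card_le_card h11
      rw [Finset.card_pair (Ne.symm hv.1)] at h12
      omega

end Eleven

end Cfsg.Agent.H41.D11
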