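import Mathlib
import Cfsg.Agent.H43.InvolTwo3

set_option autoImplicit false
set_option linter.unusedSectionVars false

/-! Orders of centralizers of involutions in characteristic two, in isometry groups having the Witt property. -/

namespace Cfsg.Agent.H41

open Cfsg.Agent.H43 Matrix

section orbit
variable {F V : Type*} [Field F] [AddCommGroup V] [Module F V]

/-- the elements of `H` fixing the family `r` -/
def fixSet (H : Subgroup (V ≃ₗ[F] V)) {ι : Type*} (r : ι → V) : Set (V ≃ₗ[F] V) := {g | g ∈ H ∧ ∀ i, g (r i) = r i}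

theorem card_orbit_fam [Finite V] (H : Subgroup (V ≃ₗ[F] V)) {ι : Type*} (r : ι → V) (Y : Set (ι → V))
    (h1 : ∀ g ∈ H, (fun i => g (r i)) ∈ Y) (h2 : ∀ y ∈ Y, ∃ g ∈ H, ∀ i, g (r i) = y i) :
    Nat.card H = Nat.card Y * Nat.card (fixSet H r) := by
  classical
  choose! c hc hcr using h2
  rw [← Nat.card_prod]
  refine Nat.card_congr ⟨fun g => (⟨_, h1 g.1 g.2⟩, ⟨(c (fun i => g.1 (r i)))⁻¹ * g.1, ?_, ?_⟩),
    fun p => ⟨c p.1.1 * p.2.1, H.mul_mem (hc _ p.1.2) p.2.2.1⟩, ?_, ?_⟩
  · exact H.mul_mem (H.inv_mem (hc _ (h1 g.1 g.2))) g.2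
  · intro i
    show (c (fun i => g.1 (r i))).symm (g.1 (r i)) = r i
    rw [LinearEquiv.symm_apply_eq, hcr _ (h1 g.1 g.2)]
  · intro g
    apply Subtype.ext
    show c (fun i => g.1 (r i)) * ((c (fun i => g.1 (r i)))⁻¹ * g.1) = g.1
    rw [mul_inv_cancel_left]
  · rintro ⟨⟨y, hy⟩, ⟨g, hg, hgr⟩⟩
    have e1 : (fun i => (c y * g) (r i)) = y := by
      funext i
      show c y (g (r i)) = y i
      rw [hgr, hcr y hy]
    apply Prod.ext
    · exact Subtype.ext e1
    · apply Subtype.ext
      show (c (fun i => (c y * g) (r i)))⁻¹ * (c y * g) = g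
      rw [e1, inv_mul_cancel_left]

end orbit

section cent
variable {F V : Type*} [Field F] [AddCommGroup V] [Module F V] [FiniteDimensional F V] [CharP F 2]
variable {f : LinearMap.BilinForm F V} {G : Subgroup (V ≃ₗ[F] V)}

/-- the centralizer of `t` in `G` -/
def cen (G : Subgroup (V ≃ₗ[F] V)) (t : V ≃ₗ[F] V) : Subgroup (V ≃ₗ[F] V) := G ⊓ Subgroup.centralizer {t}

theorem mem_cen {t g : V ≃ₗ[F] V} : g ∈ cen G t ↔ g ∈ G ∧ g * t = t * g := by
  rw [cen, Subgroup.mem_inf, Subgroup.mem_centralizer_singleton_iff]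

theorem card_cen [Finite V] (hA : f.IsAlt) (hnd : ∀ x, (∀ y, f x y = 0) → x = 0)
    (hG : ∀ g ∈ G, ∀ x y, f (g x) (g y) = f x y) (hW : WittProp f G) {t : V ≃ₗ[F] V} (htG : t ∈ G)
    (ht : ∀ v, t (t v) = v) {ι : Type} [Fintype ι] [DecidableEq ι] {x : ι → V} {B : Matrix ι ι F} (hB : IsUnit B.det)
    (hx : IData f t x (fun i j => B i j)) :
    Nat.card (cen G t) = Nat.card {A : Matrix ι ι F // A * B * Aᵀ = B} * Nat.card (fixSet G (fun i => nn t (x i))) := by
  classical
  set r : ι → V := fun i => nn t (x i) with hr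
  have hinj : Function.Injective (fun A : Matrix ι ι F => (fun i => ∑ j, A i j • r j)) := by
    intro A A' h
    ext i j
    have h1 := congrFun h i
    simp only at h1
    rw [← sub_eq_zero, ← Finset.sum_sub_distrib] at h1
    have h2 := Fintype.linearIndependent_iff.1 hx.li (fun j => A i j - A' i j) (by
      rw [← h1]
      exact Finset.sum_congr rfl fun j _ => by rw [sub_smul])
    exact sub_eq_zero.1 (h2 j)
  have hsym : ∀ i j, B i j = B j i := by
    intro i j
    rw [← hx.gram i j, ← hx.gram j i]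
    exact f_nn_comm hA t ht (hG t htG) _ _
  have hgram : ∀ (A : Matrix ι ι F) (x' : ι → V), (∀ i, nn t (x' i) = ∑ j, A i j • r j) → ∀ i j, f (x' i) (nn t (x' j)) = (A * B * Aᵀ) i j := by
    intro A x' hx' i j
    rw [hx' j, map_sum, Matrix.mul_apply]
    refine Finset.sum_congr rfl fun l _ => ?_
    rw [map_smul, smul_eq_mul, Matrix.transpose_apply, f_nn_comm hA t ht (hG t htG), hx' i, map_sum, Matrix.mul_apply, mul_comm]
    congr 1
    refine Finset.sum_congr rfl fun k _ => ?_
    rw [map_smul, smul_eq_mul, hx.gram, hsym l k]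
  set Y : Set (ι → V) := Set.range (fun A : {A : Matrix ι ι F // A * B * Aᵀ = B} => (fun i => ∑ j, A.1 i j • r j)) with hY
  have hYc : Nat.card Y = Nat.card {A : Matrix ι ι F // A * B * Aᵀ = B} := by
    apply Nat.card_range_of_injective
    intro A A' h
    exact Subtype.ext (hinj h)
  have hfix : Nat.card (fixSet (cen G t) r) = Nat.card (fixSet G r) := by
    apply Nat.card_congr
    apply Equiv.setCongr
    ext g
    constructor
    · rintro ⟨h1, h2⟩
      exact ⟨(mem_cen.1 h1).1, h2⟩
    · rintro ⟨h1, h2⟩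
      exact ⟨mem_cen.2 ⟨h1, hx.conj hA hnd ht ht (hG t htG) (hG t htG) hx g (hG g h1) h2⟩, h2⟩
  rw [← hYc, ← hfix]
  apply card_orbit_fam
  · intro g hg
    obtain ⟨hg1, hg2⟩ := mem_cen.1 hg
    have h3 : ∀ v, g (nn t v) = nn t (g v) := fun v => nn_conj hg2 v
    have h4 : ∀ i, ∃ a : ι → F, ∑ j, a j • r j = g (r i) := by
      intro i
      rw [← Submodule.mem_span_range_iff_exists_fun, hr]
      simp only
      rw [h3]
      exact hx.span _
    choose A hAr using h4
    refine ⟨⟨Matrix.of A, ?_⟩, ?_⟩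
    · ext i j
      rw [← hgram (Matrix.of A) (fun i => g (x i)) (fun i => by rw [← h3]; exact (hAr i).symm), ← h3, hG g hg1, hx.gram]
    · funext i
      exact hAr i
  · rintro _ ⟨⟨A, hA'⟩, rfl⟩
    have hdet : IsUnit A.det := by
      have h := congrArg Matrix.det hA'
      rw [Matrix.det_mul, Matrix.det_mul, Matrix.det_transpose] at h
      rw [isUnit_iff_ne_zero]
      intro h0
      rw [h0, zero_mul, zero_mul] at h
      exact hB.ne_zero h.symm
    have hx' : IData f t (fun i => ∑ j, A i j • x j) (fun i j => B i j) := by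
      have e1 : ∀ i, nn t (∑ j, A i j • x j) = ∑ j, A i j • r j := by
        intro i
        rw [map_sum]
        exact Finset.sum_congr rfl fun j _ => map_smul _ _ _
      have e2 : ∀ i, r i ∈ Submodule.span F (Set.range fun i => nn t (∑ j, A i j • x j)) := by
        intro i
        rw [Submodule.mem_span_range_iff_exists_fun]
        refine ⟨fun k => A⁻¹ i k, ?_⟩
        simp only [e1, Finset.smul_sum, smul_smul]
        rw [Finset.sum_comm]
        have e3 : ∀ j, ∑ k, (A⁻¹ i k * A k j) • r j = (A⁻¹ * A) i j • r j := by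
          intro j
          rw [Matrix.mul_apply, Finset.sum_smul]
        simp only [e3, Matrix.nonsing_inv_mul A hdet]
        simp [Matrix.one_apply]
      have e4 : Submodule.span F (Set.range r) ≤ Submodule.span F (Set.range fun i => nn t (∑ j, A i j • x j)) := by
        rw [Submodule.span_le]
        rintro _ ⟨i, rfl⟩
        exact e2 i
      refine ⟨fun v => e4 (hx.span v), ?_, ?_⟩
      · rw [Fintype.linearIndependent_iff]
        intro c hc i
        simp only [e1, Finset.smul_sum, smul_smul] at hc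
        rw [Finset.sum_comm] at hc
        have h5 := Fintype.linearIndependent_iff.1 hx.li (fun j => ∑ k, c k * A k j) (by
          rw [← hc]
          exact Finset.sum_congr rfl fun j _ => Finset.sum_smul)
        have h6 : c ᵥ* A = 0 := by
          funext j
          exact h5 j
        have h7 : c = 0 := by
          have := congrArg (fun z => z ᵥ* A⁻¹) h6
          simp only [Matrix.vecMul_vecMul, Matrix.mul_nonsing_inv A hdet, Matrix.vecMul_one, Matrix.zero_vecMul] at this
          exact this
        exact congrFun h7 i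
      · intro i j
        rw [hgram A _ e1, hA']
    obtain ⟨g, hg, hgx⟩ := hW t htG t htG ht ht ι _ x _ hx hx'
    refine ⟨g, mem_cen.2 ⟨hg, hx.conj hA hnd ht ht (hG t htG) (hG t htG) hx' g (hG g hg) hgx⟩, fun i => ?_⟩
    rw [hr]
    simp only
    rw [hgx, map_sum]
    exact Finset.sum_congr rfl fun j _ => map_smul _ _ _

end cent

section frames

/-- counting families built one vector at a time -/
theorem card_frames {V : Type*} [Finite V] (P : ∀ k, (Fin k → V) → Prop) (E : ∀ k, (Fin k → V) → V → Prop)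
    (hP0 : ∀ r, P 0 r) (c : ℕ → ℕ) (s : ℕ) (hP : ∀ k < s, ∀ (r : Fin k → V) (v : V), P (k + 1) (Fin.snoc r v) ↔ P k r ∧ E k r v)
    (hc : ∀ k < s, ∀ r, P k r → Nat.card {v // E k r v} = c k) :
    Nat.card {r : Fin s → V // P s r} = ∏ k ∈ Finset.range s, c k := by
  classical
  induction s with
  | zero =>
    rw [Finset.prod_range_zero, Nat.card_eq_one_iff_unique]
    exact ⟨⟨fun a b => Subtype.ext (funext fun i => i.elim0)⟩, ⟨⟨Fin.elim0, hP0 _⟩⟩⟩
  | succ s ih =>
    have ih' := ih (fun k hk => hP k (by omega)) (fun k hk => hc k (by omega))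
    rw [Finset.prod_range_succ, ← ih']
    have e : {r : Fin (s + 1) → V // P (s + 1) r} ≃ Σ r : {r : Fin s → V // P s r}, {v // E s r.1 v} :=
      { toFun := fun r => ⟨⟨Fin.init r.1, ((hP s (by omega) (Fin.init r.1) (r.1 (Fin.last s))).1 (by rw [Fin.snoc_init_self]; exact r.2)).1⟩,
          ⟨r.1 (Fin.last s), ((hP s (by omega) (Fin.init r.1) (r.1 (Fin.last s))).1 (by rw [Fin.snoc_init_self]; exact r.2)).2⟩⟩
        invFun := fun p => ⟨Fin.snoc p.1.1 p.2.1, (hP s (by omega) _ _).2 ⟨p.1.2, p.2.2⟩⟩
        left_inv := fun r => by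
          apply Subtype.ext
          exact Fin.snoc_init_self _
        right_inv := by
          rintro ⟨⟨r, hr⟩, ⟨v, hv⟩⟩
          have h1 : Fin.init (Fin.snoc r v : Fin (s + 1) → V) = r := Fin.init_snoc _ _
          have h2 : (Fin.snoc r v : Fin (s + 1) → V) (Fin.last s) = v := Fin.snoc_last _ _
          simp only [h2]
          congr 1
          · exact Subtype.ext h1
          · congr 1
            · funext z
              rw [h1]
            · exact proof_irrel_heq _ _ }
    letI : Fintype {r : Fin s → V // P s r} := Fintype.ofFinite _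
    rw [Nat.card_congr e, Nat.card_sigma, Finset.sum_congr rfl (fun r _ => hc s (by omega) r.1 r.2), Finset.sum_const, Finset.card_univ,
      smul_eq_mul, Nat.card_eq_fintype_card]

end frames

end Cfsg.Agent.H41
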