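import Mathlib
import Cfsg.Agent.H41.InvolCent

set_option autoImplicit false
set_option linter.unusedSectionVars false

/-! The number of matrices with `A * Aᵀ = 1` in characteristic two. -/

namespace Cfsg.Agent.H41

open Matrix

section sol
variable {F V : Type*} [Field F] [AddCommGroup V] [Module F V] [FiniteDimensional F V]

theorem card_sol_gen {W : Type*} [AddCommGroup W] [Module F W] [Finite V] (L : V →ₗ[F] W) (hL : Function.Surjective L) (c : W) :
    Nat.card {v // L v = c} * Nat.card W = Nat.card V := by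
  obtain ⟨v₀, hv₀⟩ := hL c
  have h1 : Nat.card {v // L v = c} = Nat.card (LinearMap.ker L) := by
    refine Nat.card_congr ⟨fun v => ⟨v.1 - v₀, ?_⟩, fun v => ⟨v.1 + v₀, ?_⟩, fun v => ?_, fun v => ?_⟩
    · rw [LinearMap.mem_ker, map_sub, v.2, hv₀, sub_self]
    · rw [map_add, LinearMap.mem_ker.1 v.2, zero_add, hv₀]
    · exact Subtype.ext (sub_add_cancel _ _)
    · exact Subtype.ext (add_sub_cancel_right _ _)
  rw [h1, Submodule.card_eq_card_quotient_mul_card (LinearMap.ker L)]
  congr 1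
  exact Nat.card_congr (L.quotKerEquivOfSurjective hL).toEquiv.symm

theorem exists_dual_vec' {f : LinearMap.BilinForm F V} (hnd : ∀ x, (∀ y, f x y = 0) → x = 0) {ι : Type*}
    {r : ι → V} (hr : LinearIndependent F r) (c : ι → F) : ∃ x, ∀ i, f x (r i) = c i := by
  obtain ⟨φ, hφ⟩ : ∃ φ : Module.Dual F V, ∀ i, φ (r i) = c i := by
    obtain ⟨g, hg⟩ := LinearMap.exists_extend ((Module.Basis.span hr).constr F c)
    refine ⟨g, fun i => ?_⟩
    have h1 := LinearMap.congr_fun hg (Module.Basis.span hr i)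
    rw [Module.Basis.constr_basis, LinearMap.comp_apply, Submodule.subtype_apply, Module.Basis.span_apply] at h1
    exact h1
  have hinj : Function.Injective f := by
    rw [← LinearMap.ker_eq_bot, LinearMap.ker_eq_bot']
    intro x hx
    apply hnd
    intro y
    rw [hx]; rfl
  have hsurj : Function.Surjective f := by
    refine (LinearMap.injective_iff_surjective_of_finrank_eq_finrank ?_).1 hinj
    exact (Subspace.dual_finrank_eq).symm
  obtain ⟨x, hx⟩ := hsurj φ
  exact ⟨x, fun i => by rw [hx, hφ]⟩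

theorem card_sol [Finite F] {f : LinearMap.BilinForm F V} (hnd : ∀ x, (∀ y, f x y = 0) → x = 0) {ι : Type*} [Fintype ι]
    {r : ι → V} (hr : LinearIndependent F r) (c : ι → F) :
    Nat.card {v // ∀ i, f v (r i) = c i} * Nat.card F ^ Fintype.card ι = Nat.card V := by
  classical
  have : Finite V := Module.finite_of_finite F
  have h := card_sol_gen (LinearMap.pi (fun i => f.flip (r i))) (fun c => by
    obtain ⟨v, hv⟩ := exists_dual_vec' hnd hr c
    exact ⟨v, funext hv⟩) c
  rw [Nat.card_fun, Nat.card_eq_fintype_card (α := ι)] at h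
  rw [← h]
  congr 1
  exact Nat.card_congr (Equiv.subtypeEquivRight fun v => by
    rw [funext_iff]; rfl)

end sol

section ortho
variable {F : Type*} [Field F] [Finite F] [CharP F 2] {N : ℕ}

/-- the dot product -/
def dotB (F : Type*) [Field F] (N : ℕ) : LinearMap.BilinForm F (Fin N → F) :=
  LinearMap.mk₂ F (fun v w => v ⬝ᵥ w) (fun _ _ _ => add_dotProduct _ _ _) (fun _ _ _ => smul_dotProduct _ _ _)
    (fun _ _ _ => dotProduct_add _ _ _) (fun _ _ _ => dotProduct_smul _ _ _)

theorem dotB_apply (v w : Fin N → F) : dotB F N v w = v ⬝ᵥ w := rfl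

theorem dotB_nd (x : Fin N → F) (h : ∀ y, dotB F N x y = 0) : x = 0 := by
  funext i
  have := h (Pi.single i 1)
  rwa [dotB_apply, dotProduct_single, mul_one] at this

/-- `v ⬝ v = (v ⬝ 1)^2` -/
theorem dot_self (v : Fin N → F) : v ⬝ᵥ v = (v ⬝ᵥ 1) ^ 2 := by
  rw [dotProduct, dotProduct, CharTwo.sum_sq]
  exact Finset.sum_congr rfl fun i _ => by rw [Pi.one_apply, mul_one, pow_two]

/-- partial orthonormal families -/
def PO (k : ℕ) (r : Fin k → (Fin N → F)) : Prop :=
  (∀ i j, r i ⬝ᵥ r j = if i = j then 1 else 0) ∧ (k = N ∨ (1 : Fin N → F) ∉ Submodule.span F (Set.range r))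

/-- extension of partial orthonormal families -/
def EO (k : ℕ) (r : Fin k → (Fin N → F)) (v : Fin N → F) : Prop :=
  (∀ i, r i ⬝ᵥ v = 0) ∧ v ⬝ᵥ v = 1 ∧ (k + 1 = N ∨ (1 : Fin N → F) ∉ Submodule.span F (Set.range (Fin.snoc r v : Fin (k + 1) → _)))

theorem PO_li {k : ℕ} {r : Fin k → (Fin N → F)} (h : ∀ i j, r i ⬝ᵥ r j = if i = j then 1 else 0) : LinearIndependent F r := by
  rw [Fintype.linearIndependent_iff]
  intro c hc i
  have h1 := congrArg (fun z => z ⬝ᵥ r i) hc
  simp only [sum_dotProduct, smul_dotProduct, h, zero_dotProduct, smul_eq_mul, mul_ite, mul_one, mul_zero, Finset.sum_ite_eq', Finset.mem_univ, if_true] at h1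
  exact h1

theorem span_snoc {k : ℕ} (r : Fin k → (Fin N → F)) (v : Fin N → F) :
    Submodule.span F (Set.range (Fin.snoc r v : Fin (k + 1) → (Fin N → F))) = Submodule.span F (Set.range r) ⊔ Submodule.span F {v} := by
  rw [← Submodule.span_union]
  congr 1
  ext x
  simp only [Set.mem_range, Set.mem_union, Set.mem_singleton_iff]
  constructor
  · rintro ⟨i, rfl⟩
    refine Fin.lastCases ?_ (fun i => ?_) i
    · right; rw [Fin.snoc_last]
    · left; exact ⟨i, by rw [Fin.snoc_castSucc]⟩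
  · rintro (⟨i, rfl⟩ | rfl)
    · exact ⟨i.castSucc, by rw [Fin.snoc_castSucc]⟩
    · exact ⟨Fin.last k, by rw [Fin.snoc_last]⟩

theorem PO_snoc {k : ℕ} (hk : k < N) (r : Fin k → (Fin N → F)) (v : Fin N → F) :
    PO (k + 1) (Fin.snoc r v : Fin (k + 1) → _) ↔ PO k r ∧ EO k r v := by
  constructor
  · rintro ⟨h1, h2⟩
    have h3 : ∀ i j, r i ⬝ᵥ r j = if i = j then 1 else 0 := by
      intro i j
      have := h1 i.castSucc j.castSucc
      rw [Fin.snoc_castSucc, Fin.snoc_castSucc] at this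
      rw [this]
      simp [Fin.ext_iff]
    have h4 : ∀ i, r i ⬝ᵥ v = 0 := by
      intro i
      have := h1 i.castSucc (Fin.last k)
      rw [Fin.snoc_castSucc, Fin.snoc_last] at this
      rw [this, if_neg (Fin.castSucc_lt_last i).ne]
    have h5 : v ⬝ᵥ v = 1 := by
      have := h1 (Fin.last k) (Fin.last k)
      rw [Fin.snoc_last] at this
      rw [this, if_pos rfl]
    refine ⟨⟨h3, Or.inr fun hmem => ?_⟩, h4, h5, h2⟩
    rw [Submodule.mem_span_range_iff_exists_fun] at hmem
    obtain ⟨c, hc⟩ := hmem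
    have h6 : v ⬝ᵥ 1 = 0 := by
      rw [← hc, dotProduct_sum]
      refine Finset.sum_eq_zero fun i _ => ?_
      rw [dotProduct_smul, dotProduct_comm, h4, smul_zero]
    rw [dot_self, h6] at h5
    simp at h5
  · rintro ⟨⟨h1, h2⟩, h3, h4, h5⟩
    refine ⟨?_, h5⟩
    intro i j
    refine Fin.lastCases ?_ (fun i => ?_) i <;> refine Fin.lastCases ?_ (fun j => ?_) j
    · rw [Fin.snoc_last, h4, if_pos rfl]
    · rw [Fin.snoc_last, Fin.snoc_castSucc, dotProduct_comm, h3, if_neg (Fin.castSucc_lt_last j).ne']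
    · rw [Fin.snoc_last, Fin.snoc_castSucc, h3, if_neg (Fin.castSucc_lt_last i).ne]
    · rw [Fin.snoc_castSucc, Fin.snoc_castSucc, h1]
      simp [Fin.ext_iff]

theorem card_EO {k : ℕ} (hk : k < N) (r : Fin k → (Fin N → F)) (hr : PO k r) :
    Nat.card {v // EO k r v} = Nat.card F ^ (N - k - 1) - if Odd (N - k) ∧ k + 1 < N then 1 else 0 := by
  classical
  obtain ⟨h1, h2⟩ := hr
  have h2 : (1 : Fin N → F) ∉ Submodule.span F (Set.range r) := by
    rcases h2 with h2 | h2
    · omega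
    · exact h2
  have hli := PO_li h1
  have hli' : LinearIndependent F (Fin.snoc r 1 : Fin (k + 1) → (Fin N → F)) := by
    rw [linearIndependent_finSnoc]
    exact ⟨hli, h2⟩
  -- the solutions ignoring the last condition
  have hc := card_sol (f := dotB F N) dotB_nd hli' (Fin.snoc (fun _ => 0) 1)
  rw [Fintype.card_fin, Nat.card_fun, Nat.card_eq_fintype_card (α := Fin N), Fintype.card_fin] at hc
  have hq : 0 < Nat.card F := Nat.card_pos
  have hc' : Nat.card {v : Fin N → F // (∀ i, r i ⬝ᵥ v = 0) ∧ v ⬝ᵥ v = 1} = Nat.card F ^ (N - k - 1) := by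
    have e1 : Nat.card {v : Fin N → F // (∀ i, r i ⬝ᵥ v = 0) ∧ v ⬝ᵥ v = 1} = Nat.card {v // ∀ i, dotB F N v ((Fin.snoc r 1 : Fin (k + 1) → (Fin N → F)) i) = (Fin.snoc (fun _ => 0) 1 : Fin (k + 1) → F) i} := by
      refine Nat.card_congr (Equiv.subtypeEquivRight fun v => ?_)
      constructor
      · rintro ⟨h3, h4⟩ i
        refine Fin.lastCases ?_ (fun i => ?_) i
        · rw [Fin.snoc_last, Fin.snoc_last, dotB_apply]
          rw [dot_self] at h4
          exact CharTwo.sq_injective (by simpa using h4)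
        · rw [Fin.snoc_castSucc, Fin.snoc_castSucc, dotB_apply, dotProduct_comm, h3]
      · intro h3
        refine ⟨fun i => ?_, ?_⟩
        · have := h3 i.castSucc
          rwa [Fin.snoc_castSucc, Fin.snoc_castSucc, dotB_apply, dotProduct_comm] at this
        · have := h3 (Fin.last k)
          rw [Fin.snoc_last, Fin.snoc_last, dotB_apply] at this
          rw [dot_self, this, one_pow]
    rw [e1]
    have e2 : Nat.card F ^ N = Nat.card F ^ (N - k - 1) * Nat.card F ^ (k + 1) := by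
      rw [← pow_add]; congr 1; omega
    rw [e2] at hc
    exact Nat.eq_of_mul_eq_mul_right (pow_pos hq _) hc
  rcases Nat.lt_or_ge (k + 1) N with hk1 | hk1
  swap
  · have hk2 : k + 1 = N := by omega
    rw [if_neg (by omega), Nat.sub_zero, ← hc']
    refine Nat.card_congr (Equiv.subtypeEquivRight fun v => ?_)
    exact ⟨fun h => ⟨h.1, h.2.1⟩, fun h => ⟨h.1, h.2, Or.inl hk2⟩⟩
  -- the bad vector
  obtain ⟨w, hw⟩ : ∃ w : Fin N → F, w = 1 + ∑ i, r i := ⟨_, rfl⟩
  have hri : ∀ i, r i ⬝ᵥ 1 = 1 := by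
    intro i
    have h3 := h1 i i
    rw [if_pos rfl, dot_self] at h3
    exact CharTwo.sq_injective (by simpa using h3)
  have hwr : ∀ i, r i ⬝ᵥ w = 0 := by
    intro i
    rw [hw, dotProduct_add, hri, dotProduct_sum]
    simp only [h1, Finset.sum_ite_eq, Finset.mem_univ, if_true]
    exact CharTwo.add_self_eq_zero _
  have hw1 : w ⬝ᵥ 1 = ((N - k : ℕ) : F) := by
    rw [hw, add_dotProduct, sum_dotProduct]
    simp only [hri, Finset.sum_const, Finset.card_univ, Fintype.card_fin, nsmul_eq_mul, mul_one]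
    rw [Nat.cast_sub hk.le, CharTwo.sub_eq_add]
    congr 1
    rw [dotProduct]
    simp
  have hbad : ∀ v : Fin N → F, (∀ i, r i ⬝ᵥ v = 0) → v ⬝ᵥ v = 1 →
      ((1 : Fin N → F) ∈ Submodule.span F (Set.range (Fin.snoc r v : Fin (k + 1) → _)) ↔ v = w) := by
    intro v hv hvv
    have hv1 : v ⬝ᵥ 1 = 1 := by
      rw [dot_self] at hvv
      exact CharTwo.sq_injective (by simpa using hvv)
    rw [span_snoc, Submodule.mem_sup]
    constructor
    · rintro ⟨y, hy, z, hz, hyz⟩
      rw [Submodule.mem_span_range_iff_exists_fun] at hy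
      obtain ⟨c, rfl⟩ := hy
      obtain ⟨a, rfl⟩ := Submodule.mem_span_singleton.1 hz
      have e1 : ∀ i, c i = 1 := by
        intro i
        rw [← hri i, ← hyz, dotProduct_add, dotProduct_sum, dotProduct_smul, hv, smul_zero, add_zero]
        simp only [dotProduct_smul, h1, smul_eq_mul, mul_ite, mul_one, mul_zero, Finset.sum_ite_eq, Finset.mem_univ, if_true]
      have e2 : a = 1 := by
        rw [← hv1, ← hyz, dotProduct_add, dotProduct_sum, dotProduct_smul, hvv]
        rw [Finset.sum_eq_zero (fun i _ => by rw [dotProduct_smul, dotProduct_comm, hv, smul_zero])]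
        simp
      rw [e2, one_smul] at hyz
      simp only [e1, one_smul] at hyz
      rw [hw, ← hyz, add_comm (∑ i, r i) v, add_assoc]
      have e3 : ∑ i, r i + ∑ i, r i = 0 := by
        funext j
        exact CharTwo.add_self_eq_zero _
      rw [e3, add_zero]
    · intro hvw
      refine ⟨∑ i, r i, Submodule.sum_mem _ fun i _ => Submodule.subset_span ⟨i, rfl⟩, v, Submodule.mem_span_singleton_self _, ?_⟩
      rw [hvw, hw, add_comm, add_assoc]
      have e3 : ∑ i, r i + ∑ i, r i = 0 := by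
        funext j
        exact CharTwo.add_self_eq_zero _
      rw [e3, add_zero]
  have hEO : ∀ v, EO k r v ↔ ((∀ i, r i ⬝ᵥ v = 0) ∧ v ⬝ᵥ v = 1) ∧ v ≠ w := by
    intro v
    constructor
    · rintro ⟨e1, e2, e3⟩
      refine ⟨⟨e1, e2⟩, fun h => ?_⟩
      rcases e3 with e3 | e3
      · omega
      · exact e3 ((hbad v e1 e2).2 h)
    · rintro ⟨⟨e1, e2⟩, e3⟩
      exact ⟨e1, e2, Or.inr fun h => e3 ((hbad v e1 e2).1 h)⟩
  rw [Nat.card_congr (Equiv.subtypeEquivRight hEO)]
  by_cases hodd : Odd (N - k)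
  · rw [if_pos ⟨hodd, hk1⟩]
    have hww : (∀ i, r i ⬝ᵥ w = 0) ∧ w ⬝ᵥ w = 1 := by
      refine ⟨hwr, ?_⟩
      rw [dot_self, hw1, CharTwo.natCast_eq_ite, if_neg (Nat.not_even_iff_odd.2 hodd), one_pow]
    rw [← hc']
    have e : {v : Fin N → F // (∀ i, r i ⬝ᵥ v = 0) ∧ v ⬝ᵥ v = 1} ≃ Option {v : Fin N → F // ((∀ i, r i ⬝ᵥ v = 0) ∧ v ⬝ᵥ v = 1) ∧ v ≠ w} := by
      refine ((Equiv.optionSubtypeNe (⟨w, hww⟩ : {v : Fin N → F // (∀ i, r i ⬝ᵥ v = 0) ∧ v ⬝ᵥ v = 1})).symm).trans (Equiv.optionCongr ?_)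
      refine ⟨fun v => ⟨v.1.1, v.1.2, fun h => v.2 (Subtype.ext h)⟩, fun v => ⟨⟨v.1, v.2.1⟩, fun h => v.2.2 (congrArg Subtype.val h)⟩, fun v => rfl, fun v => rfl⟩
    rw [Nat.card_congr e, Finite.card_option, Nat.add_sub_cancel]
  · rw [if_neg (fun h => hodd h.1), Nat.sub_zero, ← hc']
    refine Nat.card_congr (Equiv.subtypeEquivRight fun v => ?_)
    refine ⟨fun h => h.1, fun h => ⟨h, ?_⟩⟩
    rintro rfl
    have h3 := h.2
    rw [dot_self, hw1, CharTwo.natCast_eq_ite, if_pos (Nat.not_odd_iff_even.1 hodd)] at h3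
    simp at h3

theorem card_ortho (hN : 1 ≤ N) : Nat.card {A : Matrix (Fin N) (Fin N) F // A * Aᵀ = 1} =
    ∏ k ∈ Finset.range N, (Nat.card F ^ (N - k - 1) - if Odd (N - k) ∧ k + 1 < N then 1 else 0) := by
  rw [← card_frames (V := Fin N → F) PO EO (fun r => ⟨fun i => i.elim0, by
      right
      rw [Set.range_eq_empty, Submodule.span_empty, Submodule.mem_bot]
      intro h
      exact one_ne_zero (congrFun h ⟨0, by omega⟩)⟩) _ N (fun k hk r v => PO_snoc hk r v) (fun k hk r hr => card_EO hk r hr)]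
  refine Nat.card_congr (Equiv.subtypeEquivRight fun A => ?_)
  constructor
  · intro h
    refine ⟨fun i j => ?_, Or.inl rfl⟩
    have h1 := congrFun (congrFun h i) j
    rw [Matrix.mul_apply', Matrix.one_apply] at h1
    exact h1
  · intro h
    ext i j
    rw [Matrix.mul_apply', Matrix.one_apply]
    exact h.1 i j

end ortho

end Cfsg.Agent.H41
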