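import Mathlib
import Cfsg.Agent.H41.OrthoMat

set_option autoImplicit false
set_option linter.unusedSectionVars false
set_option linter.unusedVariables false

/-! Counting isotropic and singular frames. -/

namespace Cfsg.Agent.H41

open Matrix QuadraticMap

section alt
variable {F V : Type*} [Field F] [AddCommGroup V] [Module F V] [FiniteDimensional F V]

/-- isotropic frames -/
def PI (f : LinearMap.BilinForm F V) (k : ℕ) (r : Fin k → V) : Prop :=
  LinearIndependent F r ∧ ∀ i j, f (r i) (r j) = 0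

def EI (f : LinearMap.BilinForm F V) (k : ℕ) (r : Fin k → V) (v : V) : Prop :=
  (∀ i, f v (r i) = 0) ∧ v ∉ Submodule.span F (Set.range r)

theorem PI_snoc {f : LinearMap.BilinForm F V} (hA : f.IsAlt) (k : ℕ) (r : Fin k → V) (v : V) :
    PI f (k + 1) (Fin.snoc r v : Fin (k + 1) → V) ↔ PI f k r ∧ EI f k r v := by
  unfold PI EI
  rw [linearIndependent_finSnoc]
  have hR := hA.isRefl
  constructor
  · rintro ⟨⟨h1, h2⟩, h3⟩
    refine ⟨⟨h1, fun i j => ?_⟩, fun i => ?_, h2⟩
    · have := h3 i.castSucc j.castSucc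
      rwa [Fin.snoc_castSucc, Fin.snoc_castSucc] at this
    · have := h3 (Fin.last k) i.castSucc
      rwa [Fin.snoc_castSucc, Fin.snoc_last] at this
  · rintro ⟨⟨h1, h2⟩, h3, h4⟩
    refine ⟨⟨h1, h4⟩, fun i j => ?_⟩
    refine Fin.lastCases ?_ (fun i => ?_) i <;> refine Fin.lastCases ?_ (fun j => ?_) j
    · rw [Fin.snoc_last]; exact hA v
    · rw [Fin.snoc_last, Fin.snoc_castSucc]; exact h3 j
    · rw [Fin.snoc_last, Fin.snoc_castSucc]; exact hR _ _ (h3 i)
    · rw [Fin.snoc_castSucc, Fin.snoc_castSucc]; exact h2 i j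

theorem card_span_li [Finite F] {k : ℕ} {r : Fin k → V} (hr : LinearIndependent F r) :
    (Submodule.span F (Set.range r) : Set V).ncard = Nat.card F ^ k := by
  have h1 := Module.natCard_eq_pow_finrank (K := F) (V := Submodule.span F (Set.range r))
  rw [finrank_span_eq_card hr, Fintype.card_fin] at h1
  exact h1

theorem card_EI [Finite F] {f : LinearMap.BilinForm F V} (hA : f.IsAlt) (hnd : ∀ x, (∀ y, f x y = 0) → x = 0)
    {n : ℕ} (hn : Module.finrank F V = n) {k : ℕ} (r : Fin k → V) (hr : PI f k r) :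
    Nat.card {v // EI f k r v} = Nat.card F ^ (n - k) - Nat.card F ^ k := by
  have : Finite V := Module.finite_of_finite F
  have hq : 0 < Nat.card F := Nat.card_pos
  have hkn : k ≤ n := by
    have := hr.1.fintype_card_le_finrank
    rwa [Fintype.card_fin, hn] at this
  have h1 := card_sol hnd hr.1 (fun _ => 0)
  rw [Fintype.card_fin, Module.natCard_eq_pow_finrank (K := F) (V := V), hn] at h1
  have h2 : Nat.card {v // ∀ i, f v (r i) = 0} = Nat.card F ^ (n - k) := by
    apply Nat.eq_of_mul_eq_mul_right (pow_pos hq k)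
    rw [h1, ← pow_add, Nat.sub_add_cancel hkn]
  have h3 : {v | EI f k r v} = {v | ∀ i, f v (r i) = 0} \ (Submodule.span F (Set.range r) : Set V) := rfl
  have h4 : (Submodule.span F (Set.range r) : Set V) ⊆ {v | ∀ i, f v (r i) = 0} := by
    intro v hv i
    rw [SetLike.mem_coe, Submodule.mem_span_range_iff_exists_fun] at hv
    obtain ⟨c, rfl⟩ := hv
    rw [map_sum, LinearMap.sum_apply]
    refine Finset.sum_eq_zero fun j _ => ?_
    rw [map_smul, LinearMap.smul_apply, hr.2, smul_zero]
  show ({v | EI f k r v} : Set V).ncard = _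
  rw [h3, Set.ncard_sdiff h4, card_span_li hr.1]
  congr 1

theorem card_PI [Finite F] {f : LinearMap.BilinForm F V} (hA : f.IsAlt) (hnd : ∀ x, (∀ y, f x y = 0) → x = 0)
    {n : ℕ} (hn : Module.finrank F V = n) (s : ℕ) :
    Nat.card {r : Fin s → V // PI f s r} = ∏ k ∈ Finset.range s, (Nat.card F ^ (n - k) - Nat.card F ^ k) := by
  have : Finite V := Module.finite_of_finite F
  exact card_frames (PI f) (EI f) (fun r => ⟨linearIndependent_empty_type, fun i => i.elim0⟩) _ s (fun k _ r v => PI_snoc hA k r v)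
    (fun k _ r hr => card_EI hA hnd hn r hr)

end alt

section quad
variable {F V : Type*} [Field F] [AddCommGroup V] [Module F V] [FiniteDimensional F V]

theorem card_orth_val_step [Finite F] (Q : QuadraticForm F V) (S : Set V) (w : V) (hw : Q w = 0) (hS : ∀ v ∈ S, ∀ a : F, v + a • w ∈ S) (c : F) :
    Nat.card F * {v ∈ S | Q v = c}.ncard + {v ∈ S | polar Q v w = 0}.ncard = Nat.card F * {v ∈ S | polar Q v w = 0 ∧ Q v = c}.ncard + S.ncard := by
  classical
  have : Finite V := Module.finite_of_finite F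
  have hww : polar Q w w = 0 := by
    rw [polar_self, hw, smul_zero]
  have hQa : ∀ (v : V) (a : F), Q (v + a • w) = Q v + a * polar Q v w := by
    intro v a
    have h1 : Q (v + a • w) = Q v + Q (a • w) + polar Q v (a • w) := by
      unfold polar; ring
    rw [h1, QuadraticMap.map_smul, hw, smul_zero, add_zero, polar_smul_right, smul_eq_mul]
  have hPa : ∀ (v : V) (a : F), polar Q (v + a • w) w = polar Q v w := by
    intro v a
    rw [polar_add_left, polar_smul_left, hww, smul_zero, add_zero]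
  have e : ({v | (v ∈ S ∧ Q v = c) ∧ polar Q v w ≠ 0} × F) ≃ {v | v ∈ S ∧ polar Q v w ≠ 0} :=
    { toFun := fun p => ⟨p.1.1 + p.2 • w, hS _ p.1.2.1.1 _, by rw [hPa]; exact p.1.2.2⟩
      invFun := fun v => (⟨v.1 + (-((Q v.1 - c) / polar Q v.1 w)) • w, ⟨hS _ v.2.1 _, by
          rw [hQa]; have := v.2.2; field_simp; ring⟩, by rw [hPa]; exact v.2.2⟩, (Q v.1 - c) / polar Q v.1 w)
      left_inv := by
        rintro ⟨⟨v, ⟨h1, h2⟩, h3⟩, a⟩
        have e1 : (Q (v + a • w) - c) / polar Q (v + a • w) w = a := by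
          rw [hPa, hQa, h2]; field_simp; ring
        simp only [e1]
        congr 1
        apply Subtype.ext
        show v + a • w + (-a) • w = v
        rw [neg_smul, add_neg_cancel_right]
      right_inv := by
        rintro ⟨v, h1, h2⟩
        apply Subtype.ext
        show v + (-((Q v - c) / polar Q v w)) • w + ((Q v - c) / polar Q v w) • w = v
        rw [neg_smul, neg_add_cancel_right] }
  have h1 : {v ∈ S | Q v = c}.ncard = {v ∈ S | polar Q v w = 0 ∧ Q v = c}.ncard + {v | (v ∈ S ∧ Q v = c) ∧ polar Q v w ≠ 0}.ncard := by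
    rw [← Set.ncard_union_eq]
    · congr 1
      ext v
      simp only [Set.mem_ofPred_eq, Set.mem_union]
      tauto
    · rw [Set.disjoint_left]
      rintro v ⟨_, h, _⟩ ⟨_, h'⟩
      exact h' h
  have h2 : S.ncard = {v ∈ S | polar Q v w = 0}.ncard + {v | v ∈ S ∧ polar Q v w ≠ 0}.ncard := by
    rw [← Set.ncard_union_eq]
    · congr 1
      ext v
      simp only [Set.mem_ofPred_eq, Set.mem_union]
      tauto
    · rw [Set.disjoint_left]
      rintro v ⟨_, h⟩ ⟨_, h'⟩
      exact h' h
  have h3 : {v | (v ∈ S ∧ Q v = c) ∧ polar Q v w ≠ 0}.ncard * Nat.card F = {v | v ∈ S ∧ polar Q v w ≠ 0}.ncard := by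
    have := Nat.card_congr e
    rw [Nat.card_prod] at this
    exact this
  rw [h1, h2, mul_add, ← h3, mul_comm (Nat.card F) ({v | (v ∈ S ∧ Q v = c) ∧ polar Q v w ≠ 0}.ncard)]
  ring

/-- frames with prescribed values -/
def PQ (Q : QuadraticForm F V) (d : ℕ → F) (k : ℕ) (r : Fin k → V) : Prop :=
  LinearIndependent F r ∧ (∀ i j, i ≠ j → polar Q (r i) (r j) = 0) ∧ ∀ i : Fin k, Q (r i) = d i

def EQ (Q : QuadraticForm F V) (d : ℕ → F) (k : ℕ) (r : Fin k → V) (v : V) : Prop :=
  ((∀ i, polar Q v (r i) = 0) ∧ Q v = d k) ∧ v ∉ Submodule.span F (Set.range r)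

theorem PQ_snoc (Q : QuadraticForm F V) (d : ℕ → F) (k : ℕ) (r : Fin k → V) (v : V) :
    PQ Q d (k + 1) (Fin.snoc r v : Fin (k + 1) → V) ↔ PQ Q d k r ∧ EQ Q d k r v := by
  unfold PQ EQ
  rw [linearIndependent_finSnoc]
  constructor
  · rintro ⟨⟨h1, h2⟩, h3, h4⟩
    refine ⟨⟨h1, fun i j hij => ?_, fun i => ?_⟩, ⟨fun i => ?_, ?_⟩, h2⟩
    · have := h3 i.castSucc j.castSucc (fun h => hij (Fin.castSucc_injective _ h))
      rwa [Fin.snoc_castSucc, Fin.snoc_castSucc] at this
    · have := h4 i.castSucc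
      rwa [Fin.snoc_castSucc] at this
    · have := h3 (Fin.last k) i.castSucc (Fin.castSucc_lt_last i).ne'
      rwa [Fin.snoc_castSucc, Fin.snoc_last] at this
    · have := h4 (Fin.last k)
      rwa [Fin.snoc_last] at this
  · rintro ⟨⟨h1, h2, h2'⟩, ⟨h3, h3'⟩, h4⟩
    refine ⟨⟨h1, h4⟩, fun i j => ?_, fun i => ?_⟩
    · refine Fin.lastCases ?_ (fun i => ?_) i <;> refine Fin.lastCases ?_ (fun j => ?_) j
      · intro h; exact absurd rfl h
      · intro _; rw [Fin.snoc_last, Fin.snoc_castSucc]; exact h3 j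
      · intro _; rw [Fin.snoc_last, Fin.snoc_castSucc, polar_comm]; exact h3 i
      · intro h; rw [Fin.snoc_castSucc, Fin.snoc_castSucc]; exact h2 i j (fun h' => h (by rw [h']))
    · refine Fin.lastCases ?_ (fun i => ?_) i
      · rw [Fin.snoc_last]; exact h3'
      · rw [Fin.snoc_castSucc]; exact h2' i

theorem polar_self_zero (Q : QuadraticForm F V) {w : V} (hw : Q w = 0) : polar Q w w = 0 := by
  rw [polar_self, hw, smul_zero]

theorem card_perp_val [Finite F] {Q : QuadraticForm F V} (hQ : ∀ x, (∀ y, polarBilin Q x y = 0) → x = 0)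
    {n : ℕ} (hn : Module.finrank F V = n) (c : F) {k : ℕ} (r : Fin k → V) (hli : LinearIndependent F r)
    (hr : ∀ i j, polar Q (r i) (r j) = 0) (hq : ∀ i, Q (r i) = 0) :
    Nat.card F * {v : V | (∀ i, polar Q v (r i) = 0) ∧ Q v = c}.ncard + Nat.card F ^ n =
      Nat.card F * {v : V | Q v = c}.ncard + Nat.card F ^ (n - k) := by
  have : Finite V := Module.finite_of_finite F
  have hq0 : 0 < Nat.card F := Nat.card_pos
  induction k with
  | zero =>
    rw [Nat.sub_zero]
    congr 3
    ext v
    simp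
  | succ k ih =>
    obtain ⟨r', w, rfl⟩ : ∃ (r' : Fin k → V) (w : V), r = Fin.snoc r' w := ⟨Fin.init r, r (Fin.last k), (Fin.snoc_init_self r).symm⟩
    have hli' := linearIndependent_finSnoc.1 hli
    have hr1 : ∀ i j, polar Q (r' i) (r' j) = 0 := by
      intro i j
      have := hr i.castSucc j.castSucc
      rwa [Fin.snoc_castSucc, Fin.snoc_castSucc] at this
    have hr2 : ∀ i, polar Q w (r' i) = 0 := by
      intro i
      have := hr (Fin.last k) i.castSucc
      rwa [Fin.snoc_castSucc, Fin.snoc_last] at this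
    have hq1 : ∀ i, Q (r' i) = 0 := by
      intro i
      have := hq i.castSucc
      rwa [Fin.snoc_castSucc] at this
    have hq2 : Q w = 0 := by
      have := hq (Fin.last k)
      rwa [Fin.snoc_last] at this
    have ih' := ih r' hli'.1 hr1 hq1
    have hstep := card_orth_val_step Q {v | ∀ i, polar Q v (r' i) = 0} w hq2 (by
      intro v hv a i
      rw [polar_add_left, polar_smul_left, hv, hr2, smul_zero, add_zero]) c
    have hkn : k + 1 ≤ n := by
      have := hli.fintype_card_le_finrank
      rwa [Fintype.card_fin, hn] at this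
    have hcard : ∀ (j : ℕ) (u : Fin j → V), LinearIndependent F u → j ≤ n → {v : V | ∀ i, polar Q v (u i) = 0}.ncard = Nat.card F ^ (n - j) := by
      intro j u hu hj
      have h1 := card_sol hQ hu (fun _ => 0)
      rw [Fintype.card_fin, Module.natCard_eq_pow_finrank (K := F) (V := V), hn] at h1
      apply Nat.eq_of_mul_eq_mul_right (pow_pos hq0 j)
      rw [← pow_add, Nat.sub_add_cancel hj, ← h1]
      rfl
    have e1 : ∀ v, (∀ i, polar Q v ((Fin.snoc r' w : Fin (k + 1) → V) i) = 0) ↔ (∀ i, polar Q v (r' i) = 0) ∧ polar Q v w = 0 := by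
      intro v
      rw [Fin.forall_fin_succ']
      simp
    have e2 : {v : V | (∀ i, polar Q v ((Fin.snoc r' w : Fin (k + 1) → V) i) = 0) ∧ Q v = c} =
        {v ∈ {v | ∀ i, polar Q v (r' i) = 0} | polar Q v w = 0 ∧ Q v = c} := by
      ext v
      simp only [Set.mem_ofPred_eq, e1, and_assoc]
    have e3 : {v : V | (∀ i, polar Q v ((Fin.snoc r' w : Fin (k + 1) → V) i) = 0)} =
        {v ∈ {v | ∀ i, polar Q v (r' i) = 0} | polar Q v w = 0} := by
      ext v
      simp only [Set.mem_ofPred_eq, e1]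
    have h4 := hcard (k + 1) _ hli hkn
    rw [e3] at h4
    rw [h4, hcard k r' hli'.1 (by omega)] at hstep
    rw [e2]
    have e4 : {v ∈ {v | ∀ i, polar Q v (r' i) = 0} | Q v = c} = {v : V | (∀ i, polar Q v (r' i) = 0) ∧ Q v = c} := rfl
    rw [e4] at hstep
    omega

theorem span_perp (Q : QuadraticForm F V) {k : ℕ} {r : Fin k → V} (hr : ∀ i j, polar Q (r i) (r j) = 0) (hq : ∀ i, Q (r i) = 0)
    (v : V) (hv : v ∈ Submodule.span F (Set.range r)) : (∀ i, polar Q v (r i) = 0) ∧ Q v = 0 := by
  induction hv using Submodule.span_induction with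
  | mem x hx =>
    obtain ⟨i, rfl⟩ := hx
    exact ⟨fun j => hr i j, hq i⟩
  | zero => exact ⟨fun j => polar_zero_left _ _, map_zero _⟩
  | add x y hx hy ihx ihy =>
    refine ⟨fun j => by rw [polar_add_left, ihx.1, ihy.1, add_zero], ?_⟩
    have h1 : polar Q x y = 0 := by
      have hy' := hy
      rw [Submodule.mem_span_range_iff_exists_fun] at hy'
      obtain ⟨c, rfl⟩ := hy'
      have : ∀ s : Finset (Fin k), polar Q x (∑ i ∈ s, c i • r i) = 0 := by
        intro s
        induction s using Finset.induction_on with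
        | empty => rw [Finset.sum_empty]; exact polar_zero_right _ _
        | insert a s ha ih => rw [Finset.sum_insert ha, polar_add_right, polar_smul_right, ihx.1, ih, smul_zero, add_zero]
      exact this _
    have h2 : Q (x + y) = Q x + Q y + polar Q x y := by unfold polar; ring
    rw [h2, ihx.2, ihy.2, h1, add_zero, add_zero]
  | smul a x hx ihx =>
    exact ⟨fun j => by rw [polar_smul_left, ihx.1, smul_zero], by rw [QuadraticMap.map_smul, ihx.2, smul_zero]⟩

theorem card_PQ [Finite F] [DecidableEq F] {Q : QuadraticForm F V} (hQ : ∀ x, (∀ y, polarBilin Q x y = 0) → x = 0)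
    {n : ℕ} (hn : Module.finrank F V = n) (d : ℕ → F) (s : ℕ) (hd : ∀ k, k + 1 < s → d k = 0) (N : ℕ → ℕ)
    (hN : ∀ k < s, Nat.card F * (N k + if d k = 0 then Nat.card F ^ k else 0) + Nat.card F ^ n = Nat.card F * {v : V | Q v = d k}.ncard + Nat.card F ^ (n - k)) :
    Nat.card {r : Fin s → V // PQ Q d s r} = ∏ k ∈ Finset.range s, N k := by
  have : Finite V := Module.finite_of_finite F
  have hq0 : 0 < Nat.card F := Nat.card_pos
  apply card_frames (PQ Q d) (EQ Q d)
  · intro r
    exact ⟨linearIndependent_empty_type, fun i => i.elim0, fun i => i.elim0⟩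
  · intro k _ r v
    exact PQ_snoc Q d k r v
  · intro k hk r hr
    have hq' : ∀ i, Q (r i) = 0 := fun i => by rw [hr.2.2 i]; exact hd _ (by have := i.2; omega)
    have hr' : ∀ i j, polar Q (r i) (r j) = 0 := by
      intro i j
      by_cases hij : i = j
      · rw [hij]; exact polar_self_zero Q (hq' j)
      · exact hr.2.1 i j hij
    have h1 := card_perp_val hQ hn (d k) r hr.1 hr' hq'
    rw [← hN k hk] at h1
    have h2 : {v : V | (∀ i, polar Q v (r i) = 0) ∧ Q v = d k}.ncard = N k + if d k = 0 then Nat.card F ^ k else 0 := by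
      apply Nat.eq_of_mul_eq_mul_left hq0
      omega
    show ({v | EQ Q d k r v} : Set V).ncard = N k
    by_cases hdk : d k = 0
    · rw [if_pos hdk] at h2
      have h3 : {v | EQ Q d k r v} = {v : V | (∀ i, polar Q v (r i) = 0) ∧ Q v = d k} \ (Submodule.span F (Set.range r) : Set V) := rfl
      have h4 : (Submodule.span F (Set.range r) : Set V) ⊆ {v : V | (∀ i, polar Q v (r i) = 0) ∧ Q v = d k} := by
        intro v hv
        rw [Set.mem_ofPred_eq, hdk]
        exact span_perp Q hr' hq' v hv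
      rw [h3, Set.ncard_sdiff h4, card_span_li hr.1, h2, Nat.add_sub_cancel]
    · rw [if_neg hdk, add_zero] at h2
      rw [← h2]
      congr 1
      ext v
      constructor
      · intro h; exact h.1
      · intro h
        refine ⟨h, fun hmem => hdk ?_⟩
        rw [← h.2]
        exact (span_perp Q hr' hq' v hmem).2

end quad

end Cfsg.Agent.H41
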