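import Mathlib
import Cfsg.Agent.AutPSL.CentGF
import Cfsg.Agent.Orth.Bridge

set_option autoImplicit false
set_option linter.unusedSectionVars false
set_option linter.unusedVariables false

/-! Involutory graph automorphisms of `PSL_n(q)`: the automorphism attached to a matrix. -/

namespace Cfsg.Agent.H41

open Matrix Cfsg.Agent.AutPSL Cfsg.Agent.AutLie

section
variable {F : Type*} [Field F] {n : ℕ}

/-- the graph automorphism attached to the bilinear form with matrix `M` -/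
noncomputable def gam (M : GL (Fin n) F) : MulAut (Matrix.ProjectiveSpecialLinearGroup (Fin n) F) :=
  diagHom n F M⁻¹ * iAut (Fin n) F

theorem iAut_mul_diagHom (h : GL (Fin n) F) : iAut (Fin n) F * diagHom n F h = diagHom n F (invTGL h) * iAut (Fin n) F :=
  iAut_mul_cAut h (RingEquiv.refl F)

theorem graph_spec {γ : MulAut (Matrix.ProjectiveSpecialLinearGroup (Fin n) F)} (h : Cfsg.IsGraphAutClassPSL γ) :
    ∃ M : GL (Fin n) F, γ = gam M := by
  obtain ⟨_, δ, ι, hδ, hι, rfl⟩ := h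
  obtain ⟨g, rfl⟩ := innDiag_iff.1 hδ
  rw [invT_iff.1 hι]
  exact ⟨g⁻¹, by rw [gam, inv_inv]; rfl⟩

theorem gam_graph (hn : 3 ≤ n) (M : GL (Fin n) F) : Cfsg.IsGraphAutClassPSL (gam M) :=
  ⟨hn, diagHom n F M⁻¹, iAut (Fin n) F, innDiag_iff.2 ⟨_, rfl⟩, invT_iff.2 rfl, rfl⟩

theorem scal_coe (c : Fˣ) : ((Matrix.GeneralLinearGroup.scalar (Fin n) c : GL (Fin n) F) : Matrix (Fin n) (Fin n) F) = (c : F) • 1 := by
  rw [Matrix.GeneralLinearGroup.coe_scalar, Matrix.scalar_apply, Matrix.smul_one_eq_diagonal]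

theorem gl_mul_scalar_iff (g h : GL (Fin n) F) (c : Fˣ) : g = h * Matrix.GeneralLinearGroup.scalar (Fin n) c ↔
    (g : Matrix (Fin n) (Fin n) F) = (c : F) • (h : Matrix (Fin n) (Fin n) F) := by
  rw [Units.ext_iff, Units.val_mul, scal_coe, Matrix.mul_smul, Matrix.mul_one]

theorem inter_iff (hn : 2 ≤ n) (h M M' : GL (Fin n) F) :
    diagHom n F h * gam M = gam M' * diagHom n F h ↔
      ∃ c : Fˣ, (h : Matrix (Fin n) (Fin n) F)ᵀ * (M' : Matrix (Fin n) (Fin n) F) * (h : Matrix (Fin n) (Fin n) F) = (c : F) • (M : Matrix (Fin n) (Fin n) F) := by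
  unfold gam
  rw [mul_assoc (diagHom n F M'⁻¹), iAut_mul_diagHom, ← mul_assoc, ← mul_assoc, mul_left_inj, ← map_mul, ← map_mul, diagHom_eq_iff hn]
  refine exists_congr fun c => ?_
  rw [gl_mul_scalar_iff, Units.val_mul, Units.val_mul, coe_invTGL]
  have e1 : (h : Matrix (Fin n) (Fin n) F)ᵀ * (((h⁻¹ : GL (Fin n) F) : Matrix (Fin n) (Fin n) F))ᵀ = 1 := by
    rw [← Matrix.transpose_mul, ← Units.val_mul, inv_mul_cancel, Units.val_one, Matrix.transpose_one]
  have e1' : (((h⁻¹ : GL (Fin n) F) : Matrix (Fin n) (Fin n) F))ᵀ * (h : Matrix (Fin n) (Fin n) F)ᵀ = 1 := by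
    rw [← Matrix.transpose_mul, ← Units.val_mul, mul_inv_cancel, Units.val_one, Matrix.transpose_one]
  have e2 : (M' : Matrix (Fin n) (Fin n) F) * ((M'⁻¹ : GL (Fin n) F) : Matrix (Fin n) (Fin n) F) = 1 := by
    rw [← Units.val_mul, mul_inv_cancel, Units.val_one]
  have e2' : ((M'⁻¹ : GL (Fin n) F) : Matrix (Fin n) (Fin n) F) * (M' : Matrix (Fin n) (Fin n) F) = 1 := by
    rw [← Units.val_mul, inv_mul_cancel, Units.val_one]
  have e3 : ((M⁻¹ : GL (Fin n) F) : Matrix (Fin n) (Fin n) F) * (M : Matrix (Fin n) (Fin n) F) = 1 := by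
    rw [← Units.val_mul, inv_mul_cancel, Units.val_one]
  have e3' : (M : Matrix (Fin n) (Fin n) F) * ((M⁻¹ : GL (Fin n) F) : Matrix (Fin n) (Fin n) F) = 1 := by
    rw [← Units.val_mul, mul_inv_cancel, Units.val_one]
  constructor
  · intro h1
    have h2 := congrArg (fun X => (h : Matrix (Fin n) (Fin n) F)ᵀ * ((M' : Matrix (Fin n) (Fin n) F) * X * (M : Matrix (Fin n) (Fin n) F))) h1
    calc _ = (h : Matrix (Fin n) (Fin n) F)ᵀ * ((M' : Matrix (Fin n) (Fin n) F) * ((h : Matrix (Fin n) (Fin n) F) * ((M⁻¹ : GL (Fin n) F) : Matrix (Fin n) (Fin n) F)) * (M : Matrix (Fin n) (Fin n) F)) := by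
          simp only [Matrix.mul_assoc, e3, Matrix.mul_one]
      _ = _ := h2
      _ = (c : F) • (((h : Matrix (Fin n) (Fin n) F)ᵀ * (((M' : Matrix (Fin n) (Fin n) F) * ((M'⁻¹ : GL (Fin n) F) : Matrix (Fin n) (Fin n) F)) * (((h⁻¹ : GL (Fin n) F) : Matrix (Fin n) (Fin n) F))ᵀ)) * (M : Matrix (Fin n) (Fin n) F)) := by
          simp only [Matrix.mul_smul, Matrix.smul_mul, Matrix.mul_assoc]
      _ = _ := by rw [e2, Matrix.one_mul, e1, Matrix.one_mul]
  · intro h1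
    have h2 := congrArg (fun X => ((M'⁻¹ : GL (Fin n) F) : Matrix (Fin n) (Fin n) F) * ((((h⁻¹ : GL (Fin n) F) : Matrix (Fin n) (Fin n) F))ᵀ * X) * ((M⁻¹ : GL (Fin n) F) : Matrix (Fin n) (Fin n) F)) h1
    calc _ = (((M'⁻¹ : GL (Fin n) F) : Matrix (Fin n) (Fin n) F) * (((((h⁻¹ : GL (Fin n) F) : Matrix (Fin n) (Fin n) F))ᵀ * (h : Matrix (Fin n) (Fin n) F)ᵀ) * ((M' : Matrix (Fin n) (Fin n) F) * (h : Matrix (Fin n) (Fin n) F)))) * ((M⁻¹ : GL (Fin n) F) : Matrix (Fin n) (Fin n) F) := by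
          rw [e1', Matrix.one_mul, ← Matrix.mul_assoc ((M'⁻¹ : GL (Fin n) F) : Matrix (Fin n) (Fin n) F), e2', Matrix.one_mul]
      _ = _ := by
          simp only [Matrix.mul_assoc] at h2 ⊢
          exact h2
      _ = _ := by
          simp only [Matrix.mul_smul, Matrix.smul_mul, Matrix.mul_assoc, e3', Matrix.mul_one]

theorem comm_iff (hn : 2 ≤ n) (h M : GL (Fin n) F) :
    diagHom n F h * gam M = gam M * diagHom n F h ↔
      ∃ c : Fˣ, (h : Matrix (Fin n) (Fin n) F)ᵀ * (M : Matrix (Fin n) (Fin n) F) * (h : Matrix (Fin n) (Fin n) F) = (c : F) • (M : Matrix (Fin n) (Fin n) F) :=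
  inter_iff hn h M M

theorem gam_conj_iff (hn : 2 ≤ n) (M M' : GL (Fin n) F) :
    Cfsg.IsConjUnder (Cfsg.inndiagPSL n F) (gam M) (gam M') ↔
      ∃ (h : GL (Fin n) F) (c : Fˣ), (h : Matrix (Fin n) (Fin n) F)ᵀ * (M' : Matrix (Fin n) (Fin n) F) * (h : Matrix (Fin n) (Fin n) F) = (c : F) • (M : Matrix (Fin n) (Fin n) F) := by
  rw [inndiagPSL_eq]
  constructor
  · rintro ⟨_, ⟨h, rfl⟩, hh⟩
    rw [eq_mul_inv_iff_mul_eq] at hh
    exact ⟨h, (inter_iff hn h M M').1 hh.symm⟩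
  · rintro ⟨h, hc⟩
    refine ⟨_, ⟨h, rfl⟩, ?_⟩
    rw [eq_mul_inv_iff_mul_eq]
    exact ((inter_iff hn h M M').2 hc).symm

theorem gam_sq_iff (hn : 2 ≤ n) (M : GL (Fin n) F) :
    gam M * gam M = 1 ↔ (M : Matrix (Fin n) (Fin n) F)ᵀ = M ∨ (M : Matrix (Fin n) (Fin n) F)ᵀ = -(M : Matrix (Fin n) (Fin n) F) := by
  have h1 : gam M * gam M = diagHom n F (M⁻¹ * invTGL M⁻¹) := by
    unfold gam
    rw [mul_assoc, ← mul_assoc (iAut (Fin n) F), iAut_mul_diagHom, mul_assoc (diagHom n F (invTGL M⁻¹)), iAut_mul_iAut, mul_one, ← map_mul]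
  rw [h1]
  have h2 : diagHom n F (M⁻¹ * invTGL M⁻¹) = 1 ↔ ∃ c : Fˣ, (M : Matrix (Fin n) (Fin n) F)ᵀ = (c : F) • (M : Matrix (Fin n) (Fin n) F) := by
    rw [← map_one (diagHom n F), diagHom_eq_iff hn]
    refine exists_congr fun c => ?_
    rw [gl_mul_scalar_iff, Units.val_mul, coe_invTGL, inv_inv, Units.val_one]
    constructor
    · intro h
      have h3 := congrArg (fun X => (M : Matrix (Fin n) (Fin n) F) * X) h
      simp only [Matrix.mul_smul, Matrix.mul_one] at h3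
      rw [← h3, ← Matrix.mul_assoc, ← Units.val_mul, mul_inv_cancel, Units.val_one, Matrix.one_mul]
    · intro h
      rw [h, Matrix.mul_smul, ← Units.val_mul, inv_mul_cancel, Units.val_one]
  rw [h2]
  constructor
  · rintro ⟨c, hc⟩
    obtain ⟨i, j, hij⟩ : ∃ i j, (M : Matrix (Fin n) (Fin n) F) i j ≠ 0 := by
      by_contra hcon
      push Not at hcon
      have hA0 : (M : Matrix (Fin n) (Fin n) F) = 0 := by ext i j; exact hcon i j
      have : Nonempty (Fin n) := ⟨⟨0, by omega⟩⟩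
      exact M.isUnit.ne_zero hA0
    have e1 := congrFun (congrFun hc i) j
    have e2 := congrFun (congrFun hc j) i
    rw [Matrix.transpose_apply, Matrix.smul_apply, smul_eq_mul] at e1 e2
    have e3 : ((c : F) - 1) * ((c : F) + 1) = 0 := by
      rw [e1, ← mul_assoc] at e2
      have : (M : Matrix (Fin n) (Fin n) F) i j * (((c : F) - 1) * ((c : F) + 1)) = 0 := by linear_combination -e2
      exact (mul_eq_zero.1 this).resolve_left hij
    rcases mul_eq_zero.1 e3 with h | h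
    · left
      rw [hc, sub_eq_zero.1 h, one_smul]
    · right
      rw [hc, eq_neg_of_add_eq_zero_left h, neg_smul, one_smul]
  · rintro (h | h)
    · exact ⟨1, by rw [h, Units.val_one, one_smul]⟩
    · exact ⟨-1, by rw [h, Units.val_neg, Units.val_one, neg_smul, one_smul]⟩

theorem gam_ne_one (hn : 3 ≤ n) (M : GL (Fin n) F) : gam M ≠ 1 := by
  intro h
  have h1 := cAut_ne_iAut (F := F) (ι := Fin n) (by rw [Fintype.card_fin]; exact hn) 1 M⁻¹ (RingEquiv.refl F) (RingEquiv.refl F)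
  apply h1
  rw [cAut_one]
  exact h.symm

theorem orderOf_gam (hn : 3 ≤ n) (M : GL (Fin n) F) :
    orderOf (gam M) = 2 ↔ (M : Matrix (Fin n) (Fin n) F)ᵀ = M ∨ (M : Matrix (Fin n) (Fin n) F)ᵀ = -(M : Matrix (Fin n) (Fin n) F) := by
  rw [← gam_sq_iff (by omega)]
  constructor
  · intro h
    rw [← pow_two, ← h, pow_orderOf_eq_one]
  · intro h
    rw [← pow_two] at h
    exact orderOf_eq_prime h (gam_ne_one hn M)

/-- the group of similarities of a form with given matrix -/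
def simM (M : GL (Fin n) F) : Subgroup (GL (Fin n) F) :=
  Cfsg.Geo.similarityGroup (fun u v => u ⬝ᵥ (M : Matrix (Fin n) (Fin n) F) *ᵥ v)

theorem form_eq_iff (A B : Matrix (Fin n) (Fin n) F) : A = B ↔ ∀ u v : Fin n → F, u ⬝ᵥ A *ᵥ v = u ⬝ᵥ B *ᵥ v := by
  constructor
  · rintro rfl u v; rfl
  · intro h
    ext i j
    have := h (Pi.single i 1) (Pi.single j 1)
    simpa using this

theorem form_conj (A h : Matrix (Fin n) (Fin n) F) (u v : Fin n → F) : (h *ᵥ u) ⬝ᵥ A *ᵥ (h *ᵥ v) = u ⬝ᵥ (hᵀ * A * h) *ᵥ v := by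
  rw [← Matrix.mulVec_mulVec, ← Matrix.mulVec_mulVec, Matrix.dotProduct_mulVec u, Matrix.vecMul_transpose]

theorem simil_iff (h M M' : Matrix (Fin n) (Fin n) F) (c : F) :
    hᵀ * M' * h = c • M ↔ ∀ u v, (h *ᵥ u) ⬝ᵥ M' *ᵥ (h *ᵥ v) = c * (u ⬝ᵥ M *ᵥ v) := by
  rw [form_eq_iff]
  refine forall_congr' fun u => forall_congr' fun v => ?_
  rw [form_conj, Matrix.smul_mulVec, dotProduct_smul, smul_eq_mul]

theorem mem_simM (h M : GL (Fin n) F) : h ∈ simM M ↔ ∃ c : Fˣ, (h : Matrix (Fin n) (Fin n) F)ᵀ * (M : Matrix (Fin n) (Fin n) F) * (h : Matrix (Fin n) (Fin n) F) = (c : F) • (M : Matrix (Fin n) (Fin n) F) := by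
  refine exists_congr fun c => ?_
  rw [simil_iff]

theorem cent_gen (hn : 2 ≤ n) (γ : MulAut (Matrix.ProjectiveSpecialLinearGroup (Fin n) F)) (H : Subgroup (GL (Fin n) F))
    (hH : ∀ g, diagHom n F g * γ = γ * diagHom n F g ↔ g ∈ H) :
    Nonempty (↥(Cfsg.inndiagPSL n F ⊓ Subgroup.centralizer {γ}) ≃* Cfsg.projQuot H) := by
  rw [inndiagPSL_eq]
  let ρ0 : ↥H →* MulAut (Matrix.ProjectiveSpecialLinearGroup (Fin n) F) := (diagHom n F).comp H.subtype
  have hρ : ∀ h, ρ0 h ∈ (diagHom n F).range ⊓ Subgroup.centralizer {γ} := by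
    intro h
    refine ⟨⟨_, rfl⟩, Subgroup.mem_centralizer_singleton_iff.2 ?_⟩
    exact (hH _).2 h.2
  let ρ := ρ0.codRestrict _ hρ
  have hsurj : Function.Surjective ρ := by
    rintro ⟨_, ⟨g, rfl⟩, hg⟩
    exact ⟨⟨g, (hH g).1 (Subgroup.mem_centralizer_singleton_iff.1 hg)⟩, rfl⟩
  have hker : ρ.ker = (Cfsg.Geo.scalars (Fin n) F).subgroupOf H := by
    ext h
    rw [MonoidHom.mem_ker, Subgroup.mem_subgroupOf]
    have h1 : ρ h = 1 ↔ diagHom n F h = diagHom n F 1 := by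
      rw [map_one]
      exact Subtype.ext_iff
    rw [h1, diagHom_eq_iff hn]
    simp only [one_mul]
    constructor
    · rintro ⟨c, hc⟩; exact ⟨c, hc.symm⟩
    · rintro ⟨c, hc⟩; exact ⟨c, hc.symm⟩
  exact ⟨(QuotientGroup.quotientKerEquivOfSurjective ρ hsurj).symm.trans (QuotientGroup.quotientMulEquivOfEq hker)⟩

theorem cent_gam (hn : 2 ≤ n) (M : GL (Fin n) F) :
    Nonempty (↥(Cfsg.inndiagPSL n F ⊓ Subgroup.centralizer {gam M}) ≃* Cfsg.projQuot (simM M)) :=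
  cent_gen hn _ _ fun g => by rw [comm_iff hn, mem_simM]

end

section transfer
variable {F : Type*} [Field F] {ι κ : Type} [Fintype ι] [DecidableEq ι] [Fintype κ] [DecidableEq κ]

/-- conjugation of linear automorphisms by a linear equivalence -/
def conjE {V W : Type*} [AddCommGroup V] [Module F V] [AddCommGroup W] [Module F W] (e : V ≃ₗ[F] W) : (V ≃ₗ[F] V) ≃* (W ≃ₗ[F] W) where
  toFun g := (e.symm.trans g).trans e
  invFun g := (e.trans g).trans e.symm
  left_inv g := by ext v; simp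
  right_inv g := by ext v; simp
  map_mul' g h := by ext v; simp

/-- transfer of matrix groups along a linear equivalence -/
noncomputable def trE (e : (ι → F) ≃ₗ[F] (κ → F)) : GL ι F ≃* GL κ F :=
  ((Cfsg.Agent.Orth.glE ι F).trans (conjE e)).trans (Cfsg.Agent.Orth.glE κ F).symm

theorem trE_mulVec (e : (ι → F) ≃ₗ[F] (κ → F)) (g : GL ι F) (v : ι → F) :
    ((trE e g : GL κ F) : Matrix κ κ F) *ᵥ (e v) = e ((g : Matrix ι ι F) *ᵥ v) := by
  have h1 : Cfsg.Agent.Orth.glE κ F (trE e g) (e v) = e ((g : Matrix ι ι F) *ᵥ v) := by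
    unfold trE
    rw [MulEquiv.trans_apply, MulEquiv.apply_symm_apply]
    show e ((Cfsg.Agent.Orth.glE ι F g) (e.symm (e v))) = _
    rw [LinearEquiv.symm_apply_apply]
    rfl
  exact h1

theorem mem_scalars_iff' (g : GL ι F) : g ∈ Cfsg.Geo.scalars ι F ↔ ∃ c : Fˣ, ∀ v, (g : Matrix ι ι F) *ᵥ v = (c : F) • v := by
  rw [Cfsg.Geo.mem_scalars_iff]
  refine exists_congr fun c => ?_
  constructor
  · intro h v
    rw [h, Matrix.smul_mulVec, Matrix.one_mulVec]
  · intro h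
    apply Cfsg.Agent.Orth.matrix_eq_of_mulVec
    intro v
    rw [h, Matrix.smul_mulVec, Matrix.one_mulVec]

theorem trE_scalars (e : (ι → F) ≃ₗ[F] (κ → F)) (g : GL ι F) : trE e g ∈ Cfsg.Geo.scalars κ F ↔ g ∈ Cfsg.Geo.scalars ι F := by
  rw [mem_scalars_iff', mem_scalars_iff']
  refine exists_congr fun c => ?_
  constructor
  · intro h v
    apply e.injective
    rw [← trE_mulVec, h, map_smul]
  · intro h v
    obtain ⟨w, rfl⟩ := e.surjective v
    rw [trE_mulVec, h, map_smul]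

theorem projQuot_congr (E : GL ι F ≃* GL κ F) (hE : ∀ g, E g ∈ Cfsg.Geo.scalars κ F ↔ g ∈ Cfsg.Geo.scalars ι F)
    (H : Subgroup (GL ι F)) (K : Subgroup (GL κ F)) (hHK : ∀ g, E g ∈ K ↔ g ∈ H) :
    Nonempty (Cfsg.projQuot H ≃* Cfsg.projQuot K) := by
  have hmap : H.map (E : GL ι F →* GL κ F) = K := by
    ext k
    constructor
    · rintro ⟨g, hg, rfl⟩
      exact (hHK g).2 hg
    · intro hk
      obtain ⟨g, rfl⟩ := E.surjective k
      exact ⟨g, (hHK g).1 hk, rfl⟩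
  let φ : ↥H ≃* ↥K := (E.subgroupMap H).trans (MulEquiv.subgroupCongr hmap)
  have hφ : ∀ g : ↥H, ((φ g : ↥K) : GL κ F) = E (g : GL ι F) := fun g => rfl
  refine ⟨QuotientGroup.congr _ _ φ ?_⟩
  ext k
  rw [Subgroup.mem_map]
  constructor
  · rintro ⟨g, hg, rfl⟩
    rw [Subgroup.mem_subgroupOf] at hg ⊢
    exact (hE _).2 hg
  · intro hk
    obtain ⟨g, rfl⟩ := φ.surjective k
    refine ⟨g, ?_, rfl⟩
    rw [Subgroup.mem_subgroupOf] at hk ⊢
    exact (hE _).1 hk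

/-- a group of matrices which is the product of the scalars and the image of `G` -/
theorem projQuot_of_hom {G : Type*} [Group G] (φ : G →* GL κ F) (H : Subgroup (GL κ F)) (h1 : ∀ g, φ g ∈ H)
    (h2 : ∀ h ∈ H, ∃ s ∈ Cfsg.Geo.scalars κ F, ∃ g, h = φ g * s) (h3 : ∀ g, φ g ∈ Cfsg.Geo.scalars κ F → g = 1) :
    Nonempty (Cfsg.projQuot H ≃* G) := by
  let ψ : G →* Cfsg.projQuot H := (QuotientGroup.mk' _).comp (φ.codRestrict H h1)
  have hb : Function.Bijective ψ := by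
    constructor
    · rw [← MonoidHom.ker_eq_bot_iff, eq_bot_iff]
      intro g hg
      rw [MonoidHom.mem_ker] at hg
      have hg' := (QuotientGroup.eq_one_iff _).1 hg
      rw [Subgroup.mem_subgroupOf] at hg'
      exact h3 g hg'
    · intro x
      obtain ⟨⟨h, hh⟩, rfl⟩ := QuotientGroup.mk'_surjective _ x
      obtain ⟨s, hs, g, rfl⟩ := h2 h hh
      refine ⟨g, ?_⟩
      show QuotientGroup.mk _ = QuotientGroup.mk _
      rw [QuotientGroup.eq]
      rw [Subgroup.mem_subgroupOf]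
      show (φ g)⁻¹ * (φ g * s) ∈ _
      rw [inv_mul_cancel_left]
      exact hs
  exact ⟨(MulEquiv.ofBijective ψ hb).symm⟩

end transfer

end Cfsg.Agent.H41
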