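import Mathlib
import Cfsg.Agent.H41.GraphPSL
import Cfsg.Agent.H43.SympEquiv
import Cfsg.Agent.Orth.Types
import Cfsg.Agent.S0838

set_option autoImplicit false
set_option linter.unusedSectionVars false
set_option linter.unusedVariables false

/-! Forms attached to matrices, for the involutory graph automorphisms of `PSL_n(q)`. -/

namespace Cfsg.Agent.H41

open Matrix Cfsg.Agent.AutPSL Cfsg.Agent.AutLie QuadraticMap

section quad
variable {F : Type*} [Field F] {n : ℕ}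

/-- the quadratic form `v ↦ v ⬝ M v` -/
noncomputable def qM (M : Matrix (Fin n) (Fin n) F) : QuadraticForm F (Fin n → F) :=
  LinearMap.BilinMap.toQuadraticMap (Matrix.toLinearMap₂' F M)

theorem qM_apply (M : Matrix (Fin n) (Fin n) F) (v : Fin n → F) : qM M v = v ⬝ᵥ M *ᵥ v := by
  unfold qM
  rw [LinearMap.BilinMap.toQuadraticMap_apply, Matrix.toLinearMap₂'_apply']

theorem qM_polar (M : Matrix (Fin n) (Fin n) F) (hM : Mᵀ = M) (u v : Fin n → F) : polar (qM M) u v = 2 * (u ⬝ᵥ M *ᵥ v) := by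
  unfold polar
  rw [qM_apply, qM_apply, qM_apply, Matrix.mulVec_add, dotProduct_add, add_dotProduct, add_dotProduct]
  have h1 : v ⬝ᵥ M *ᵥ u = u ⬝ᵥ M *ᵥ v := by
    rw [dotProduct_comm, Matrix.dotProduct_mulVec u, ← Matrix.mulVec_transpose, hM]
  rw [h1]
  ring

theorem qM_nd (h2 : (2 : F) ≠ 0) (M : GL (Fin n) F) (hM : (M : Matrix (Fin n) (Fin n) F)ᵀ = M) : (polarBilin (qM (M : Matrix (Fin n) (Fin n) F))).Nondegenerate := by
  have key : ∀ u : Fin n → F, (∀ v, polar (qM (M : Matrix (Fin n) (Fin n) F)) u v = 0) → u = 0 := by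
    intro u hu
    have h1 : (M : Matrix (Fin n) (Fin n) F) *ᵥ u = 0 := by
      funext i
      have := hu (Pi.single i 1)
      rw [polar_comm, qM_polar _ hM] at this
      have h3 := (mul_eq_zero.1 this).resolve_left h2
      rwa [single_dotProduct, one_mul] at h3
    have h2 := congrArg (fun z => ((M⁻¹ : GL (Fin n) F) : Matrix (Fin n) (Fin n) F) *ᵥ z) h1
    simpa [Matrix.mulVec_mulVec] using h2
  refine ⟨fun u hu => key u hu, fun u hu => key u fun v => ?_⟩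
  rw [polar_comm]; exact hu v

theorem simil_iff_q (h2 : (2 : F) ≠ 0) (h M M' : Matrix (Fin n) (Fin n) F) (hM : Mᵀ = M) (hM' : M'ᵀ = M') (c : F) :
    hᵀ * M' * h = c • M ↔ ∀ v, qM M' (h *ᵥ v) = c * qM M v := by
  rw [simil_iff]
  constructor
  · intro h1 v
    rw [qM_apply, qM_apply, h1]
  · intro h1 u v
    have e1 : polar (qM M') (h *ᵥ u) (h *ᵥ v) = c * polar (qM M) u v := by
      unfold polar
      rw [← Matrix.mulVec_add, h1, h1, h1]
      ring
    rw [qM_polar _ hM', qM_polar _ hM] at e1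
    apply mul_left_cancel₀ h2
    linear_combination e1

/-- matrix of a linear equivalence -/
theorem exists_gl {V : Type} [Fintype V] [DecidableEq V] (g : (V → F) ≃ₗ[F] (V → F)) : ∃ h : GL V F, ∀ v, (h : Matrix V V F) *ᵥ v = g v := by
  refine ⟨(Cfsg.Agent.Orth.glE V F).symm g, fun v => ?_⟩
  have : Cfsg.Agent.Orth.glE V F ((Cfsg.Agent.Orth.glE V F).symm g) v = g v := by rw [MulEquiv.apply_symm_apply]
  exact this

theorem gam_conj_q (hn : 2 ≤ n) (h2 : (2 : F) ≠ 0) (M M' : GL (Fin n) F) (hM : (M : Matrix (Fin n) (Fin n) F)ᵀ = M) (hM' : (M' : Matrix (Fin n) (Fin n) F)ᵀ = M') :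
    Cfsg.IsConjUnder (Cfsg.inndiagPSL n F) (gam M) (gam M') ↔
      ∃ (g : (Fin n → F) ≃ₗ[F] (Fin n → F)) (c : F), c ≠ 0 ∧ ∀ v, qM (M' : Matrix (Fin n) (Fin n) F) (g v) = c * qM (M : Matrix (Fin n) (Fin n) F) v := by
  rw [gam_conj_iff hn]
  constructor
  · rintro ⟨h, c, hc⟩
    rw [simil_iff_q h2 _ _ _ hM hM'] at hc
    exact ⟨Cfsg.Agent.Orth.glE (Fin n) F h, c, c.ne_zero, hc⟩
  · rintro ⟨g, c, hc, hg⟩
    obtain ⟨h, hh⟩ := exists_gl g
    refine ⟨h, Units.mk0 c hc, ?_⟩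
    rw [simil_iff_q h2 _ _ _ hM hM']
    intro v
    rw [hh, hg]; rfl

theorem cent_q (h2 : (2 : F) ≠ 0) (hn : 2 ≤ n) (M : GL (Fin n) F) (hM : (M : Matrix (Fin n) (Fin n) F)ᵀ = M) {κ : Type} [Fintype κ] [DecidableEq κ]
    (Q : (κ → F) → F) (e : (Fin n → F) ≃ₗ[F] (κ → F)) (c : F) (hc : c ≠ 0) (he : ∀ v, Q (e v) = c * qM (M : Matrix (Fin n) (Fin n) F) v) :
    Nonempty (↥(Cfsg.inndiagPSL n F ⊓ Subgroup.centralizer {gam M}) ≃* Cfsg.PGO F Q) := by
  obtain ⟨e1⟩ := cent_gam hn M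
  obtain ⟨e2⟩ := projQuot_congr (trE e) (trE_scalars e) (simM M) (Cfsg.Geo.quadSimilarityGroup (F := F) Q) (by
    intro g
    rw [mem_simM]
    refine exists_congr fun d => ?_
    rw [simil_iff_q h2 _ _ _ hM hM]
    constructor
    · intro h v
      have h1 := h (e v)
      rw [trE_mulVec, he, he] at h1
      apply mul_left_cancel₀ hc
      linear_combination h1
    · intro h w
      obtain ⟨v, rfl⟩ := e.surjective w
      rw [trE_mulVec, he, he, h]
      ring)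
  exact ⟨e1.trans e2⟩

/-- the Gram matrix of a quadratic form as an element of `GL` -/
theorem exists_gram (h2 : (2 : F) ≠ 0) (Q : QuadraticForm F (Fin n → F)) (hQ : (polarBilin Q).Nondegenerate) :
    ∃ M : GL (Fin n) F, (M : Matrix (Fin n) (Fin n) F)ᵀ = M ∧ ∀ v, qM (M : Matrix (Fin n) (Fin n) F) v = 2 * Q v := by
  let A : Matrix (Fin n) (Fin n) F := LinearMap.toMatrix₂' F (polarBilin Q)
  have hA : ∀ u v, u ⬝ᵥ A *ᵥ v = polar Q u v := by
    intro u v
    rw [← Matrix.toLinearMap₂'_apply', Matrix.toLinearMap₂'_toMatrix', polarBilin_apply_apply]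
  have hdet : A.det ≠ 0 := by
    rw [Ne, ← Matrix.exists_mulVec_eq_zero_iff]
    rintro ⟨v, hv, hAv⟩
    apply hv
    apply hQ.2
    intro u
    rw [polarBilin_apply_apply, ← hA, hAv, dotProduct_zero]
  refine ⟨Matrix.GeneralLinearGroup.mkOfDetNeZero A hdet, ?_, ?_⟩
  · show Aᵀ = A
    ext i j
    rw [Matrix.transpose_apply]
    have h1 := hA (Pi.single j 1) (Pi.single i 1)
    have h3 := hA (Pi.single i 1) (Pi.single j 1)
    rw [polar_comm, ← h3] at h1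
    simpa using h1
  · intro v
    rw [qM_apply]
    show v ⬝ᵥ A *ᵥ v = _
    rw [hA, polar_self, two_nsmul, two_mul]

end quad

section alt
variable {F : Type*} [Field F] {n m : ℕ}

theorem exists_symp (hnm : n = 2 * m) (M : GL (Fin n) F) (hM : ∀ v, v ⬝ᵥ (M : Matrix (Fin n) (Fin n) F) *ᵥ v = 0) :
    ∃ e : (Fin n → F) ≃ₗ[F] (Fin m ⊕ Fin m → F), ∀ x y, x ⬝ᵥ (M : Matrix (Fin n) (Fin n) F) *ᵥ y = Cfsg.sympForm m F (e x) (e y) := by
  obtain ⟨e, he⟩ := Cfsg.Agent.H43.exists_symp_equiv' (Matrix.toLinearMap₂' F (M : Matrix (Fin n) (Fin n) F)) (fun v => by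
    rw [Matrix.toLinearMap₂'_apply']; exact hM v) (fun v hv => by
    have h1 : v ᵥ* (M : Matrix (Fin n) (Fin n) F) = 0 := by
      funext i
      have := hv (Pi.single i 1)
      rw [Matrix.toLinearMap₂'_apply', Matrix.dotProduct_mulVec, dotProduct_single, mul_one] at this
      exact this
    have h2 := congrArg (fun z => z ᵥ* ((M⁻¹ : GL (Fin n) F) : Matrix (Fin n) (Fin n) F)) h1
    simpa [Matrix.vecMul_vecMul] using h2) (m := m) (by rw [Module.finrank_fintype_fun_eq_card, Fintype.card_fin, hnm])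
  refine ⟨e, fun x y => ?_⟩
  rw [← he, Matrix.toLinearMap₂'_apply']

theorem alt_conj' (hn : 2 ≤ n) (hnm : n = 2 * m) (M M' : GL (Fin n) F) (hM : ∀ v, v ⬝ᵥ (M : Matrix (Fin n) (Fin n) F) *ᵥ v = 0)
    (hM' : ∀ v, v ⬝ᵥ (M' : Matrix (Fin n) (Fin n) F) *ᵥ v = 0) : Cfsg.IsConjUnder (Cfsg.inndiagPSL n F) (gam M) (gam M') := by
  obtain ⟨e, he⟩ := exists_symp hnm M hM
  obtain ⟨e', he'⟩ := exists_symp hnm M' hM'
  rw [gam_conj_iff hn]
  obtain ⟨h, hh⟩ := exists_gl (e.trans e'.symm)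
  refine ⟨h, 1, ?_⟩
  rw [simil_iff]
  intro u v
  rw [hh, hh, he', Units.val_one, one_mul, he]
  simp

theorem cent_alt (hn : 2 ≤ n) (hnm : n = 2 * m) (M : GL (Fin n) F) (hM : ∀ v, v ⬝ᵥ (M : Matrix (Fin n) (Fin n) F) *ᵥ v = 0) :
    Nonempty (↥(Cfsg.inndiagPSL n F ⊓ Subgroup.centralizer {gam M}) ≃* Cfsg.PGSp m F) := by
  obtain ⟨e, he⟩ := exists_symp hnm M hM
  obtain ⟨e1⟩ := cent_gam hn M
  obtain ⟨e2⟩ := projQuot_congr (trE e) (trE_scalars e) (simM M) (Cfsg.GSp m F) (by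
    intro g
    rw [mem_simM]
    refine exists_congr fun d => ?_
    rw [simil_iff]
    constructor
    · intro h u v
      have h1 := h (e u) (e v)
      rw [trE_mulVec, trE_mulVec, ← he, ← he] at h1
      exact h1
    · intro h u v
      obtain ⟨u, rfl⟩ := e.surjective u
      obtain ⟨v, rfl⟩ := e.surjective v
      rw [trE_mulVec, trE_mulVec, ← he, ← he, h])
  exact ⟨e1.trans e2⟩

theorem exists_alt (hnm : n = 2 * m) : ∃ M : GL (Fin n) F, (∀ v, v ⬝ᵥ (M : Matrix (Fin n) (Fin n) F) *ᵥ v = 0) := by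
  obtain ⟨σ⟩ : Nonempty (Fin m ⊕ Fin m ≃ Fin n) := ⟨finSumFinEquiv.trans (finCongr (by omega))⟩
  let e : (Fin n → F) ≃ₗ[F] (Fin m ⊕ Fin m → F) := LinearEquiv.funCongrLeft F F σ
  let B : LinearMap.BilinForm F (Fin n → F) := (Cfsg.Agent.ClGeo.sB F m).compl₁₂ (e : (Fin n → F) →ₗ[F] _) (e : (Fin n → F) →ₗ[F] _)
  let A : Matrix (Fin n) (Fin n) F := LinearMap.toMatrix₂' F B
  have hA : ∀ u v, u ⬝ᵥ A *ᵥ v = Cfsg.sympForm m F (e u) (e v) := by
    intro u v
    rw [← Matrix.toLinearMap₂'_apply', Matrix.toLinearMap₂'_toMatrix']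
    show Cfsg.Agent.ClGeo.sB F m (e u) (e v) = _
    rw [Cfsg.Agent.ClGeo.sB_apply]
  have hdet : A.det ≠ 0 := by
    rw [Ne, ← Matrix.exists_mulVec_eq_zero_iff]
    rintro ⟨v, hv, hAv⟩
    apply hv
    apply e.injective
    rw [map_zero]
    apply (Cfsg.Agent.ClGeo.sB_nondegenerate m).2
    intro u
    obtain ⟨u, rfl⟩ := e.surjective u
    rw [Cfsg.Agent.ClGeo.sB_apply, ← hA, hAv, dotProduct_zero]
  refine ⟨Matrix.GeneralLinearGroup.mkOfDetNeZero A hdet, fun v => ?_⟩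
  show v ⬝ᵥ A *ᵥ v = 0
  rw [hA]
  exact Cfsg.Agent.ClGeo.sympForm_self _ _

theorem transpose_of_alt (M : Matrix (Fin n) (Fin n) F) (hM : ∀ v, v ⬝ᵥ M *ᵥ v = 0) : Mᵀ = -M := by
  ext i j
  have h1 := hM (Pi.single i 1 + Pi.single j 1)
  have h2 := hM (Pi.single i 1)
  have h3 := hM (Pi.single j 1)
  rw [Matrix.mulVec_add, dotProduct_add, add_dotProduct, add_dotProduct, h2, h3] at h1
  have e1 : ∀ a b : Fin n, Pi.single a 1 ⬝ᵥ M *ᵥ Pi.single b 1 = M a b := by intro a b; simp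
  rw [e1, e1] at h1
  rw [Matrix.transpose_apply, Matrix.neg_apply]
  linear_combination h1

theorem alt_of_transpose (h2 : (2 : F) ≠ 0) (M : Matrix (Fin n) (Fin n) F) (hM : Mᵀ = -M) (v : Fin n → F) : v ⬝ᵥ M *ᵥ v = 0 := by
  have h1 : v ⬝ᵥ M *ᵥ v = -(v ⬝ᵥ M *ᵥ v) := by
    conv_lhs => rw [Matrix.dotProduct_mulVec, ← Matrix.mulVec_transpose, hM, Matrix.neg_mulVec, neg_dotProduct, dotProduct_comm]
  have h3 : 2 * (v ⬝ᵥ M *ᵥ v) = 0 := by linear_combination h1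
  exact (mul_eq_zero.1 h3).resolve_left h2

theorem even_of_alt (M : GL (Fin n) F) (hM : ∀ v, v ⬝ᵥ (M : Matrix (Fin n) (Fin n) F) *ᵥ v = 0) : Even n := by
  obtain ⟨k, e, -⟩ := Cfsg.Agent.H43.exists_symp_equiv (Matrix.toLinearMap₂' F (M : Matrix (Fin n) (Fin n) F)) (fun v => by
    rw [Matrix.toLinearMap₂'_apply']; exact hM v) (fun v hv => by
    have h1 : v ᵥ* (M : Matrix (Fin n) (Fin n) F) = 0 := by
      funext i
      have := hv (Pi.single i 1)
      rw [Matrix.toLinearMap₂'_apply', Matrix.dotProduct_mulVec, dotProduct_single, mul_one] at this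
      exact this
    have h2 := congrArg (fun z => z ᵥ* ((M⁻¹ : GL (Fin n) F) : Matrix (Fin n) (Fin n) F)) h1
    simpa [Matrix.vecMul_vecMul] using h2)
  have h := e.finrank_eq
  rw [Module.finrank_fintype_fun_eq_card, Module.finrank_fintype_fun_eq_card, Fintype.card_fin, Fintype.card_sum, Fintype.card_fin] at h
  exact ⟨k, h⟩

end alt

end Cfsg.Agent.H41
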