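import Mathlib
import Cfsg.Agent.H41.GraphForms

set_option autoImplicit false
set_option linter.unusedSectionVars false
set_option linter.unusedVariables false

/-! Involutory graph automorphisms of `PSL_n(q)`, `q` odd. -/

namespace Cfsg.Agent.H41

open Matrix Cfsg.Agent.AutPSL Cfsg.Agent.AutLie QuadraticMap Cfsg.Agent.Orth Module

section
variable {F : Type*} [Field F] {n m : ℕ}

theorem exists_nonroot (F : Type*) [Field F] [Finite F] : ∃ ζ : F, ∀ t : F, t ^ 2 + t + ζ ≠ 0 := by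
  have h1 : ¬ Function.Injective (fun t : F => t ^ 2 + t) := by
    intro h
    have := @h 0 (-1) (by ring)
    exact one_ne_zero (neg_eq_zero.1 this.symm)
  have h2 : ¬ Function.Surjective (fun t : F => t ^ 2 + t) := fun h => h1 (Finite.injective_iff_surjective.2 h)
  simp only [Function.Surjective, not_forall, not_exists] at h2
  obtain ⟨z, hz⟩ := h2
  refine ⟨-z, fun t ht => hz t ?_⟩
  linear_combination ht

theorem conj_of_forms (hn : 2 ≤ n) (h2 : (2 : F) ≠ 0) {M M' : GL (Fin n) F} (hM : (M : Matrix (Fin n) (Fin n) F)ᵀ = M)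
    (hM' : (M' : Matrix (Fin n) (Fin n) F)ᵀ = M') {W : Type*} [AddCommGroup W] [Module F W] (Q : W → F)
    (e e' : (Fin n → F) ≃ₗ[F] W) (c c' : F) (hc : c ≠ 0) (hc' : c' ≠ 0) (he : ∀ v, Q (e v) = c * qM (M : Matrix (Fin n) (Fin n) F) v)
    (he' : ∀ v, Q (e' v) = c' * qM (M' : Matrix (Fin n) (Fin n) F) v) :
    Cfsg.IsConjUnder (Cfsg.inndiagPSL n F) (gam M) (gam M') := by
  rw [gam_conj_q hn h2 M M' hM hM']
  refine ⟨e.trans e'.symm, c / c', div_ne_zero hc hc', fun v => ?_⟩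
  have h1 := he' ((e.trans e'.symm) v)
  rw [LinearEquiv.trans_apply, e'.apply_symm_apply, he] at h1
  rw [LinearEquiv.trans_apply]
  field_simp
  linear_combination -h1

theorem exists_M_of_form (h2 : (2 : F) ≠ 0) {κ : Type} [Fintype κ] [DecidableEq κ] (Q : QuadraticForm F (κ → F)) (hQ : (polarBilin Q).Nondegenerate)
    (hκ : Fintype.card κ = n) :
    ∃ (M : GL (Fin n) F) (e : (Fin n → F) ≃ₗ[F] (κ → F)), (M : Matrix (Fin n) (Fin n) F)ᵀ = M ∧ ∀ v, Q (e v) = (2 : F)⁻¹ * qM (M : Matrix (Fin n) (Fin n) F) v := by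
  let e : (Fin n → F) ≃ₗ[F] (κ → F) := LinearEquiv.funCongrLeft F F (Fintype.equivFinOfCardEq hκ)
  have key : ∀ u : Fin n → F, (∀ v, polar (Q.comp (e : (Fin n → F) →ₗ[F] (κ → F))) u v = 0) → u = 0 := by
    intro u hu
    apply e.injective
    rw [map_zero]
    apply hQ.1
    intro w
    obtain ⟨v, rfl⟩ := e.surjective w
    have := hu v
    rw [polarBilin_apply_apply]
    unfold polar at this ⊢
    rw [← map_add]
    exact this
  obtain ⟨M, hM, hMQ⟩ := exists_gram h2 (Q.comp (e : (Fin n → F) →ₗ[F] (κ → F)))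
    ⟨fun u hu => key u hu, fun u hu => key u fun v => by rw [polar_comm]; exact hu v⟩
  refine ⟨M, e, hM, fun v => ?_⟩
  rw [hMQ, ← mul_assoc, inv_mul_cancel₀ h2, one_mul]
  rfl

theorem classify_M [Finite F] (h2 : (2 : F) ≠ 0) (hm : 1 ≤ m) (hnm : n = 2 * m) (M : GL (Fin n) F) (hM : (M : Matrix (Fin n) (Fin n) F)ᵀ = M) :
    (∃ g : (Fin n → F) ≃ₗ[F] (Fin m ⊕ Fin m → F), ∀ v, qfPlus m F (g v) = qM (M : Matrix (Fin n) (Fin n) F) v) ∨
    ∀ ζ : F, (∀ t : F, t ^ 2 + t + ζ ≠ 0) →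
      ∃ g : (Fin n → F) ≃ₗ[F] ((Fin (m - 1) ⊕ Fin (m - 1)) ⊕ Fin 2 → F), ∀ v, qfMinus (m - 1) F 1 ζ (g v) = qM (M : Matrix (Fin n) (Fin n) F) v := by
  rcases classify_even hm (by rw [finrank_fintype_fun_eq_card, Fintype.card_fin, hnm]) (qM_nd h2 M hM) with h | ⟨ζ, h0, g, hg⟩
  · exact Or.inl h
  · right
    intro ζ' h0'
    obtain ⟨k, hk⟩ := exists_isom_minus_param (m := m - 1) h0' h0
    exact ⟨g.trans k, fun v => by rw [LinearEquiv.trans_apply, hk, hg]⟩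

theorem plus_not_minus [Finite F] (hm : 1 ≤ m) {ζ : F} (hζ : ∀ t : F, t ^ 2 + t + ζ ≠ 0)
    (k : (Fin m ⊕ Fin m → F) ≃ₗ[F] ((Fin (m - 1) ⊕ Fin (m - 1)) ⊕ Fin 2 → F)) (c : F) (hk : ∀ v, qfMinus (m - 1) F 1 ζ (k v) = c * qfPlus m F v) : False := by
  have h1 := TS_lt_minus hm (aniso_of_root hζ) ((U0 m F).map (k : (Fin m ⊕ Fin m → F) →ₗ[F] _)) (by
    rintro _ ⟨v, hv, rfl⟩
    refine (hk v).trans ?_
    rw [TS_U0 m F v hv, mul_zero])
  rw [LinearEquiv.finrank_map_eq, finrank_U0] at h1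
  omega

theorem not_conj_sym_alt (hn : 2 ≤ n) (h2 : (2 : F) ≠ 0) {M M' : GL (Fin n) F} (hM : (M : Matrix (Fin n) (Fin n) F)ᵀ = -M)
    (hM' : (M' : Matrix (Fin n) (Fin n) F)ᵀ = M') : ¬ Cfsg.IsConjUnder (Cfsg.inndiagPSL n F) (gam M) (gam M') := by
  rw [gam_conj_iff hn]
  rintro ⟨h, c, hc⟩
  have h1 := congrArg Matrix.transpose hc
  rw [Matrix.transpose_mul, Matrix.transpose_mul, Matrix.transpose_transpose, hM', ← Matrix.mul_assoc, hc, Matrix.transpose_smul, hM, smul_neg] at h1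
  have h3 : (2 : F) • ((c : F) • (M : Matrix (Fin n) (Fin n) F)) = 0 := by
    rw [two_smul]
    nth_rw 1 [h1]
    exact neg_add_cancel _
  rw [smul_eq_zero, smul_eq_zero] at h3
  rcases h3 with h3 | h3 | h3
  · exact h2 h3
  · exact c.ne_zero h3
  · have : Nonempty (Fin n) := ⟨⟨0, by omega⟩⟩
    exact M.isUnit.ne_zero h3

theorem odd_card_two_ne_zero [Fintype F] (h : Odd (Fintype.card F)) : (2 : F) ≠ 0 := by
  intro h2
  obtain ⟨p, hp⟩ := CharP.exists F
  have hp2 : ringChar F = 2 := by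
    have h3 : ringChar F ∣ 2 := (ringChar.spec F 2).1 (by exact_mod_cast h2)
    rcases (Nat.dvd_prime Nat.prime_two).1 h3 with h4 | h4
    · exact absurd h4 (CharP.ringChar_ne_one)
    · exact h4
  have h4 := FiniteField.even_card_of_char_two hp2
  rw [Nat.odd_iff] at h
  omega

end

end Cfsg.Agent.H41
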