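import Mathlib
import Cfsg.Agent.H41.FrameCount
import Cfsg.Agent.H41.InvolSp
import Cfsg.Agent.ClassSp.Order
import Cfsg.Agent.H43.InvolO

set_option autoImplicit false
set_option linter.unusedSectionVars false
set_option linter.unusedVariables false

/-! Orders of centralizers of involutions of symplectic groups in characteristic two. -/

namespace Cfsg.Agent.H41

open Matrix Cfsg.Agent.H43 Cfsg.Agent.ClGeo

/-- the order of `Sp_{2k}(q)` -/
def spO (q k : ℕ) : ℕ := q ^ (k ^ 2) * ∏ i ∈ Finset.range k, (q ^ (2 * (i + 1)) - 1)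

theorem spO_succ (q k : ℕ) : spO q (k + 1) = spO q k * (q ^ (2 * k + 1) * (q ^ (2 * (k + 1)) - 1)) := by
  unfold spO
  rw [Finset.prod_range_succ]
  have : q ^ ((k + 1) ^ 2) = q ^ (k ^ 2) * q ^ (2 * k + 1) := by rw [← pow_add]; congr 1; ring
  rw [this]
  ring

theorem spO_pos {q : ℕ} (hq : 2 ≤ q) (k : ℕ) : 0 < spO q k := by
  unfold spO
  apply Nat.mul_pos (pow_pos (by omega) _)
  apply Finset.prod_pos
  intro i _
  have : 1 < q ^ (2 * (i + 1)) := Nat.one_lt_pow (by omega) (by omega)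
  omega

/-- the number of orthonormal bases -/
def orN (q N : ℕ) : ℕ := ∏ k ∈ Finset.range N, (q ^ (N - k - 1) - if Odd (N - k) ∧ k + 1 < N then 1 else 0)

theorem orN_succ (q N : ℕ) : orN q (N + 1) = orN q N * (q ^ N - if Even N ∧ 0 < N then 1 else 0) := by
  unfold orN
  rw [Finset.prod_range_succ']
  congr 1
  · refine Finset.prod_congr rfl fun k hk => ?_
    have h1 : N + 1 - (k + 1) = N - k := by omega
    rw [h1]
    simp only [Nat.add_lt_add_iff_right]
  · rw [Nat.sub_zero, Nat.add_sub_cancel]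
    simp only [Nat.odd_add_one, Nat.not_odd_iff_even]
    congr 1
    simp

theorem orN_odd (q k : ℕ) : orN q (2 * k + 1) = spO q k := by
  induction k with
  | zero => simp [orN, spO]
  | succ k ih =>
    rw [show 2 * (k + 1) + 1 = (2 * k + 1 + 1) + 1 by ring, orN_succ, orN_succ, ih, spO_succ]
    rw [if_neg (fun h => by have := h.1; simp [parity_simps] at this), if_pos ⟨by simp [parity_simps], by omega⟩]
    rw [Nat.sub_zero, mul_assoc]
    congr 2

theorem orN_even (q k : ℕ) : orN q (2 * k + 2) = spO q k * q ^ (2 * k + 1) := by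
  rw [show 2 * k + 2 = (2 * k + 1) + 1 by ring, orN_succ, orN_odd, if_neg (fun h => by have := h.1; simp [parity_simps] at this), Nat.sub_zero]

theorem sp_frames (q d s : ℕ) : spO q (d + s) = (∏ k ∈ Finset.range s, (q ^ (2 * (d + s) - k) - q ^ k)) * q ^ (2 * d * s + s * (s + 1) / 2) * spO q d := by
  induction s with
  | zero => simp
  | succ s ih =>
    rw [← add_assoc, spO_succ, ih, Finset.prod_range_succ']
    have e1 : ∏ k ∈ Finset.range s, (q ^ (2 * (d + s + 1) - (k + 1)) - q ^ (k + 1)) = q ^ s * ∏ k ∈ Finset.range s, (q ^ (2 * (d + s) - k) - q ^ k) := by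
      have e0 : ∏ _k ∈ Finset.range s, q = q ^ s := by rw [Finset.prod_const, Finset.card_range]
      rw [← e0, ← Finset.prod_mul_distrib]
      refine Finset.prod_congr rfl fun k hk => ?_
      have hk' := Finset.mem_range.1 hk
      have h1 : 2 * (d + s + 1) - (k + 1) = (2 * (d + s) - k) + 1 := by omega
      rw [h1, pow_succ, pow_succ, ← Nat.sub_mul, mul_comm]
    rw [e1, Nat.sub_zero, pow_zero]
    have e2 : q ^ (2 * d * (s + 1) + (s + 1) * (s + 1 + 1) / 2) * q ^ s = q ^ (2 * d * s + s * (s + 1) / 2) * q ^ (2 * (d + s) + 1) := by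
      rw [← pow_add, ← pow_add]
      congr 1
      have h2 : (s + 1) * (s + 1 + 1) / 2 = s * (s + 1) / 2 + (s + 1) := by
        have : (s + 1) * (s + 1 + 1) = s * (s + 1) + (s + 1) * 2 := by ring
        rw [this, Nat.add_mul_div_right _ _ (by norm_num)]
      rw [h2]
      ring
    calc _ = (∏ k ∈ Finset.range s, (q ^ (2 * (d + s) - k) - q ^ k)) * (q ^ (2 * d * s + s * (s + 1) / 2) * q ^ (2 * (d + s) + 1)) * (q ^ (2 * (d + s + 1)) - 1) * spO q d := by ring
      _ = _ := by rw [← e2]; ring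

section
variable {F : Type*} [Field F] [Fintype F] [CharP F 2] {m : ℕ}

theorem card_spG : Nat.card (spG F m) = spO (Fintype.card F) m := by
  obtain ⟨e⟩ := exists_spEquiv F m
  rw [← Nat.card_congr e.toEquiv, Cfsg.Agent.ClassSp.card_fin]
  rfl

theorem sp_main {s : ℕ} {t : (Fin m ⊕ Fin m → F) ≃ₗ[F] (Fin m ⊕ Fin m → F)} (htG : t ∈ spG F m) (ht : ∀ v, t (t v) = v)
    (hs : Module.finrank F (LinearMap.range (nn t)) = s) {ι : Type} [Fintype ι] [DecidableEq ι] {x : ι → (Fin m ⊕ Fin m → F)} {B : Matrix ι ι F} (hB : IsUnit B.det)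
    (hx : IData (sB F m) t x (fun i j => B i j)) :
    Nat.card (cen (spG F m) t) = Nat.card {A : Matrix ι ι F // A * B * Aᵀ = B} *
      (Fintype.card F ^ (2 * (m - s) * s + s * (s + 1) / 2) * spO (Fintype.card F) (m - s)) := by
  classical
  have hG : ∀ g ∈ spG F m, ∀ x y, sB F m (g x) (g y) = sB F m x y := fun g hg => hg
  rw [card_cen (sB_isAlt m) sB_nd hG sp_witt htG ht hB hx]
  congr 1
  have hm2 : Module.finrank F (Fin m ⊕ Fin m → F) = 2 * m := by
    rw [Module.finrank_fintype_fun_eq_card, Fintype.card_sum, Fintype.card_fin]; ring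
  have hcard : Fintype.card ι = s := by
    rw [← hs]
    have h1 : LinearMap.range (nn t) = Submodule.span F (Set.range fun i => nn t (x i)) := by
      apply le_antisymm
      · rintro _ ⟨v, rfl⟩
        exact hx.span v
      · rw [Submodule.span_le]
        rintro _ ⟨i, rfl⟩
        exact ⟨x i, rfl⟩
    rw [h1, finrank_span_eq_card hx.li]
  have hsm : s ≤ m := by
    rw [← hs]
    exact rank_le (f := sB F m) sB_nd ht hm2
  obtain ⟨e⟩ : Nonempty (Fin s ≃ ι) := ⟨(Fintype.equivFinOfCardEq hcard).symm⟩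
  obtain ⟨r, hr⟩ : ∃ r : Fin s → (Fin m ⊕ Fin m → F), r = fun i => nn t (x (e i)) := ⟨_, rfl⟩
  have hfix : fixSet (spG F m) (fun i => nn t (x i)) = fixSet (spG F m) r := by
    ext g
    rw [hr]
    constructor
    · rintro ⟨h1, h2⟩
      exact ⟨h1, fun i => h2 _⟩
    · rintro ⟨h1, h2⟩
      refine ⟨h1, fun i => ?_⟩
      have := h2 (e.symm i)
      simpa using this
  have hrP : PI (sB F m) s r := by
    rw [hr]
    exact ⟨hx.li.comp _ e.injective, fun i j => f_nn_nn' t ht (hG t htG) _ _⟩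
  have hW := (Cfsg.Agent.Witt.isWittForm_of_isAlt (sB F m) (Cfsg.Agent.ClGeo.sB_nondegenerate m) (Cfsg.Agent.ClGeo.sB_isAlt m))
  have h1 := card_orbit_fam (spG F m) r {r | PI (sB F m) s r} (by
    intro g hg
    refine ⟨hrP.1.map' (g : (Fin m ⊕ Fin m → F) →ₗ[F] (Fin m ⊕ Fin m → F)) (LinearEquiv.ker g), fun i j => ?_⟩
    simp only
    rw [hG g hg, hrP.2]) (by
    intro y hy
    obtain ⟨g, hg, hgx⟩ := hW.family s r y hrP.1 hy.1 (by
      intro i j
      rw [hrP.2, hy.2])
    exact ⟨g, hg, hgx⟩)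
  have h2 : Nat.card ↑{r | PI (sB F m) s r} = ∏ k ∈ Finset.range s, (Fintype.card F ^ (2 * m - k) - Fintype.card F ^ k) := by
    have := card_PI (f := sB F m) (sB_isAlt m) sB_nd hm2 s
    rw [Nat.card_eq_fintype_card (α := F)] at this
    exact this
  rw [hfix]
  have h3 := sp_frames (Fintype.card F) (m - s) s
  rw [Nat.sub_add_cancel hsm] at h3
  rw [h2, card_spG, h3, mul_assoc] at h1
  refine (Nat.eq_of_mul_eq_mul_left ?_ h1).symm
  apply Finset.prod_pos
  intro k hk
  have hk' := Finset.mem_range.1 hk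
  have hq : 1 < Fintype.card F := Fintype.one_lt_card
  have : Fintype.card F ^ k < Fintype.card F ^ (2 * m - k) := Nat.pow_lt_pow_right hq (by omega)
  omega

theorem one_eq_refl (s : ℕ) : (fun i j => (1 : Matrix (Fin s) (Fin s) F) i j) = (fun i j => if j = Equiv.refl (Fin s) i then 1 else 0) := by
  funext i j
  rw [Matrix.one_apply]
  simp only [Equiv.refl_apply, eq_comm]

theorem J_eq_comm (k : ℕ) : (fun i j => (Matrix.J (Fin k) F) i j) = (fun i j => if j = Equiv.sumComm (Fin k) (Fin k) i then 1 else 0) := by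
  funext i j
  rcases i with i | i <;> rcases j with j | j
  · simp [Matrix.J]
  · simp [Matrix.J, CharTwo.neg_eq, Matrix.one_apply, eq_comm]
  · simp [Matrix.J, Matrix.one_apply, eq_comm]
  · simp [Matrix.J]

theorem card_Y_one {s : ℕ} (hs : 1 ≤ s) : Nat.card {A : Matrix (Fin s) (Fin s) F // A * 1 * Aᵀ = 1} = orN (Fintype.card F) s := by
  simp only [Matrix.mul_one]
  rw [card_ortho hs, Nat.card_eq_fintype_card]
  rfl

theorem card_Y_J (k : ℕ) : Nat.card {A : Matrix (Fin k ⊕ Fin k) (Fin k ⊕ Fin k) F // A * Matrix.J (Fin k) F * Aᵀ = Matrix.J (Fin k) F} = spO (Fintype.card F) k := by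
  have := Cfsg.Agent.ClassSp.card_fin (F := F) k
  rw [spO, ← this]
  refine Nat.card_congr (Equiv.subtypeEquivRight fun A => ?_)
  rw [SymplecticGroup.mem_iff]

theorem sp_nonalt {s : ℕ} (hs1 : 1 ≤ s) {t : (Fin m ⊕ Fin m → F) ≃ₗ[F] (Fin m ⊕ Fin m → F)} (htG : t ∈ spG F m) (ht : ∀ v, t (t v) = v)
    (hs : Module.finrank F (LinearMap.range (nn t)) = s) (hna : ∃ v, sB F m v (nn t v) ≠ 0) :
    Nat.card (cen (spG F m) t) = orN (Fintype.card F) s *
      (Fintype.card F ^ (2 * (m - s) * s + s * (s + 1) / 2) * spO (Fintype.card F) (m - s)) := by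
  have hG : ∀ g ∈ spG F m, ∀ x y, sB F m (g x) (g y) = sB F m x y := fun g hg => hg
  obtain ⟨x, hx⟩ := exists_data_nonalt (f := sB F m) hsq_of (sB_isAlt m) (fun x h => sB_nd x h) ht (hG t htG) hna hs
  rw [← one_eq_refl] at hx
  rw [sp_main htG ht hs (by rw [Matrix.det_one]; exact isUnit_one) hx, card_Y_one hs1]

theorem sp_alt {s : ℕ} {t : (Fin m ⊕ Fin m → F) ≃ₗ[F] (Fin m ⊕ Fin m → F)} (htG : t ∈ spG F m) (ht : ∀ v, t (t v) = v)
    (hs : Module.finrank F (LinearMap.range (nn t)) = s) (ha : ∀ v, sB F m v (nn t v) = 0) :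
    Nat.card (cen (spG F m) t) = spO (Fintype.card F) (s / 2) *
      (Fintype.card F ^ (2 * (m - s) * s + s * (s + 1) / 2) * spO (Fintype.card F) (m - s)) := by
  have hG : ∀ g ∈ spG F m, ∀ x y, sB F m (g x) (g y) = sB F m x y := fun g hg => hg
  obtain ⟨k, hk, x, hx⟩ := exists_data_alt (f := sB F m) (sB_isAlt m) (fun x h => sB_nd x h) ht (hG t htG) ha
  rw [← J_eq_comm] at hx
  rw [sp_main htG ht hs (Matrix.isUnit_det_J (Fin k) F) hx, card_Y_J, show s / 2 = k by omega]

theorem card_cent_of_inj {G H : Type*} [Group G] [Group H] (φ : G →* H) (hinj : Function.Injective φ) (K : Subgroup H)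
    (hK : ∀ h, h ∈ K ↔ ∃ g, φ g = h) (t : G) :
    Nat.card ↥(Subgroup.centralizer ({t} : Set G)) = Nat.card ↥(K ⊓ Subgroup.centralizer ({φ t} : Set H)) := by
  have hmem : ∀ g : ↥(Subgroup.centralizer ({t} : Set G)), φ g.1 ∈ K ⊓ Subgroup.centralizer ({φ t} : Set H) := by
    intro g
    refine Subgroup.mem_inf.2 ⟨(hK _).2 ⟨_, rfl⟩, ?_⟩
    have h := Subgroup.mem_centralizer_singleton_iff.1 g.2
    rw [Subgroup.mem_centralizer_singleton_iff, ← map_mul, ← map_mul, h]
  apply Nat.card_eq_of_bijective (fun g => (⟨φ g.1, hmem g⟩ : ↥(K ⊓ Subgroup.centralizer ({φ t} : Set H))))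
  constructor
  · intro a b h
    exact Subtype.ext (hinj (congrArg Subtype.val h))
  · rintro ⟨g, hg⟩
    obtain ⟨x, hx⟩ := (hK g).1 hg.1
    refine ⟨⟨x, ?_⟩, Subtype.ext hx⟩
    rw [Subgroup.mem_centralizer_singleton_iff]
    apply hinj
    have h := Subgroup.mem_centralizer_singleton_iff.1 hg.2
    rw [map_mul, map_mul, hx, h]

theorem card_cent_sp (t : Matrix.symplecticGroup (Fin m) F) :
    Nat.card ↥(Subgroup.centralizer ({t} : Set ↥(Matrix.symplecticGroup (Fin m) F))) = Nat.card (cen (spG F m) (spHom F m t)) :=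
  card_cent_of_inj (spHom F m) (fun _ _ h => sp_inj h) (spG F m) (fun h => ⟨fun hh => sp_surj h hh, fun ⟨g, hg⟩ => hg ▸ spHom_mem F m g⟩) t

theorem spO_fin (q k : ℕ) : q ^ (k ^ 2) * ∏ i : Fin k, (q ^ (2 * ((i : ℕ) + 1)) - 1) = spO q k := by
  rw [spO, Finset.prod_range]

end

end Cfsg.Agent.H41
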