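import Mathlib
import Cfsg.Agent.H41.GraphOdd
import Cfsg.Agent.H41.InvolCentSp
import Cfsg.Agent.OrthCount.Orders
import Cfsg.Agent.S2624
import Cfsg.Agent.S2625

set_option autoImplicit false
set_option linter.unusedSectionVars false
set_option linter.unusedVariables false

/-! Splitting of the class of an involutory graph automorphism of `PSL_n(q)`. -/

namespace Cfsg.Agent.H41

open Matrix Cfsg.Agent.AutPSL Cfsg.Agent.AutLie QuadraticMap Module

section count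
variable {F : Type*} [Field F] {n m : ℕ}

theorem count_gam [Finite F] (hn : 2 ≤ n) (M : GL (Fin n) F) :
    Cfsg.splitClassCount (Cfsg.inndiagPSL n F) (Cfsg.Inn (Matrix.ProjectiveSpecialLinearGroup (Fin n) F)) (gam M) =
      ((simM M).map Matrix.GeneralLinearGroup.det ⊔ (powMonoidHom n : Fˣ →* Fˣ).range).index := by
  rw [inndiagPSL_eq]
  refine splitClassCount_eq_index (diagHom n F) _ _ rfl ?_ _ Matrix.GeneralLinearGroup.det
    (Cfsg.Agent.H4.det_surjective n (by omega) F) (powMonoidHom n : Fˣ →* Fˣ).range _ ?_ ?_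
  · rw [inn_eq]
    rintro _ ⟨s, rfl⟩
    exact ⟨_, rfl⟩
  · intro g
    rw [diagHom_mem_inn hn]
    constructor
    · rintro ⟨c, hc⟩; exact ⟨c, hc.symm⟩
    · rintro ⟨c, hc⟩; exact ⟨c, hc.symm⟩
  · intro g
    rw [Subgroup.mem_sup]
    constructor
    · rintro ⟨u, ⟨k, hk, rfl⟩, y, hy, hyy⟩
      refine ⟨k, ?_, ?_⟩
      · rw [comm_iff hn, ← mem_simM]; exact hk
      · rw [← hyy, mul_comm, inv_mul_cancel_left]
        exact hy
    · rintro ⟨k, hk, hkk⟩
      refine ⟨Matrix.GeneralLinearGroup.det k, ⟨k, ?_, rfl⟩, Matrix.GeneralLinearGroup.det g * (Matrix.GeneralLinearGroup.det k)⁻¹, hkk, ?_⟩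
      · have := (comm_iff hn k M).1 hk
        exact (mem_simM k M).2 this
      · rw [mul_comm, inv_mul_cancel_right]

theorem det_rel (k M : GL (Fin n) F) (c : Fˣ) (h : (k : Matrix (Fin n) (Fin n) F)ᵀ * (M : Matrix (Fin n) (Fin n) F) * (k : Matrix (Fin n) (Fin n) F) = (c : F) • (M : Matrix (Fin n) (Fin n) F)) :
    Matrix.GeneralLinearGroup.det k * Matrix.GeneralLinearGroup.det k = c ^ n := by
  have h1 := congrArg Matrix.det h
  rw [Matrix.det_mul, Matrix.det_mul, Matrix.det_transpose, Matrix.det_smul, Fintype.card_fin] at h1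
  apply Units.ext
  have hM : (M : Matrix (Fin n) (Fin n) F).det ≠ 0 := (Matrix.GeneralLinearGroup.det M).ne_zero
  apply mul_right_cancel₀ hM
  rw [Units.val_mul, Units.val_pow_eq_pow_val, Matrix.GeneralLinearGroup.val_det_apply, ← h1]
  ring

/-- all determinants of similarities are `n`-th powers -/
theorem index_A [Fintype F] (M : GL (Fin n) F) (h : ∀ k ∈ simM M, ∃ b : Fˣ, Matrix.GeneralLinearGroup.det k = b ^ n) :
    ((simM M).map Matrix.GeneralLinearGroup.det ⊔ (powMonoidHom n : Fˣ →* Fˣ).range).index = Nat.gcd n (Fintype.card F - 1) := by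
  classical
  have h1 : (simM M).map Matrix.GeneralLinearGroup.det ≤ (powMonoidHom n : Fˣ →* Fˣ).range := by
    rintro _ ⟨k, hk, rfl⟩
    obtain ⟨b, hb⟩ := h k hk
    exact ⟨b, hb.symm⟩
  rw [sup_eq_right.2 h1]
  have h2 := index_sup_pow' (⊥ : Subgroup Fˣ) n 1 (by simp)
  rw [bot_sup_eq, Nat.div_one, Nat.card_eq_fintype_card, Fintype.card_units] at h2
  exact h2

theorem index_B [Fintype F] (hnm : n = 2 * m) (M : GL (Fin n) F) (h1 : ∀ k ∈ simM M, ∃ b : Fˣ, Matrix.GeneralLinearGroup.det k = b ^ m)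
    (h2 : ∀ b : Fˣ, ∃ k ∈ simM M, Matrix.GeneralLinearGroup.det k = b ^ m) :
    ((simM M).map Matrix.GeneralLinearGroup.det ⊔ (powMonoidHom n : Fˣ →* Fˣ).range).index = Nat.gcd m (Fintype.card F - 1) := by
  classical
  have h3 : (simM M).map Matrix.GeneralLinearGroup.det ⊔ (powMonoidHom n : Fˣ →* Fˣ).range = (powMonoidHom m : Fˣ →* Fˣ).range := by
    apply le_antisymm
    · apply sup_le
      · rintro _ ⟨k, hk, rfl⟩
        obtain ⟨b, hb⟩ := h1 k hk
        exact ⟨b, hb.symm⟩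
      · rintro _ ⟨b, rfl⟩
        refine ⟨b ^ 2, ?_⟩
        rw [powMonoidHom_apply, powMonoidHom_apply, ← pow_mul, hnm]
    · refine le_trans ?_ le_sup_left
      rintro _ ⟨b, rfl⟩
      obtain ⟨k, hk, hkb⟩ := h2 b
      exact ⟨k, hk, hkb⟩
  rw [h3]
  have h2 := index_sup_pow' (⊥ : Subgroup Fˣ) m 1 (by simp)
  rw [bot_sup_eq, Nat.div_one, Nat.card_eq_fintype_card, Fintype.card_units] at h2
  exact h2

theorem index_C [Fintype F] (h2' : (2 : F) ≠ 0) (hnm : n = 2 * m) (M : GL (Fin n) F) (h1 : ∀ k ∈ simM M, ∃ b : Fˣ, Matrix.GeneralLinearGroup.det k = b ^ m ∨ Matrix.GeneralLinearGroup.det k = -b ^ m)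
    (h2 : ∀ b : Fˣ, ∃ k ∈ simM M, Matrix.GeneralLinearGroup.det k = b ^ m ∨ Matrix.GeneralLinearGroup.det k = -b ^ m) (h3 : ∃ k ∈ simM M, Matrix.GeneralLinearGroup.det k = -1) :
    ((simM M).map Matrix.GeneralLinearGroup.det ⊔ (powMonoidHom n : Fˣ →* Fˣ).range).index = Nat.gcd n (Fintype.card F - 1) / 2 := by
  classical
  have hm1 : (-1 : Fˣ) ∈ (simM M).map Matrix.GeneralLinearGroup.det := by
    obtain ⟨k, hk, hk1⟩ := h3
    exact ⟨k, hk, hk1⟩
  have hneg : ∀ x : Fˣ, -x = (-1) * x := fun x => by rw [neg_mul, one_mul]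
  have h4 : (simM M).map Matrix.GeneralLinearGroup.det ⊔ (powMonoidHom n : Fˣ →* Fˣ).range = Subgroup.zpowers (-1 : Fˣ) ⊔ (powMonoidHom m : Fˣ →* Fˣ).range := by
    apply le_antisymm
    · apply sup_le
      · rintro _ ⟨k, hk, rfl⟩
        obtain ⟨b, hb | hb⟩ := h1 k hk
        · exact Subgroup.mem_sup_right ⟨b, hb.symm⟩
        · rw [hb, hneg (b ^ m)]
          have hbm : b ^ m ∈ (powMonoidHom m : Fˣ →* Fˣ).range := ⟨b, rfl⟩
          exact Subgroup.mul_mem_sup (Subgroup.mem_zpowers _) hbm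
      · refine le_trans ?_ le_sup_right
        rintro _ ⟨b, rfl⟩
        refine ⟨b ^ 2, ?_⟩
        rw [powMonoidHom_apply, powMonoidHom_apply, ← pow_mul, hnm]
    · refine le_trans ?_ le_sup_left
      apply sup_le
      · rw [Subgroup.zpowers_le]
        exact hm1
      · rintro _ ⟨b, rfl⟩
        obtain ⟨k, hk, hkb | hkb⟩ := h2 b
        · exact ⟨k, hk, hkb⟩
        · have h5 : Matrix.GeneralLinearGroup.det k ∈ (simM M).map Matrix.GeneralLinearGroup.det := ⟨k, hk, rfl⟩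
          have h6 := Subgroup.mul_mem _ hm1 h5
          rw [hkb] at h6
          have h7 : (-1 : Fˣ) * -b ^ m = b ^ m := by rw [neg_mul_neg, one_mul]
          rw [h7] at h6
          exact h6
  have hcard : Nat.card (Subgroup.zpowers (-1 : Fˣ)) = 2 := by
    rw [Nat.card_zpowers]
    apply orderOf_eq_prime
    · rw [pow_two, neg_mul_neg, one_mul]
    · intro h
      have h5 := congrArg Units.val h
      rw [Units.val_neg, Units.val_one] at h5
      apply h2'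
      linear_combination -h5
  rw [h4, index_sup_pow' _ m 2 hcard, Nat.card_eq_fintype_card, Fintype.card_units, hnm]
  have hev : 2 ∣ Fintype.card F - 1 := by
    have := Subgroup.card_subgroup_dvd_card (Subgroup.zpowers (-1 : Fˣ))
    rw [hcard, Nat.card_eq_fintype_card, Fintype.card_units] at this
    exact this
  obtain ⟨k, hk⟩ := hev
  rw [hk, Nat.mul_div_cancel_left _ (by norm_num), Nat.gcd_mul_left, Nat.mul_div_cancel_left _ (by norm_num)]

end count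

section dets
variable {F : Type*} [Field F] {n m : ℕ}

theorem det_trE {ι κ : Type} [Fintype ι] [DecidableEq ι] [Fintype κ] [DecidableEq κ] (e : (ι → F) ≃ₗ[F] (κ → F)) (g : GL ι F) :
    ((trE e g : GL κ F) : Matrix κ κ F).det = (g : Matrix ι ι F).det := by
  rw [← LinearMap.det_toLin', ← LinearMap.det_toLin', ← LinearMap.det_conj (Matrix.toLin' (g : Matrix ι ι F)) e]
  congr 1
  apply LinearMap.ext
  intro v
  obtain ⟨v, rfl⟩ := e.surjective v
  rw [Matrix.toLin'_apply, trE_mulVec]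
  simp

theorem det_GSp (g : GL (Fin m ⊕ Fin m) F) (c : F) (hc0 : c ≠ 0)
    (h : ∀ u v, Cfsg.sympForm m F ((g : Matrix (Fin m ⊕ Fin m) (Fin m ⊕ Fin m) F) *ᵥ u) ((g : Matrix (Fin m ⊕ Fin m) (Fin m ⊕ Fin m) F) *ᵥ v) = c * Cfsg.sympForm m F u v) :
    (g : Matrix (Fin m ⊕ Fin m) (Fin m ⊕ Fin m) F).det = c ^ m := by
  let D : Matrix (Fin m ⊕ Fin m) (Fin m ⊕ Fin m) F := Matrix.fromBlocks (c⁻¹ • 1) 0 0 1
  have hD : D.det = (c⁻¹) ^ m := by
    rw [Matrix.det_fromBlocks_zero₂₁, Matrix.det_one, mul_one, Matrix.det_smul, Matrix.det_one, mul_one, Fintype.card_fin]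
  have hDs : ∀ u v, Cfsg.sympForm m F (D *ᵥ u) (D *ᵥ v) = c⁻¹ * Cfsg.sympForm m F u v := by
    intro u v
    rw [Cfsg.Agent.ClGeo.sympForm_eq, Cfsg.Agent.ClGeo.sympForm_eq]
    have e : ∀ w : Fin m ⊕ Fin m → F, D *ᵥ w = Sum.elim (c⁻¹ • (w ∘ Sum.inl)) (w ∘ Sum.inr) := by
      intro w
      rw [Matrix.fromBlocks_mulVec]
      simp [Matrix.smul_mulVec]
    rw [e, e, Finset.mul_sum]
    refine Finset.sum_congr rfl fun i _ => ?_
    simp
    ring
  have hmem : D * (g : Matrix (Fin m ⊕ Fin m) (Fin m ⊕ Fin m) F) ∈ Matrix.symplecticGroup (Fin m) F := by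
    rw [Cfsg.Agent.ClGeo.mem_symplecticGroup_iff]
    intro u v
    rw [← Matrix.mulVec_mulVec, ← Matrix.mulVec_mulVec, hDs, h]
    field_simp
  have h1 := SymplecticGroup.det_eq_one hmem
  rw [Matrix.det_mul, hD, inv_pow] at h1
  have h2 : c ^ m ≠ 0 := pow_ne_zero _ hc0
  field_simp at h1
  exact h1

theorem alt_key (hnm : n = 2 * m) (M : GL (Fin n) F) (hM : ∀ v, v ⬝ᵥ (M : Matrix (Fin n) (Fin n) F) *ᵥ v = 0) :
    (∀ (k : GL (Fin n) F) (c : Fˣ), (∀ u v, ((k : Matrix (Fin n) (Fin n) F) *ᵥ u) ⬝ᵥ (M : Matrix (Fin n) (Fin n) F) *ᵥ ((k : Matrix (Fin n) (Fin n) F) *ᵥ v) = c * (u ⬝ᵥ (M : Matrix (Fin n) (Fin n) F) *ᵥ v)) →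
      Matrix.GeneralLinearGroup.det k = c ^ m) ∧
    ∀ b : Fˣ, ∃ k : GL (Fin n) F, (∀ u v, ((k : Matrix (Fin n) (Fin n) F) *ᵥ u) ⬝ᵥ (M : Matrix (Fin n) (Fin n) F) *ᵥ ((k : Matrix (Fin n) (Fin n) F) *ᵥ v) = b * (u ⬝ᵥ (M : Matrix (Fin n) (Fin n) F) *ᵥ v)) ∧ Matrix.GeneralLinearGroup.det k = b ^ m := by
  obtain ⟨e, he⟩ := exists_symp hnm M hM
  have key : ∀ (k : GL (Fin n) F) (c : Fˣ), (∀ u v, ((k : Matrix (Fin n) (Fin n) F) *ᵥ u) ⬝ᵥ (M : Matrix (Fin n) (Fin n) F) *ᵥ ((k : Matrix (Fin n) (Fin n) F) *ᵥ v) = c * (u ⬝ᵥ (M : Matrix (Fin n) (Fin n) F) *ᵥ v)) →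
      Matrix.GeneralLinearGroup.det k = c ^ m := by
    intro k c h
    apply Units.ext
    rw [Matrix.GeneralLinearGroup.val_det_apply, Units.val_pow_eq_pow_val, ← det_trE e, det_GSp _ (c : F) c.ne_zero]
    intro u v
    obtain ⟨u, rfl⟩ := e.surjective u
    obtain ⟨v, rfl⟩ := e.surjective v
    rw [trE_mulVec, trE_mulVec, ← he, ← he, h]
  constructor
  · exact key
  · intro b
    let D : Matrix (Fin m ⊕ Fin m) (Fin m ⊕ Fin m) F := Matrix.fromBlocks ((b : F) • 1) 0 0 1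
    have hD : D.det = (b : F) ^ m := by
      rw [Matrix.det_fromBlocks_zero₂₁, Matrix.det_one, mul_one, Matrix.det_smul, Matrix.det_one, mul_one, Fintype.card_fin]
    let D' : GL (Fin m ⊕ Fin m) F := Matrix.GeneralLinearGroup.mkOfDetNeZero D (by rw [hD]; exact pow_ne_zero _ b.ne_zero)
    have hDs : ∀ u v, Cfsg.sympForm m F (D *ᵥ u) (D *ᵥ v) = b * Cfsg.sympForm m F u v := by
      intro u v
      rw [Cfsg.Agent.ClGeo.sympForm_eq, Cfsg.Agent.ClGeo.sympForm_eq]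
      have e : ∀ w : Fin m ⊕ Fin m → F, D *ᵥ w = Sum.elim ((b : F) • (w ∘ Sum.inl)) (w ∘ Sum.inr) := by
        intro w
        rw [Matrix.fromBlocks_mulVec]
        simp [Matrix.smul_mulVec]
      rw [e, e, Finset.mul_sum]
      refine Finset.sum_congr rfl fun i _ => ?_
      simp
      ring
    obtain ⟨k, hk⟩ := (trE e).surjective D'
    have h1 : ∀ u v, ((k : Matrix (Fin n) (Fin n) F) *ᵥ u) ⬝ᵥ (M : Matrix (Fin n) (Fin n) F) *ᵥ ((k : Matrix (Fin n) (Fin n) F) *ᵥ v) = b * (u ⬝ᵥ (M : Matrix (Fin n) (Fin n) F) *ᵥ v) := by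
      intro u v
      rw [he, ← trE_mulVec, ← trE_mulVec, hk, he]
      exact hDs _ _
    exact ⟨k, h1, key k b h1⟩

theorem alt_surj (hnm : n = 2 * m) (M : GL (Fin n) F) (hM : ∀ v, v ⬝ᵥ (M : Matrix (Fin n) (Fin n) F) *ᵥ v = 0) (b : Fˣ) :
    ∃ k : GL (Fin n) F, (∀ u v, ((k : Matrix (Fin n) (Fin n) F) *ᵥ u) ⬝ᵥ (M : Matrix (Fin n) (Fin n) F) *ᵥ ((k : Matrix (Fin n) (Fin n) F) *ᵥ v) = b * (u ⬝ᵥ (M : Matrix (Fin n) (Fin n) F) *ᵥ v)) ∧ Matrix.GeneralLinearGroup.det k = b ^ m :=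
  (alt_key hnm M hM).2 b

theorem alt_dets (hnm : n = 2 * m) (M : GL (Fin n) F) (hM : ∀ v, v ⬝ᵥ (M : Matrix (Fin n) (Fin n) F) *ᵥ v = 0) :
    (∀ k ∈ simM M, ∃ b : Fˣ, Matrix.GeneralLinearGroup.det k = b ^ m) ∧ ∀ b : Fˣ, ∃ k ∈ simM M, Matrix.GeneralLinearGroup.det k = b ^ m := by
  obtain ⟨h1, h2⟩ := alt_key hnm M hM
  refine ⟨?_, fun b => ?_⟩
  · rintro k ⟨c, hc⟩
    exact ⟨c, h1 k c hc⟩
  · obtain ⟨k, hk, hkb⟩ := h2 b
    exact ⟨k, ⟨b, hk⟩, hkb⟩

theorem sym_surj [Finite F] (h2 : (2 : F) ≠ 0) (hm : 1 ≤ m) (hnm : n = 2 * m) (M : GL (Fin n) F) (hM : (M : Matrix (Fin n) (Fin n) F)ᵀ = M) (b : Fˣ) :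
    ∃ k : GL (Fin n) F, (k : Matrix (Fin n) (Fin n) F)ᵀ * (M : Matrix (Fin n) (Fin n) F) * (k : Matrix (Fin n) (Fin n) F) = (b : F) • (M : Matrix (Fin n) (Fin n) F) := by
  have hfin : Fintype F := Fintype.ofFinite F
  obtain ⟨g, hg⟩ := Cfsg.Agent.S2624.result (n := n) (by omega) ⟨m, by omega⟩ (qM (M : Matrix (Fin n) (Fin n) F)) (qM_nd h2 M hM) (b : F) b.ne_zero
  obtain ⟨k, hk⟩ := exists_gl g
  exact ⟨k, (simil_iff_q h2 (k : Matrix (Fin n) (Fin n) F) _ _ hM hM (b : F)).2 (fun v => by rw [hk, hg])⟩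

theorem sym_dets [Finite F] (h2 : (2 : F) ≠ 0) (hm : 1 ≤ m) (hnm : n = 2 * m) (M : GL (Fin n) F) (hM : (M : Matrix (Fin n) (Fin n) F)ᵀ = M) :
    (∀ k ∈ simM M, ∃ b : Fˣ, Matrix.GeneralLinearGroup.det k = b ^ m ∨ Matrix.GeneralLinearGroup.det k = -b ^ m) ∧
    (∀ b : Fˣ, ∃ k ∈ simM M, Matrix.GeneralLinearGroup.det k = b ^ m ∨ Matrix.GeneralLinearGroup.det k = -b ^ m) ∧
    ∃ k ∈ simM M, Matrix.GeneralLinearGroup.det k = -1 := by
  have hfin : Fintype F := Fintype.ofFinite F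
  have key : ∀ (k : GL (Fin n) F) (c : Fˣ), (k : Matrix (Fin n) (Fin n) F)ᵀ * (M : Matrix (Fin n) (Fin n) F) * (k : Matrix (Fin n) (Fin n) F) = (c : F) • (M : Matrix (Fin n) (Fin n) F) →
      Matrix.GeneralLinearGroup.det k = c ^ m ∨ Matrix.GeneralLinearGroup.det k = -c ^ m := by
    intro k c h
    have h1 := congrArg Units.val (det_rel k M c h)
    have e1 : c ^ n = c ^ m * c ^ m := by rw [← pow_add]; congr 1; omega
    rw [Units.val_mul, e1, Units.val_mul] at h1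
    rcases mul_self_eq_mul_self_iff.1 h1 with h3 | h3
    · left; exact Units.ext h3
    · right; exact Units.ext (by rw [h3, Units.val_neg])
  refine ⟨?_, ?_, ?_⟩
  · intro k hk
    obtain ⟨c, hc⟩ := (mem_simM k M).1 hk
    exact ⟨c, key k c hc⟩
  · intro b
    obtain ⟨g, hg⟩ := Cfsg.Agent.S2624.result (n := n) (by omega) ⟨m, by omega⟩ (qM (M : Matrix (Fin n) (Fin n) F)) (qM_nd h2 M hM) (b : F) b.ne_zero
    obtain ⟨k, hk⟩ := exists_gl g
    have h1 := (simil_iff_q h2 (k : Matrix (Fin n) (Fin n) F) _ _ hM hM (b : F)).2 (fun v => by rw [hk, hg])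
    exact ⟨k, (mem_simM k M).2 ⟨b, h1⟩, key k b h1⟩
  · obtain ⟨v, hv⟩ : ∃ v, qM (M : Matrix (Fin n) (Fin n) F) v ≠ 0 := by
      by_contra hcon
      push Not at hcon
      have h0 := (qM_nd h2 M hM).1 (Pi.single ⟨0, by omega⟩ 1) (fun w => by
        rw [polarBilin_apply_apply]
        unfold polar
        rw [hcon, hcon, hcon]
        ring)
      have := congrFun h0 ⟨0, by omega⟩
      simp at this
    let Q := qM (M : Matrix (Fin n) (Fin n) F)
    obtain ⟨g, hg⟩ := (Cfsg.Agent.Orth.bridge Q).surjective (Cfsg.Agent.Orth.reflProd Q [⟨v, hv⟩])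
    have hdet := Cfsg.Agent.Orth.det_of_reflProd Q g [⟨v, hv⟩] hg
    refine ⟨(g : GL (Fin n) F), ?_, ?_⟩
    · rw [mem_simM]
      refine ⟨1, ?_⟩
      rw [simil_iff_q h2 _ _ _ hM hM]
      intro w
      rw [Units.val_one, one_mul]
      exact g.2 w w
    · apply Units.ext
      rw [Matrix.GeneralLinearGroup.val_det_apply, hdet, Units.val_neg, Units.val_one]
      simp

end dets

section cards
variable {F : Type*} [Field F] [Fintype F] {κ : Type} [Fintype κ] [DecidableEq κ]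

theorem card_sim (H K : Subgroup (GL κ F)) (P : GL κ F → Fˣ → Prop) (hH : ∀ g, g ∈ H ↔ ∃ c, P g c) (hK : ∀ g, g ∈ K ↔ P g 1)
    (hmul : ∀ g h c d, P g c → P h d → P (g * h) (c * d)) (hinv : ∀ g c, P g c → P g⁻¹ c⁻¹) (huniq : ∀ g c d, P g c → P g d → c = d)
    (hsurj : ∀ c, ∃ g, P g c) : Nat.card H = Nat.card Fˣ * Nat.card K := by
  choose s hs using hsurj
  rw [← Nat.card_prod]
  symm
  apply Nat.card_eq_of_bijective (fun p : Fˣ × K => (⟨s p.1 * p.2.1, (hH _).2 ⟨p.1 * 1, hmul _ _ _ _ (hs p.1) ((hK _).1 p.2.2)⟩⟩ : H))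
  constructor
  · rintro ⟨c, k⟩ ⟨c', k'⟩ h
    have h1 : s c * k.1 = s c' * k'.1 := congrArg Subtype.val h
    have h2 : P (s c * k.1) (c * 1) := hmul _ _ _ _ (hs c) ((hK _).1 k.2)
    have h3 : P (s c' * k'.1) (c' * 1) := hmul _ _ _ _ (hs c') ((hK _).1 k'.2)
    rw [h1] at h2
    have h4 := huniq _ _ _ h2 h3
    rw [mul_one, mul_one] at h4
    subst h4
    exact Prod.ext rfl (Subtype.ext (mul_left_cancel h1))
  · rintro ⟨g, hg⟩
    obtain ⟨c, hc⟩ := (hH g).1 hg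
    refine ⟨(c, ⟨(s c)⁻¹ * g, (hK _).2 ?_⟩), Subtype.ext (mul_inv_cancel_left _ _)⟩
    have := hmul _ _ _ _ (hinv _ _ (hs c)) hc
    rwa [inv_mul_cancel] at this

theorem card_projQuot [Nonempty κ] (H : Subgroup (GL κ F)) (hs : Cfsg.Geo.scalars κ F ≤ H) : Nat.card H = Nat.card Fˣ * Nat.card (Cfsg.projQuot H) := by
  rw [Subgroup.card_eq_card_quotient_mul_card_subgroup ((Cfsg.Geo.scalars κ F).subgroupOf H), mul_comm]
  congr 1
  rw [Nat.card_congr (Subgroup.subgroupOfEquivOfLe hs).toEquiv]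
  have hinj : Function.Injective (Units.map (Matrix.scalar κ : F →+* Matrix κ κ F).toMonoidHom) := by
    apply Units.map_injective
    intro a b h
    exact Matrix.scalar_inj.1 h
  exact (Nat.card_congr (MonoidHom.ofInjective hinj).toEquiv).symm

end cards

section noniso
variable {F : Type*} [Field F] [Fintype F] {n m : ℕ}

/-- matrices with `kᵀ M k = M` -/
def isoM (M : GL (Fin n) F) : Subgroup (GL (Fin n) F) where
  carrier := {k | (k : Matrix (Fin n) (Fin n) F)ᵀ * (M : Matrix (Fin n) (Fin n) F) * (k : Matrix (Fin n) (Fin n) F) = (M : Matrix (Fin n) (Fin n) F)}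
  mul_mem' := by
    intro a b ha hb
    show ((a * b : GL (Fin n) F) : Matrix (Fin n) (Fin n) F)ᵀ * _ * _ = _
    rw [Units.val_mul, Matrix.transpose_mul]
    calc _ = (b : Matrix (Fin n) (Fin n) F)ᵀ * ((a : Matrix (Fin n) (Fin n) F)ᵀ * (M : Matrix (Fin n) (Fin n) F) * (a : Matrix (Fin n) (Fin n) F)) * (b : Matrix (Fin n) (Fin n) F) := by
          simp only [Matrix.mul_assoc]
      _ = _ := by rw [show _ = _ from ha]; exact hb
  one_mem' := by
    show ((1 : GL (Fin n) F) : Matrix (Fin n) (Fin n) F)ᵀ * _ * _ = _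
    rw [Units.val_one, Matrix.transpose_one, Matrix.one_mul, Matrix.mul_one]
  inv_mem' := by
    intro a ha
    show ((a⁻¹ : GL (Fin n) F) : Matrix (Fin n) (Fin n) F)ᵀ * _ * _ = _
    have h1 : (a : Matrix (Fin n) (Fin n) F) * ((a⁻¹ : GL (Fin n) F) : Matrix (Fin n) (Fin n) F) = 1 := by
      rw [← Units.val_mul, mul_inv_cancel, Units.val_one]
    have h2 := congrArg Matrix.transpose h1
    rw [Matrix.transpose_mul, Matrix.transpose_one] at h2
    conv_lhs => rw [← show (a : Matrix (Fin n) (Fin n) F)ᵀ * (M : Matrix (Fin n) (Fin n) F) * (a : Matrix (Fin n) (Fin n) F) = (M : Matrix (Fin n) (Fin n) F) from ha]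
    calc _ = (((a⁻¹ : GL (Fin n) F) : Matrix (Fin n) (Fin n) F)ᵀ * (a : Matrix (Fin n) (Fin n) F)ᵀ) * (M : Matrix (Fin n) (Fin n) F) * ((a : Matrix (Fin n) (Fin n) F) * ((a⁻¹ : GL (Fin n) F) : Matrix (Fin n) (Fin n) F)) := by
          simp only [Matrix.mul_assoc]
      _ = _ := by rw [h1, h2, Matrix.one_mul, Matrix.mul_one]

theorem mem_isoM (k M : GL (Fin n) F) : k ∈ isoM M ↔ (k : Matrix (Fin n) (Fin n) F)ᵀ * (M : Matrix (Fin n) (Fin n) F) * (k : Matrix (Fin n) (Fin n) F) = (M : Matrix (Fin n) (Fin n) F) := Iff.rfl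

theorem card_cent_gam (hn : 2 ≤ n) (M : GL (Fin n) F) (hsurj : ∀ c : Fˣ, ∃ k : GL (Fin n) F, (k : Matrix (Fin n) (Fin n) F)ᵀ * (M : Matrix (Fin n) (Fin n) F) * (k : Matrix (Fin n) (Fin n) F) = (c : F) • (M : Matrix (Fin n) (Fin n) F)) :
    Nat.card ↥(Cfsg.inndiagPSL n F ⊓ Subgroup.centralizer {gam M}) = Nat.card (isoM M) := by
  classical
  obtain ⟨e1⟩ := cent_gam hn M
  rw [Nat.card_congr e1.toEquiv]
  have hne : Nonempty (Fin n) := ⟨⟨0, by omega⟩⟩
  have hs : Cfsg.Geo.scalars (Fin n) F ≤ simM M := by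
    intro g hg
    rw [mem_scalars_iff'] at hg
    obtain ⟨a, ha⟩ := hg
    rw [mem_simM]
    refine ⟨a * a, ?_⟩
    rw [simil_iff]
    intro u v
    rw [ha, ha, Matrix.mulVec_smul, smul_dotProduct, dotProduct_smul, smul_eq_mul, smul_eq_mul, Units.val_mul, mul_assoc]
  have h1 := card_projQuot (simM M) hs
  have hM : (M : Matrix (Fin n) (Fin n) F) ≠ 0 := M.isUnit.ne_zero
  have h2 := card_sim (simM M) (isoM M) (fun k c => (k : Matrix (Fin n) (Fin n) F)ᵀ * (M : Matrix (Fin n) (Fin n) F) * (k : Matrix (Fin n) (Fin n) F) = (c : F) • (M : Matrix (Fin n) (Fin n) F))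
    (fun g => mem_simM g M) (fun g => by rw [mem_isoM, Units.val_one, one_smul]) ?_ ?_ ?_ hsurj
  · rw [h1] at h2
    exact Nat.eq_of_mul_eq_mul_left Nat.card_pos h2
  · intro a b c d ha hb
    rw [Units.val_mul, Matrix.transpose_mul]
    calc _ = (b : Matrix (Fin n) (Fin n) F)ᵀ * ((a : Matrix (Fin n) (Fin n) F)ᵀ * (M : Matrix (Fin n) (Fin n) F) * (a : Matrix (Fin n) (Fin n) F)) * (b : Matrix (Fin n) (Fin n) F) := by
          simp only [Matrix.mul_assoc]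
      _ = _ := by rw [ha, Matrix.mul_smul, Matrix.smul_mul, hb, smul_smul, Units.val_mul]
  · intro a c ha
    have h1 : (a : Matrix (Fin n) (Fin n) F) * ((a⁻¹ : GL (Fin n) F) : Matrix (Fin n) (Fin n) F) = 1 := by
      rw [← Units.val_mul, mul_inv_cancel, Units.val_one]
    have h2 := congrArg Matrix.transpose h1
    rw [Matrix.transpose_mul, Matrix.transpose_one] at h2
    have h3 : (M : Matrix (Fin n) (Fin n) F) = ((c⁻¹ : Fˣ) : F) • ((a : Matrix (Fin n) (Fin n) F)ᵀ * (M : Matrix (Fin n) (Fin n) F) * (a : Matrix (Fin n) (Fin n) F)) := by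
      rw [ha, smul_smul, ← Units.val_mul, inv_mul_cancel, Units.val_one, one_smul]
    conv_lhs => rw [h3]
    rw [Matrix.mul_smul, Matrix.smul_mul]
    congr 1
    calc _ = (((a⁻¹ : GL (Fin n) F) : Matrix (Fin n) (Fin n) F)ᵀ * (a : Matrix (Fin n) (Fin n) F)ᵀ) * (M : Matrix (Fin n) (Fin n) F) * ((a : Matrix (Fin n) (Fin n) F) * ((a⁻¹ : GL (Fin n) F) : Matrix (Fin n) (Fin n) F)) := by
          simp only [Matrix.mul_assoc]
      _ = _ := by rw [h1, h2, Matrix.one_mul, Matrix.mul_one]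
  · intro a c d hc hd
    rw [hc] at hd
    apply Units.ext
    have h5 : ((c : F) - d) • (M : Matrix (Fin n) (Fin n) F) = 0 := by rw [sub_smul, hd, sub_self]
    rcases smul_eq_zero.1 h5 with h6 | h6
    · exact sub_eq_zero.1 h6
    · exact absurd h6 hM

theorem card_isoM_alt (hnm : n = 2 * m) (M : GL (Fin n) F) (hM : ∀ v, v ⬝ᵥ (M : Matrix (Fin n) (Fin n) F) *ᵥ v = 0) :
    Nat.card (isoM M) = Nat.card (Matrix.symplecticGroup (Fin m) F) := by
  obtain ⟨e, he⟩ := exists_symp hnm M hM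
  have key : ∀ k : GL (Fin n) F, k ∈ isoM M ↔ ((trE e k : GL (Fin m ⊕ Fin m) F) : Matrix (Fin m ⊕ Fin m) (Fin m ⊕ Fin m) F) ∈ Matrix.symplecticGroup (Fin m) F := by
    intro k
    have h0 := simil_iff (k : Matrix (Fin n) (Fin n) F) (M : Matrix (Fin n) (Fin n) F) (M : Matrix (Fin n) (Fin n) F) (1 : F)
    rw [one_smul] at h0
    rw [mem_isoM, h0, Cfsg.Agent.ClGeo.mem_symplecticGroup_iff]
    constructor
    · intro h u v
      obtain ⟨u, rfl⟩ := e.surjective u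
      obtain ⟨v, rfl⟩ := e.surjective v
      rw [trE_mulVec, trE_mulVec, ← he, ← he, h, one_mul]
    · intro h u v
      have h1 := h (e u) (e v)
      rw [trE_mulVec, trE_mulVec, ← he, ← he] at h1
      rw [h1, one_mul]
  apply Nat.card_eq_of_bijective (fun k : isoM M => (⟨_, (key k.1).1 k.2⟩ : Matrix.symplecticGroup (Fin m) F))
  constructor
  · intro a b h
    have h1 := congrArg Subtype.val h
    exact Subtype.ext ((trE e).injective (Units.ext h1))
  · rintro ⟨A, hA⟩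
    have hdet : A.det ≠ 0 := by rw [SymplecticGroup.det_eq_one hA]; exact one_ne_zero
    obtain ⟨k, hk⟩ := (trE e).surjective (Matrix.GeneralLinearGroup.mkOfDetNeZero A hdet)
    refine ⟨⟨k, (key k).2 ?_⟩, Subtype.ext ?_⟩
    · rw [hk]; exact hA
    · show ((trE e k : GL (Fin m ⊕ Fin m) F) : Matrix (Fin m ⊕ Fin m) (Fin m ⊕ Fin m) F) = A
      rw [hk]; rfl

theorem card_isoM_sym (h2 : (2 : F) ≠ 0) (M : GL (Fin n) F) (hM : (M : Matrix (Fin n) (Fin n) F)ᵀ = M) {κ : Type} [Fintype κ] [DecidableEq κ]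
    (Q : (κ → F) → F) (e : (Fin n → F) ≃ₗ[F] (κ → F)) (he : ∀ v, Q (e v) = qM (M : Matrix (Fin n) (Fin n) F) v) :
    Nat.card (isoM M) = Nat.card (Cfsg.isometryGroup F Q) := by
  have key : ∀ k : GL (Fin n) F, k ∈ isoM M ↔ trE e k ∈ Cfsg.isometryGroup F Q := by
    intro k
    have h0 := simil_iff_q h2 (k : Matrix (Fin n) (Fin n) F) _ _ hM hM 1
    rw [one_smul] at h0
    rw [mem_isoM, h0]
    constructor
    · intro h w w'
      obtain ⟨v, rfl⟩ := e.surjective w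
      show Q (((trE e k : GL κ F) : Matrix κ κ F) *ᵥ e v) = Q (e v)
      rw [trE_mulVec, he, he, h, one_mul]
    · intro h v
      have h1 : Q (((trE e k : GL κ F) : Matrix κ κ F) *ᵥ e v) = Q (e v) := h (e v) (e v)
      rw [trE_mulVec, he, he] at h1
      rw [h1, one_mul]
  exact Nat.card_congr ((trE e).toEquiv.subtypeEquiv key)

theorem order_ne {q m : ℕ} (hq : 2 ≤ q) (hm : 2 ≤ m) (s : ℕ) (hs : s = q ^ m - 1 ∨ s = q ^ m + 1) :
    2 * q ^ (m * (m - 1)) * s * ∏ i ∈ Finset.range (m - 1), (q ^ (2 * (i + 1)) - 1) ≠ q ^ (m ^ 2) * ∏ i ∈ Finset.range m, (q ^ (2 * (i + 1)) - 1) := by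
  obtain ⟨k, rfl⟩ := Nat.exists_eq_add_of_le (show 1 ≤ m by omega)
  rw [Nat.add_sub_cancel_left, Nat.add_comm 1 k, Finset.prod_range_succ]
  rw [Nat.add_comm 1 k] at hs
  set P := ∏ i ∈ Finset.range k, (q ^ (2 * (i + 1)) - 1) with hP
  have hPpos : 0 < P := by
    apply Finset.prod_pos
    intro i _
    have : 2 ^ (2 * (i + 1)) ≤ q ^ (2 * (i + 1)) := Nat.pow_le_pow_left hq _
    have h2 : 2 ^ 2 ≤ 2 ^ (2 * (i + 1)) := Nat.pow_le_pow_right (by norm_num) (by omega)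
    omega
  have hx : 4 ≤ q ^ (k + 1) := by
    have h1 : 2 ^ (k + 1) ≤ q ^ (k + 1) := Nat.pow_le_pow_left hq _
    have h2 : 2 ^ 2 ≤ 2 ^ (k + 1) := Nat.pow_le_pow_right (by norm_num) (by omega)
    omega
  have hpow : q ^ (k + 1) ^ 2 = q ^ ((k + 1) * k) * q ^ (k + 1) := by
    rw [← pow_add]; congr 1; ring
  have hfac : q ^ (2 * (k + 1)) - 1 = (q ^ (k + 1) - 1) * (q ^ (k + 1) + 1) := by
    obtain ⟨y, hy⟩ := Nat.exists_eq_add_of_le (show 1 ≤ q ^ (k + 1) by omega)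
    rw [pow_mul', hy, Nat.add_sub_cancel_left]
    have : (1 + y) ^ 2 = 1 + y * (1 + y + 1) := by ring
    rw [this, Nat.add_sub_cancel_left]
  rw [hpow, hfac]
  have hqp : 0 < q ^ ((k + 1) * k) := by positivity
  intro h
  have h1 : 2 * s = q ^ (k + 1) * ((q ^ (k + 1) - 1) * (q ^ (k + 1) + 1)) := by
    apply Nat.eq_of_mul_eq_mul_left (Nat.mul_pos hqp hPpos)
    calc _ = 2 * q ^ ((k + 1) * k) * s * P := by ring
      _ = _ := h
      _ = _ := by ring
  set x := q ^ (k + 1) with hxx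
  obtain ⟨y, hy⟩ := Nat.exists_eq_add_of_le hx
  rw [hy] at h1 hs
  rcases hs with hs | hs
  · rw [hs, show 4 + y - 1 = y + 3 by omega] at h1
    have e1 : (4 + y) * ((y + 3) * (4 + y + 1)) = y ^ 3 + 12 * y ^ 2 + 47 * y + 60 := by ring
    rw [e1] at h1
    have e2 := Nat.zero_le (y ^ 3)
    have e3 := Nat.zero_le (y ^ 2)
    omega
  · rw [hs, show 4 + y - 1 = y + 3 by omega] at h1
    have e1 : (4 + y) * ((y + 3) * (4 + y + 1)) = y ^ 3 + 12 * y ^ 2 + 47 * y + 60 := by ring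
    rw [e1] at h1
    have e2 := Nat.zero_le (y ^ 3)
    have e3 := Nat.zero_le (y ^ 2)
    omega

theorem not_PGSp (h2 : (2 : F) ≠ 0) (hm : 2 ≤ m) (hnm : n = 2 * m) (M : GL (Fin n) F) (hM : (M : Matrix (Fin n) (Fin n) F)ᵀ = M) :
    ¬ Nonempty (↥(Cfsg.inndiagPSL n F ⊓ Subgroup.centralizer {gam M}) ≃* Cfsg.PGSp m F) := by
  rintro ⟨E⟩
  have hn : 2 ≤ n := by omega
  obtain ⟨M₁, hM₁⟩ := exists_alt (F := F) hnm
  obtain ⟨E₁⟩ := cent_alt hn hnm M₁ hM₁
  have h1 : Nat.card ↥(Cfsg.inndiagPSL n F ⊓ Subgroup.centralizer {gam M}) = Nat.card ↥(Cfsg.inndiagPSL n F ⊓ Subgroup.centralizer {gam M₁}) := by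
    rw [Nat.card_congr E.toEquiv, Nat.card_congr E₁.toEquiv]
  rw [card_cent_gam hn M, card_cent_gam hn M₁, card_isoM_alt hnm M₁ hM₁, Cfsg.Agent.ClassSp.card_fin] at h1
  · rcases classify_M h2 (by omega) hnm M hM with ⟨e, he⟩ | h
    · rw [card_isoM_sym h2 M hM _ e he] at h1
      have h3 : Nat.card (Cfsg.isometryGroup F (Cfsg.quadFormPlus m F)) = _ := Cfsg.Agent.OrthCount.order_plus m (by omega)
      have h4 := h3.symm.trans h1
      rw [Nat.card_eq_fintype_card] at h4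
      exact order_ne Fintype.one_lt_card hm _ (Or.inl rfl) h4
    · obtain ⟨ζ, hζ⟩ := exists_nonroot F
      obtain ⟨e, he⟩ := h ζ hζ
      rw [card_isoM_sym h2 M hM _ e he] at h1
      have h3 : Nat.card (Cfsg.isometryGroup F (Cfsg.quadFormMinus (m - 1) F 1 ζ)) = _ := Cfsg.Agent.OrthCount.order_minus (m - 1) (a := (1 : F)) (b := ζ) (by
        intro z hz
        rw [Cfsg.Agent.OrthCount.bin_apply] at hz
        by_cases hy : z.2 = 0
        · rw [hy] at hz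
          have hx : z.1 = 0 := by
            apply pow_eq_zero_iff (two_ne_zero) |>.1
            linear_combination hz
          exact Prod.ext hx hy
        · exact absurd (by field_simp; linear_combination hz) (hζ (z.1 / z.2)))
      have h4 := h3.symm.trans h1
      rw [Nat.card_eq_fintype_card, Nat.sub_add_cancel (by omega : 1 ≤ m)] at h4
      exact order_ne Fintype.one_lt_card hm _ (Or.inr rfl) h4
  · intro c
    obtain ⟨k, hk, -⟩ := alt_surj hnm M₁ hM₁ c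
    exact ⟨k, (simil_iff _ _ _ _).2 hk⟩
  · intro c
    exact sym_surj h2 (by omega) hnm M hM c

end noniso

end Cfsg.Agent.H41
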