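import Mathlib
import Cfsg.Agent.H41.GraphForms
import Cfsg.Agent.ClassO.CharTwo
import Cfsg.Agent.H43.InvolTwo

set_option autoImplicit false
set_option linter.unusedSectionVars false
set_option linter.unusedVariables false

/-! Involutory graph automorphisms of `PSL_n(q)`, `q` even. -/

namespace Cfsg.Agent.H41

open Matrix Cfsg.Agent.AutPSL Cfsg.Agent.AutLie Module Cfsg.Agent.ClGeo

section tools
variable {F : Type*} [Field F] {κ : Type} [Fintype κ] [DecidableEq κ]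

theorem projQuot_of_hom' {G : Type*} [Group G] (φ : G →* GL κ F) (H : Subgroup (GL κ F)) (h1 : ∀ g, φ g ∈ H)
    (h2 : ∀ h ∈ H, ∃ (d : Fˣ) (g : G), ∀ v, (h : Matrix κ κ F) *ᵥ v = (d : F) • ((φ g : GL κ F) : Matrix κ κ F) *ᵥ v)
    (h3 : ∀ g, ∀ c : Fˣ, (∀ v, ((φ g : GL κ F) : Matrix κ κ F) *ᵥ v = (c : F) • v) → g = 1) :
    Nonempty (Cfsg.projQuot H ≃* G) := by
  apply projQuot_of_hom φ H h1
  · intro h hh
    obtain ⟨d, g, hd⟩ := h2 h hh
    refine ⟨(φ g)⁻¹ * h, ?_, g, by rw [mul_inv_cancel_left]⟩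
    rw [mem_scalars_iff']
    refine ⟨d, fun v => ?_⟩
    rw [Units.val_mul, ← Matrix.mulVec_mulVec, hd, Matrix.mulVec_smul, Matrix.mulVec_mulVec, ← Units.val_mul, inv_mul_cancel, Units.val_one, Matrix.one_mulVec]
  · intro g hg
    rw [mem_scalars_iff'] at hg
    obtain ⟨c, hc⟩ := hg
    exact h3 g c hc

/-- the matrix group of a submonoid of matrices which is a group -/
noncomputable def spGL (m : ℕ) (F : Type*) [Field F] : Matrix.symplecticGroup (Fin m) F →* GL (Fin m ⊕ Fin m) F :=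
  (Matrix.symplecticGroup (Fin m) F).subtype.toHomUnits

theorem coe_spGL (m : ℕ) (s : Matrix.symplecticGroup (Fin m) F) : ((spGL m F s : GL (Fin m ⊕ Fin m) F) : Matrix (Fin m ⊕ Fin m) (Fin m ⊕ Fin m) F) = s := rfl

/-- block diagonal embedding -/
noncomputable def spBl (m : ℕ) (F : Type*) [Field F] : Matrix.symplecticGroup (Fin m) F →* GL (Unit ⊕ (Fin m ⊕ Fin m)) F :=
  MonoidHom.toHomUnits
    { toFun := fun s => Matrix.fromBlocks 1 0 0 (s : Matrix (Fin m ⊕ Fin m) (Fin m ⊕ Fin m) F)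
      map_one' := by rw [OneMemClass.coe_one, Matrix.fromBlocks_one]
      map_mul' := fun a b => by
        rw [Matrix.fromBlocks_multiply]
        simp }

theorem spBl_mulVec (m : ℕ) (s : Matrix.symplecticGroup (Fin m) F) (v : Unit ⊕ (Fin m ⊕ Fin m) → F) :
    ((spBl m F s : GL (Unit ⊕ (Fin m ⊕ Fin m)) F) : Matrix (Unit ⊕ (Fin m ⊕ Fin m)) (Unit ⊕ (Fin m ⊕ Fin m)) F) *ᵥ v =
      Sum.elim (v ∘ Sum.inl) ((s : Matrix (Fin m ⊕ Fin m) (Fin m ⊕ Fin m) F) *ᵥ (v ∘ Sum.inr)) := by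
  show Matrix.fromBlocks 1 0 0 (s : Matrix (Fin m ⊕ Fin m) (Fin m ⊕ Fin m) F) *ᵥ v = _
  rw [Matrix.fromBlocks_mulVec]
  simp

end tools

section two
variable {F : Type*} [Field F] [Finite F] [CharP F 2] {n m : ℕ}

theorem exists_sqrt (c : F) : ∃ d : F, d * d = c := by
  have : Fintype F := Fintype.ofFinite F
  obtain ⟨b, hb⟩ := FiniteField.isSquare_of_char_two (by rw [ringChar.eq_iff]; infer_instance) c
  exact ⟨b, hb.symm⟩

theorem sq_inj {a b : F} (h : a * a = b * b) : a = b := by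
  have h1 : (a - b) * (a - b) = 0 := by
    have h2 : (2 : F) = 0 := CharTwo.two_eq_zero
    linear_combination h + (b * b - a * b) * h2
  exact sub_eq_zero.1 (mul_self_eq_zero.1 h1)

/-- a form with an orthonormal basis -/
theorem exists_ortho {κ : Type} [Fintype κ] [DecidableEq κ] (hκ : Fintype.card κ = n) (B : LinearMap.BilinForm F (κ → F))
    (hs : ∀ x y, B x y = B y x) (hnd : ∀ x, (∀ y, B x y = 0) → x = 0) (hna : ∃ x, B x x ≠ 0) :
    ∃ T : (Fin n → F) ≃ₗ[F] (κ → F), ∀ u v, B (T u) (T v) = u ⬝ᵥ v := by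
  have hfr : finrank F (κ → F) = n := by rw [finrank_fintype_fun_eq_card, hκ]
  obtain ⟨b, hb⟩ := Cfsg.Agent.H43.exists_orthonormal (F := F) exists_sqrt n (κ → F) B hs hnd hna hfr
  have hli : LinearIndependent F b := by
    rw [Fintype.linearIndependent_iff]
    intro c hc i
    have h1 : B (b i) (∑ j, c j • b j) = c i := by
      rw [map_sum]
      simp only [map_smul, hb, smul_eq_mul, mul_ite, mul_one, mul_zero]
      simp
    rw [← h1, hc, map_zero]
  let bb : Module.Basis (Fin n) F (κ → F) := basisOfLinearIndependentOfCardEqFinrank' b hli (by rw [Fintype.card_fin, hfr])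
  have hbb : ∀ i, bb i = b i := fun i => by simp [bb]
  refine ⟨bb.equivFun.symm, fun u v => ?_⟩
  rw [Module.Basis.equivFun_symm_apply, Module.Basis.equivFun_symm_apply]
  simp only [hbb, map_sum, LinearMap.sum_apply, map_smul, LinearMap.smul_apply, hb, smul_eq_mul, dotProduct]
  refine Finset.sum_congr rfl fun i _ => ?_
  simp
  ring

theorem exists_ortho_M (M : GL (Fin n) F) (hM : (M : Matrix (Fin n) (Fin n) F)ᵀ = M) (hna : ¬ ∀ v, v ⬝ᵥ (M : Matrix (Fin n) (Fin n) F) *ᵥ v = 0) :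
    ∃ h : GL (Fin n) F, (h : Matrix (Fin n) (Fin n) F)ᵀ * (M : Matrix (Fin n) (Fin n) F) * (h : Matrix (Fin n) (Fin n) F) = 1 := by
  push Not at hna
  obtain ⟨T, hT⟩ := exists_ortho (n := n) (Fintype.card_fin n) (Matrix.toLinearMap₂' F (M : Matrix (Fin n) (Fin n) F)) (fun x y => by
    rw [Matrix.toLinearMap₂'_apply', Matrix.toLinearMap₂'_apply', dotProduct_comm, Matrix.dotProduct_mulVec y, ← Matrix.mulVec_transpose, hM]) (fun v hv => by
    have h1 : v ᵥ* (M : Matrix (Fin n) (Fin n) F) = 0 := by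
      funext i
      have := hv (Pi.single i 1)
      rw [Matrix.toLinearMap₂'_apply', Matrix.dotProduct_mulVec, dotProduct_single, mul_one] at this
      exact this
    have h2 := congrArg (fun z => z ᵥ* ((M⁻¹ : GL (Fin n) F) : Matrix (Fin n) (Fin n) F)) h1
    simpa [Matrix.vecMul_vecMul] using h2) (by
    obtain ⟨v, hv⟩ := hna
    exact ⟨v, by rw [Matrix.toLinearMap₂'_apply']; exact hv⟩)
  obtain ⟨h, hh⟩ := exists_gl T
  refine ⟨h, ?_⟩
  have h1 := (simil_iff (h : Matrix (Fin n) (Fin n) F) 1 (M : Matrix (Fin n) (Fin n) F) 1).2 (by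
    intro u v
    have h0 := hT u v
    rw [Matrix.toLinearMap₂'_apply'] at h0
    rw [hh, hh, Matrix.one_mulVec, one_mul]
    exact h0)
  rw [h1, one_smul]

theorem conj_nonalt (hn : 2 ≤ n) (M : GL (Fin n) F) (hM : (M : Matrix (Fin n) (Fin n) F)ᵀ = M) (hna : ¬ ∀ v, v ⬝ᵥ (M : Matrix (Fin n) (Fin n) F) *ᵥ v = 0) :
    Cfsg.IsConjUnder (Cfsg.inndiagPSL n F) (gam 1) (gam M) := by
  obtain ⟨h, hh⟩ := exists_ortho_M M hM hna
  rw [gam_conj_iff hn]
  exact ⟨h, 1, by rw [hh, Units.val_one, one_smul, Units.val_one]⟩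

theorem transpose_of_order (hn : 3 ≤ n) (M : GL (Fin n) F) (h : orderOf (gam M) = 2) : (M : Matrix (Fin n) (Fin n) F)ᵀ = M := by
  rcases (orderOf_gam hn M).1 h with h1 | h1
  · exact h1
  · rw [h1]
    ext i j
    rw [Matrix.neg_apply, CharTwo.neg_eq]

/-- the centralizer of `gam 1` through another form -/
theorem cent_one (hn : 2 ≤ n) {κ : Type} [Fintype κ] [DecidableEq κ] (hκ : Fintype.card κ = n) (B : LinearMap.BilinForm F (κ → F))
    (hs : ∀ x y, B x y = B y x) (hnd : ∀ x, (∀ y, B x y = 0) → x = 0) (hna : ∃ x, B x x ≠ 0) :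
    Nonempty (↥(Cfsg.inndiagPSL n F ⊓ Subgroup.centralizer {gam (1 : GL (Fin n) F)}) ≃* Cfsg.projQuot (Cfsg.Geo.similarityGroup (fun u v => B u v))) := by
  obtain ⟨T, hT⟩ := exists_ortho hκ B hs hnd hna
  obtain ⟨e1⟩ := cent_gam hn (1 : GL (Fin n) F)
  obtain ⟨e2⟩ := projQuot_congr (trE T) (trE_scalars T) (simM (1 : GL (Fin n) F)) (Cfsg.Geo.similarityGroup (fun u v => B u v)) (by
    intro g
    rw [mem_simM]
    refine exists_congr fun d => ?_
    rw [simil_iff]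
    simp only [Units.val_one, Matrix.one_mulVec]
    constructor
    · intro h u v
      have h1 := h (T u) (T v)
      rw [trE_mulVec, trE_mulVec, hT, hT] at h1
      exact h1
    · intro h u v
      obtain ⟨u, rfl⟩ := T.surjective u
      obtain ⟨v, rfl⟩ := T.surjective v
      rw [trE_mulVec, trE_mulVec, hT, hT, h])
  exact ⟨e1.trans e2⟩

/-- inclusion of the last coordinates -/
def zE (m : ℕ) (F : Type*) [Field F] : (Fin m ⊕ Fin m → F) →ₗ[F] (Unit ⊕ (Fin m ⊕ Fin m) → F) where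
  toFun w := Sum.elim (fun _ => 0) w
  map_add' w w' := by
    funext i; rcases i with i | i <;> simp
  map_smul' a w := by
    funext i; rcases i with i | i <;> simp

omit [Finite F] [CharP F 2] in
theorem zE_inl (w : Fin m ⊕ Fin m → F) : zE m F w (Sum.inl ()) = 0 := rfl

omit [Finite F] [CharP F 2] in
theorem zE_inr (w : Fin m ⊕ Fin m → F) : zE m F w ∘ Sum.inr = w := rfl

/-- the form `x₀ y₀ + sp` -/
noncomputable def bOdd (m : ℕ) (F : Type*) [Field F] : LinearMap.BilinForm F (Unit ⊕ (Fin m ⊕ Fin m) → F) :=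
  LinearMap.mk₂ F (fun u v => u (Sum.inl ()) * v (Sum.inl ()) + sB F m (u ∘ Sum.inr) (v ∘ Sum.inr))
    (fun u u' v => by
      have : (u + u') ∘ Sum.inr = u ∘ Sum.inr + u' ∘ (Sum.inr : Fin m ⊕ Fin m → Unit ⊕ (Fin m ⊕ Fin m)) := rfl
      rw [this, map_add, LinearMap.add_apply, Pi.add_apply]; ring)
    (fun c u v => by
      have : (c • u) ∘ Sum.inr = c • (u ∘ (Sum.inr : Fin m ⊕ Fin m → Unit ⊕ (Fin m ⊕ Fin m))) := rfl
      rw [this, map_smul, LinearMap.smul_apply, Pi.smul_apply, smul_eq_mul, smul_eq_mul, smul_eq_mul]; ring)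
    (fun u v v' => by
      have : (v + v') ∘ Sum.inr = v ∘ Sum.inr + v' ∘ (Sum.inr : Fin m ⊕ Fin m → Unit ⊕ (Fin m ⊕ Fin m)) := rfl
      rw [this, map_add, Pi.add_apply]; ring)
    (fun c u v => by
      have : (c • v) ∘ Sum.inr = c • (v ∘ (Sum.inr : Fin m ⊕ Fin m → Unit ⊕ (Fin m ⊕ Fin m))) := rfl
      rw [this, map_smul, Pi.smul_apply, smul_eq_mul, smul_eq_mul, smul_eq_mul]; ring)

theorem bOdd_apply (u v : Unit ⊕ (Fin m ⊕ Fin m) → F) :
    bOdd m F u v = u (Sum.inl ()) * v (Sum.inl ()) + sB F m (u ∘ Sum.inr) (v ∘ Sum.inr) := rfl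

theorem bOdd_symm (u v : Unit ⊕ (Fin m ⊕ Fin m) → F) : bOdd m F u v = bOdd m F v u := by
  rw [bOdd_apply, bOdd_apply, Cfsg.Agent.H43.f_symm (sB_isAlt m) (u ∘ Sum.inr), mul_comm]

theorem bOdd_nd (u : Unit ⊕ (Fin m ⊕ Fin m) → F) (h : ∀ v, bOdd m F u v = 0) : u = 0 := by
  have h1 : u (Sum.inl ()) = 0 := by
    have := h (Pi.single (Sum.inl ()) 1)
    rw [bOdd_apply] at this
    have e : (Pi.single (Sum.inl ()) 1 : Unit ⊕ (Fin m ⊕ Fin m) → F) ∘ Sum.inr = 0 := by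
      funext i; simp
    rw [e, map_zero] at this
    simpa using this
  have h2 : u ∘ Sum.inr = 0 := by
    apply (sB_nondegenerate m).1
    intro w
    have := h (zE m F w)
    rw [bOdd_apply, zE_inl, mul_zero, zero_add, zE_inr] at this
    exact this
  funext i
  rcases i with ⟨⟩ | i
  · exact h1
  · exact congrFun h2 i

theorem bOdd_self (u : Unit ⊕ (Fin m ⊕ Fin m) → F) : bOdd m F u u = u (Sum.inl ()) * u (Sum.inl ()) := by
  rw [bOdd_apply, sB_isAlt m (u ∘ Sum.inr), add_zero]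

theorem projQuot_bOdd : Nonempty (Cfsg.projQuot (Cfsg.Geo.similarityGroup (fun u v => bOdd m F u v)) ≃* Matrix.symplecticGroup (Fin m) F) := by
  apply projQuot_of_hom' (spBl m F)
  · intro s
    refine ⟨1, fun u v => ?_⟩
    show bOdd m F _ _ = ((1 : Fˣ) : F) * bOdd m F u v
    rw [spBl_mulVec, spBl_mulVec, bOdd_apply, bOdd_apply, Units.val_one, one_mul, Sum.elim_comp_inr, Sum.elim_comp_inr, sB_apply, sB_apply]
    rw [(mem_symplecticGroup_iff m).1 s.2]
    rfl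
  · rintro g ⟨c, hc⟩
    obtain ⟨d, hd⟩ := exists_sqrt (c : F)
    have hd0 : d ≠ 0 := by rintro rfl; rw [mul_zero] at hd; exact c.ne_zero hd.symm
    obtain ⟨G, hG⟩ : ∃ G : (Unit ⊕ (Fin m ⊕ Fin m) → F) →ₗ[F] (Unit ⊕ (Fin m ⊕ Fin m) → F), ∀ v, G v = d⁻¹ • ((g : Matrix _ _ F) *ᵥ v) :=
      ⟨d⁻¹ • Matrix.toLin' (g : Matrix _ _ F), fun v => rfl⟩
    have hiso : ∀ u v, bOdd m F (G u) (G v) = bOdd m F u v := by
      intro u v
      simp only [hG, map_smul, LinearMap.smul_apply, smul_eq_mul]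
      have := hc u v
      simp only at this
      rw [this, ← hd]
      field_simp
    have hG0 : ∀ u, (G u) (Sum.inl ()) = u (Sum.inl ()) := by
      intro u
      apply sq_inj
      rw [← bOdd_self, hiso, bOdd_self]
    have hsurj : Function.Surjective G := by
      intro w
      refine ⟨d • (((g⁻¹ : GL _ F) : Matrix _ _ F) *ᵥ w), ?_⟩
      rw [hG, Matrix.mulVec_smul, smul_smul, inv_mul_cancel₀ hd0, one_smul, Matrix.mulVec_mulVec, ← Units.val_mul, mul_inv_cancel, Units.val_one, Matrix.one_mulVec]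
    have hb0 : ∀ u, bOdd m F u (Pi.single (Sum.inl ()) 1) = u (Sum.inl ()) := by
      intro u
      rw [bOdd_apply]
      have e : (Pi.single (Sum.inl ()) 1 : Unit ⊕ (Fin m ⊕ Fin m) → F) ∘ Sum.inr = 0 := by
        funext i; simp
      rw [e, map_zero]
      simp
    have hε : G (Pi.single (Sum.inl ()) 1) = Pi.single (Sum.inl ()) 1 := by
      apply sub_eq_zero.1
      apply bOdd_nd
      intro v
      obtain ⟨u, rfl⟩ := hsurj v
      rw [map_sub, LinearMap.sub_apply, hiso, bOdd_symm _ (G u), hb0, hG0, bOdd_symm, hb0, sub_self]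
    let f : (Fin m ⊕ Fin m → F) →ₗ[F] (Fin m ⊕ Fin m → F) := (LinearMap.funLeft F F Sum.inr) ∘ₗ G ∘ₗ zE m F
    have hfa : ∀ w, f w = (G (zE m F w)) ∘ Sum.inr := fun w => rfl
    have hf : ∀ w w', Cfsg.sympForm m F (f w) (f w') = Cfsg.sympForm m F w w' := by
      intro w w'
      have h1 := hiso (zE m F w) (zE m F w')
      rw [bOdd_apply, bOdd_apply, hG0, hG0, zE_inl, zE_inl, mul_zero, zero_add, zero_add, zE_inr, zE_inr, sB_apply, sB_apply] at h1
      exact h1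
    have hmem : LinearMap.toMatrix' f ∈ Matrix.symplecticGroup (Fin m) F := by
      rw [mem_symplecticGroup_iff]
      intro x y
      rw [LinearMap.toMatrix'_mulVec, LinearMap.toMatrix'_mulVec]
      exact hf x y
    refine ⟨Units.mk0 d hd0, ⟨_, hmem⟩, fun v => ?_⟩
    have h1 : (g : Matrix _ _ F) *ᵥ v = d • G v := by
      rw [hG, smul_smul, mul_inv_cancel₀ hd0, one_smul]
    rw [h1, spBl_mulVec, Units.val_mk0]
    congr 1
    rw [LinearMap.toMatrix'_mulVec]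
    have h2 : v = v (Sum.inl ()) • Pi.single (Sum.inl ()) 1 + zE m F (v ∘ Sum.inr) := by
      funext i
      rcases i with ⟨⟩ | i
      · simp [zE]
      · simp [zE]
    funext i
    rcases i with ⟨⟩ | i
    · rw [hG0, Sum.elim_inl]; rfl
    · rw [Sum.elim_inr]
      conv_lhs => rw [h2]
      rw [map_add, map_smul, hε, Pi.add_apply]
      show _ + (G (zE m F (v ∘ Sum.inr))) (Sum.inr i) = (G (zE m F (v ∘ Sum.inr))) (Sum.inr i)
      simp
  · intro s c hc
    have h1 := congrFun (hc (Pi.single (Sum.inl ()) 1)) (Sum.inl ())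
    rw [spBl_mulVec] at h1
    have hc1 : (c : F) = 1 := by simpa using h1.symm
    apply Subtype.ext
    apply ext_mulVec
    intro w
    have h2 := hc (zE m F w)
    rw [spBl_mulVec, hc1, one_smul, zE_inr] at h2
    have h3 := congrArg (fun z => z ∘ (Sum.inr : Fin m ⊕ Fin m → Unit ⊕ (Fin m ⊕ Fin m))) h2
    simp only [Sum.elim_comp_inr, zE_inr] at h3
    rw [h3, OneMemClass.coe_one, Matrix.one_mulVec]

theorem projQuot_PGOodd : Nonempty (Cfsg.PGO F (Cfsg.quadFormOdd m F) ≃* Matrix.symplecticGroup (Fin m) F) := by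
  obtain ⟨e⟩ := Cfsg.Agent.ClassO.orth_sp_iso (F := F) m CharTwo.two_eq_zero
  obtain ⟨e'⟩ := projQuot_of_hom' (Cfsg.isometryGroup F (Cfsg.quadFormOdd m F)).subtype (Cfsg.Geo.quadSimilarityGroup (F := F) (Cfsg.quadFormOdd m F)) (by
    intro g
    refine ⟨1, fun v => ?_⟩
    rw [Units.val_one, one_mul]
    exact g.2 v v) (by
    rintro g ⟨c, hc⟩
    obtain ⟨d, hd⟩ := exists_sqrt (c : F)
    have hd0 : d ≠ 0 := by rintro rfl; rw [mul_zero] at hd; exact c.ne_zero hd.symm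
    have hsm : ∀ (a : F) (v : Unit ⊕ (Fin m ⊕ Fin m) → F), Cfsg.quadFormOdd m F (a • v) = a * a * Cfsg.quadFormOdd m F v := by
      intro a v
      exact QuadraticMap.map_smul (Cfsg.Agent.Orth.qfOdd m F) a v
    have hmv : ∀ v, ((g * (Matrix.GeneralLinearGroup.scalar (Unit ⊕ (Fin m ⊕ Fin m)) (Units.mk0 d hd0)⁻¹ : GL (Unit ⊕ (Fin m ⊕ Fin m)) F) : GL (Unit ⊕ (Fin m ⊕ Fin m)) F) : Matrix (Unit ⊕ (Fin m ⊕ Fin m)) (Unit ⊕ (Fin m ⊕ Fin m)) F) *ᵥ v = d⁻¹ • ((g : Matrix (Unit ⊕ (Fin m ⊕ Fin m)) (Unit ⊕ (Fin m ⊕ Fin m)) F) *ᵥ v) := by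
      intro v
      rw [Units.val_mul, Matrix.GeneralLinearGroup.coe_scalar, Matrix.scalar_apply, ← Matrix.mulVec_mulVec, ← Matrix.mulVec_smul]
      congr 1
      funext i
      rw [Matrix.mulVec_diagonal, Pi.smul_apply, smul_eq_mul, Units.val_inv_eq_inv_val, Units.val_mk0]
    refine ⟨Units.mk0 d hd0, ⟨g * (Matrix.GeneralLinearGroup.scalar (Unit ⊕ (Fin m ⊕ Fin m)) (Units.mk0 d hd0)⁻¹), ?_⟩, fun v => ?_⟩
    · intro u v
      refine (congrArg (Cfsg.quadFormOdd m F) (hmv u)).trans ?_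
      rw [hsm, hc, ← hd]
      field_simp
    · show _ = d • (((g * _ : GL (Unit ⊕ (Fin m ⊕ Fin m)) F) : Matrix (Unit ⊕ (Fin m ⊕ Fin m)) (Unit ⊕ (Fin m ⊕ Fin m)) F) *ᵥ v)
      rw [hmv, smul_smul, mul_inv_cancel₀ hd0, one_smul]) (by
    intro g c hc
    have hε : Cfsg.quadFormOdd m F (Pi.single (Sum.inl ()) 1) = 1 := by
      show Cfsg.Agent.Orth.qfOdd m F _ = 1
      rw [Cfsg.Agent.Orth.qfOdd_apply]
      simp
    have h1 : Cfsg.quadFormOdd m F (((g : GL (Unit ⊕ (Fin m ⊕ Fin m)) F) : Matrix (Unit ⊕ (Fin m ⊕ Fin m)) (Unit ⊕ (Fin m ⊕ Fin m)) F) *ᵥ (Pi.single (Sum.inl ()) 1)) = Cfsg.quadFormOdd m F (Pi.single (Sum.inl ()) 1) :=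
      g.2 (Pi.single (Sum.inl ()) 1) (Pi.single (Sum.inl ()) 1)
    have h2 := hc (Pi.single (Sum.inl ()) 1)
    have hsm : ∀ (a : F) (v : Unit ⊕ (Fin m ⊕ Fin m) → F), Cfsg.quadFormOdd m F (a • v) = a * a * Cfsg.quadFormOdd m F v := by
      intro a v
      exact QuadraticMap.map_smul (Cfsg.Agent.Orth.qfOdd m F) a v
    have h3 : (c : F) = 1 := by
      apply sq_inj
      rw [Subgroup.coe_subtype] at h2
      rw [h2, hsm, hε, mul_one] at h1
      rw [h1, one_mul]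
    apply Subtype.ext
    apply Units.ext
    apply ext_mulVec
    intro v
    have h4 := hc v
    rw [h3, one_smul] at h4
    rw [Subgroup.coe_one, Units.val_one, Matrix.one_mulVec]
    exact h4)
  exact ⟨e'.trans e⟩

end two

end Cfsg.Agent.H41
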