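import Mathlib
import Cfsg.Agent.H41.GraphPSL
import Cfsg.Agent.AutPSU.Lang
import Cfsg.Agent.AutLie.FixField

set_option autoImplicit false
set_option linter.unusedSectionVars false
set_option linter.unusedVariables false

/-! Involutory graph automorphisms of `PSU_n(q)` and of `PSL_n(q)`: the dictionary. -/

namespace Cfsg.Agent.H41

section abs
variable {G C : Type*} [Group G] [CommGroup C] (s θ : G →* G) (z : C →* G) (t : C →* C)

/-- the abstract setting -/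
structure Setting : Prop where
  hz : ∀ c g, z c * g = g * z c
  hss : ∀ g, s (s g) = g
  htt : ∀ g, θ (θ g) = g
  hst : ∀ g, s (θ g) = θ (s g)
  hsz : ∀ c, s (z c) = z (t c)
  htz : ∀ c, θ (z c) = z (t c)⁻¹

/-- the abstract relation -/
structure ARel (ε : C) (g J a : G) (κ η : C) : Prop where
  he : ε * ε = 1
  hk : κ * t κ = ε
  hη : t η = ε * η
  hg : g = z κ * (a * (s a)⁻¹)
  hJ : J = z η * ((θ a)⁻¹ * a)
  hJs : s J = J

variable {s θ z t}

theorem Setting.zl (S : Setting s θ z t) (c : C) (g h : G) : g * (z c * h) = z c * (g * h) := by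
  rw [← mul_assoc, ← S.hz, mul_assoc]

theorem ARel.fix (S : Setting s θ z t) {ε : C} {g J a : G} {κ η : C} (R : ARel s θ z t ε g J a κ η) : θ g = g := by
  have h1 := R.hJs
  rw [R.hJ, map_mul, S.hsz, map_mul, map_inv, S.hst, R.hη, mul_comm ε η, map_mul, mul_assoc, mul_right_inj] at h1
  -- `z ε * ((θ (s a))⁻¹ * s a) = (θ a)⁻¹ * a`
  have h2 : (θ (s a))⁻¹ = z ε⁻¹ * ((θ a)⁻¹ * a * (s a)⁻¹) := by
    rw [← h1]
    rw [map_inv]
    group
  have h3 : (t κ)⁻¹ * ε⁻¹ = κ := by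
    rw [← R.hk]
    have h4 := R.he
    rw [← R.hk] at h4
    have h5 : κ * t κ = (κ * t κ)⁻¹ := eq_inv_of_mul_eq_one_left h4
    rw [← h5, mul_comm κ, inv_mul_cancel_left]
  rw [R.hg, map_mul θ, S.htz, map_mul θ, map_inv θ, h2, S.zl, ← mul_assoc (z _), ← map_mul z, h3]
  group

theorem ARel.norm (S : Setting s θ z t) {ε : C} {g J a : G} {κ η : C} (R : ARel s θ z t ε g J a κ η) : g * s g = z ε := by
  rw [R.hg, map_mul s, S.hsz, map_mul s, map_inv s, S.hss]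
  calc z κ * (a * (s a)⁻¹) * (z (t κ) * (s a * a⁻¹)) = z (t κ) * (z κ * (a * (s a)⁻¹ * (s a * a⁻¹))) := by rw [S.zl, mul_assoc (z κ)]
    _ = z ε := by rw [← mul_assoc, ← map_mul z, mul_comm (t κ), R.hk]; group

theorem ARel.theta_J (S : Setting s θ z t) {ε : C} {g J a : G} {κ η : C} (R : ARel s θ z t ε g J a κ η) : θ J = z ε * J⁻¹ := by
  have h3 : (t η)⁻¹ = ε * η⁻¹ := by
    rw [R.hη, mul_inv, inv_eq_of_mul_eq_one_left R.he]
  rw [R.hJ, map_mul θ, S.htz, map_mul θ, map_inv θ, S.htt, h3, _root_.mul_inv_rev, _root_.mul_inv_rev, inv_inv, ← map_inv z, ← S.hz, ← mul_assoc (z ε), ← map_mul z]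

theorem ARel.transport_theta (S : Setting s θ z t) {ε ε' : C} {g J a g' J' a' : G} {κ η κ' η' : C} (R : ARel s θ z t ε g J a κ η)
    (R' : ARel s θ z t ε' g' J' a' κ' η') (μ : C) (P : G) :
    θ (z μ * (a' * P * a⁻¹)) = z μ * (a' * P * a⁻¹) ↔ (θ P)⁻¹ * J' * P = z (η' * (μ * t μ * η)⁻¹) * J := by
  have hz := S.hz
  have e1 : θ (z μ * (a' * P * a⁻¹)) = z (t μ)⁻¹ * (θ a' * θ P * (θ a)⁻¹) := by
    rw [map_mul θ, S.htz, map_mul θ, map_mul θ, map_inv θ]
  rw [e1, R.hJ, R'.hJ, ← mul_assoc (z (η' * _)), ← map_mul z]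
  have e2 : η' * (μ * t μ * η)⁻¹ * η = η' * (μ * t μ)⁻¹ := by
    rw [mul_inv]
    calc η' * ((μ * t μ)⁻¹ * η⁻¹) * η = η' * (μ * t μ)⁻¹ * (η⁻¹ * η) := by ac_rfl
      _ = _ := by rw [inv_mul_cancel, mul_one]
  rw [e2]
  have e3 : (θ P)⁻¹ * (z η' * ((θ a')⁻¹ * a')) * P = z η' * ((θ P)⁻¹ * ((θ a')⁻¹ * a') * P) := by
    rw [S.zl, mul_assoc (z η')]
  rw [e3, map_mul z η', mul_assoc (z η'), mul_right_inj]
  constructor
  · intro h
    have h1 : z (t μ)⁻¹ * (θ a' * θ P * (θ a)⁻¹) = z (t μ)⁻¹ * z (t μ * μ) * (a' * P * a⁻¹) := by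
      rw [← map_mul z, inv_mul_cancel_left]; exact h
    rw [mul_assoc (z (t μ)⁻¹) (z (t μ * μ)), mul_right_inj] at h1
    have h2 : θ P = (θ a')⁻¹ * (z (t μ * μ) * (a' * P * a⁻¹)) * θ a := by
      rw [← h1]; group
    rw [h2, S.zl, mul_comm (t μ), mul_assoc (z (μ * t μ)), _root_.mul_inv_rev (z _), ← map_inv z, ← S.hz]
    group
  · intro h
    have h1 : θ P * (θ a)⁻¹ = z (μ * t μ) * ((θ a')⁻¹ * a' * P * a⁻¹) := by
      have h2 : (θ a')⁻¹ * a' * P = z (μ * t μ)⁻¹ * (θ P * ((θ a)⁻¹ * a)) := by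
        have h3 : θ P * ((θ P)⁻¹ * ((θ a')⁻¹ * a') * P) = θ P * (z (μ * t μ)⁻¹ * ((θ a)⁻¹ * a)) := by rw [h]
        rw [S.zl] at h3
        rw [← h3]
        group
      rw [h2, ← mul_assoc (z (μ * t μ)) , ← mul_assoc (z (μ * t μ)), ← map_mul, mul_inv_cancel, map_one, one_mul]
      group
    rw [mul_assoc (θ a'), h1, S.zl, ← mul_assoc (z (t μ)⁻¹), ← map_mul, mul_comm μ, inv_mul_cancel_left]
    group

theorem ARel.transport_s (S : Setting s θ z t) {ε ε' : C} {g J a g' J' a' : G} {κ η κ' η' : C} (R : ARel s θ z t ε g J a κ η)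
    (R' : ARel s θ z t ε' g' J' a' κ' η') (μ : C) (P : G) (hP : s P = P) :
    (z μ * (a' * P * a⁻¹)) * g = z (μ * κ * (κ' * t μ)⁻¹) * (g' * s (z μ * (a' * P * a⁻¹))) := by
  have e1 : (z μ * (a' * P * a⁻¹)) * g = z (μ * κ) * (a' * P * (s a)⁻¹) := by
    rw [R.hg, S.zl, ← mul_assoc (z κ), ← mul_assoc (z κ), ← map_mul, mul_comm κ μ]
    group
  have e2 : g' * s (z μ * (a' * P * a⁻¹)) = z (κ' * t μ) * (a' * P * (s a)⁻¹) := by
    rw [R'.hg, map_mul, S.hsz, map_mul, map_mul, map_inv, hP, S.zl, ← mul_assoc (z (t μ)), ← mul_assoc (z (t μ)), ← map_mul, mul_comm (t μ)]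
    group
  rw [e1, e2, ← mul_assoc (z _) (z _), ← map_mul z, inv_mul_cancel_right]

/-- from an intertwiner to a fixed element -/
theorem ARel.extract (S : Setting s θ z t) (hzi : Function.Injective z) (h90 : ∀ c, c * t c = 1 → ∃ b, c = b * (t b)⁻¹)
    {ε ε' : C} {g J a g' J' a' : G} {κ η κ' η' : C} (R : ARel s θ z t ε g J a κ η)
    (R' : ARel s θ z t ε' g' J' a' κ' η') (h : G) (c : C) (hc : h * g = z c * (g' * s h)) :
    ∃ (μ : C) (P : G), s P = P ∧ h = z μ * (a' * P * a⁻¹) := by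
  obtain ⟨b, hb⟩ : ∃ b, b = a'⁻¹ * h * a := ⟨_, rfl⟩
  have h1 : b = z (κ⁻¹ * κ' * c) * s b := by
    have e1 : a * (s a)⁻¹ = z κ⁻¹ * g := by rw [R.hg, ← mul_assoc, ← map_mul, inv_mul_cancel, map_one, one_mul]
    have e2 : b = a'⁻¹ * (h * (a * (s a)⁻¹)) * s a := by rw [hb]; group
    have e3 : z κ⁻¹ * (z c * (z κ' * (a' * (s a')⁻¹) * s h)) = z (κ⁻¹ * κ' * c) * (a' * (s a')⁻¹ * s h) := by
      rw [mul_assoc (z κ'), ← mul_assoc (z c), ← map_mul z, ← mul_assoc (z κ⁻¹), ← map_mul z]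
      congr 2
      ac_rfl
    calc b = a'⁻¹ * (h * (a * (s a)⁻¹)) * s a := e2
      _ = a'⁻¹ * (z κ⁻¹ * (h * g)) * s a := by rw [e1, S.zl]
      _ = a'⁻¹ * (z κ⁻¹ * (z c * (z κ' * (a' * (s a')⁻¹) * s h))) * s a := by rw [hc, R'.hg]
      _ = a'⁻¹ * (z (κ⁻¹ * κ' * c) * (a' * (s a')⁻¹ * s h)) * s a := by rw [e3]
      _ = z (κ⁻¹ * κ' * c) * s b := by rw [S.zl, hb, map_mul s, map_mul s, map_inv s]; group
  obtain ⟨l, hl⟩ : ∃ l, l = κ⁻¹ * κ' * c := ⟨_, rfl⟩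
  rw [← hl] at h1
  have h2 : s b = z (t l) * b := by
    conv_lhs => rw [h1]
    rw [map_mul, S.hsz, S.hss]
  have h3 : l * t l = 1 := by
    apply hzi
    rw [map_one, map_mul]
    have h4 : b = z l * (z (t l) * b) := by rw [← h2]; exact h1
    have h5 : z l * z (t l) * b = 1 * b := by rw [mul_assoc, ← h4, one_mul]
    exact mul_right_cancel h5
  obtain ⟨μ, hμ⟩ := h90 l h3
  refine ⟨μ, z μ⁻¹ * b, ?_, ?_⟩
  · rw [map_mul, S.hsz, h2, ← mul_assoc, ← map_mul]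
    congr 2
    have h6 : t l = l⁻¹ := eq_inv_of_mul_eq_one_right h3
    rw [h6, hμ, map_inv, mul_inv, inv_inv, mul_comm μ⁻¹, inv_mul_cancel_left]
  · rw [S.zl, mul_assoc (z μ⁻¹), ← mul_assoc (z μ), ← map_mul, mul_inv_cancel, map_one, one_mul, hb]
    group

/-- the form is fixed -/
theorem of_fix (S : Setting s θ z t) {ε : C} {g a : G} {κ η : C} (he : ε * ε = 1) (hk : κ * t κ = ε) (hη : t η = ε * η)
    (hg : g = z κ * (a * (s a)⁻¹)) (hθ : θ g = g) : ARel s θ z t ε g (z η * ((θ a)⁻¹ * a)) a κ η := by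
  refine ⟨he, hk, hη, hg, rfl, ?_⟩
  have h1 : z (t κ)⁻¹ * (θ a * (θ (s a))⁻¹) = z κ * (a * (s a)⁻¹) := by
    rw [← hg, ← hθ, hg, map_mul θ, S.htz, map_mul θ, map_inv θ]
  have h2 : θ a * (θ (s a))⁻¹ = z ε * (a * (s a)⁻¹) := by
    rw [← hk, mul_comm κ, map_mul z, mul_assoc, ← h1, ← mul_assoc, ← map_mul z, mul_inv_cancel, map_one, one_mul]
  have h3 : (θ (s a))⁻¹ = z ε * ((θ a)⁻¹ * (a * (s a)⁻¹)) := by
    have h4 : (θ (s a))⁻¹ = (θ a)⁻¹ * (θ a * (θ (s a))⁻¹) := by group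
    rw [h4, h2, S.zl]
  rw [map_mul s, S.hsz, map_mul s, map_inv s, S.hst, h3, hη, mul_assoc (z ε), ← mul_assoc (z (ε * η)), ← map_mul z]
  have h5 : ε * η * ε = η := by
    calc ε * η * ε = ε * ε * η := by ac_rfl
      _ = η := by rw [he, one_mul]
  rw [h5]
  group

/-- equality of the signs -/
theorem ARel.eps_eq (S : Setting s θ z t) (hzi : Function.Injective z) {ε ε' : C} {g J a g' J' a' : G} {κ η κ' η' : C} (R : ARel s θ z t ε g J a κ η)
    (R' : ARel s θ z t ε' g' J' a' κ' η') (P : G) (x : C) (hx : t x = x) (h : (θ P)⁻¹ * J' * P = z x * J) : ε = ε' := by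
  have h1 := congrArg θ h
  rw [map_mul θ, map_mul θ, map_inv θ, S.htt, R'.theta_J S, map_mul θ, S.htz, hx, R.theta_J S, S.zl, mul_assoc (z ε')] at h1
  have h2 : P⁻¹ * J'⁻¹ * θ P = J⁻¹ * z x⁻¹ := by
    have := congrArg (fun y => y⁻¹) h
    simp only [_root_.mul_inv_rev, inv_inv] at this
    rw [map_inv z, ← this]
    group
  rw [h2, ← S.hz, ← mul_assoc, ← mul_assoc, ← map_mul z, ← map_mul z] at h1
  have h3 := hzi (mul_right_cancel h1)
  rw [mul_comm] at h3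
  exact (mul_left_cancel h3).symm

end abs

section conc
variable {F : Type*} [Field F] [Fintype F] {q n : ℕ}
variable {K : Type*} [Field K]

open Matrix Cfsg.Agent.AutPSL Cfsg.Agent.AutLie Cfsg.Agent.AutPSU Cfsg.Agent.Uni

/-- `theta` as a homomorphism -/
noncomputable def thH (hF : Fintype.card F = q ^ 2) (n : ℕ) : GL (Fin n) F →* GL (Fin n) F := MonoidHom.mk' (theta hF) (theta_mul hF)

/-- the entrywise `q`-power map as a homomorphism -/
noncomputable def sH (hF : Fintype.card F = q ^ 2) (n : ℕ) : GL (Fin n) F →* GL (Fin n) F := (mapGL (frobQ hF)).toMonoidHom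

/-- scalar matrices -/
abbrev zS (F : Type*) [Field F] (n : ℕ) : Fˣ →* GL (Fin n) F := Matrix.GeneralLinearGroup.scalar (Fin n)

theorem uMap_uMap (hF : Fintype.card F = q ^ 2) (c : Fˣ) : uMap (frobQ hF) (uMap (frobQ hF) c) = c := by
  apply Units.ext
  exact Uni.conjHom_involutive hF _

theorem setting (hF : Fintype.card F = q ^ 2) (n : ℕ) : Setting (sH hF n) (thH hF n) (zS F n) (uMap (frobQ hF)) where
  hz c g := (Subgroup.mem_center_iff.1 (scalar_mem_center (n := n) c) g).symm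
  hss g := by
    apply Units.ext
    ext i k
    exact Uni.conjHom_involutive hF _
  htt g := theta_theta hF g
  hst g := (theta_map hF (frobQ hF) g).symm
  hsz c := mapGL_scalar (frobQ hF) c
  htz c := inv_scalar_map hF c

theorem zS_inj (hn : 1 ≤ n) : Function.Injective (zS F n) := scalar_injective hn

theorem orderOf_frobQ (hF : Fintype.card F = q ^ 2) : orderOf (frobQ hF) = 2 := orderOf_eq_prime (frobQ_sq hF) (frobQ_ne_one hF)

theorem h90S (hF : Fintype.card F = q ^ 2) (c : Fˣ) (hc : c * uMap (frobQ hF) c = 1) : ∃ b, c = b * (uMap (frobQ hF) b)⁻¹ := by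
  obtain ⟨B, hB⟩ := hilbert90 (Matrix.GeneralLinearGroup.scalar (Fin 1) c : GL (Fin 1) F) (frobQ hF) (by rw [orderOf_frobQ]; norm_num) (by
    rw [orderOf_frobQ, twNorm_succ, twNorm_succ]
    simp only [twNorm, map_one, mul_one]
    rw [mapGL_scalar, ← map_mul, hc, map_one])
  refine ⟨Matrix.GeneralLinearGroup.det B, ?_⟩
  have := congrArg Matrix.GeneralLinearGroup.det hB
  rwa [det_scalar', pow_one, map_mul, map_inv, det_mapGL] at this

theorem h90G (hF : Fintype.card F = q ^ 2) (A : GL (Fin n) F) (hA : A * sH hF n A = 1) : ∃ a, A = a * (sH hF n a)⁻¹ := by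
  obtain ⟨B, hB⟩ := hilbert90 A (frobQ hF) (by rw [orderOf_frobQ]; norm_num) (by
    rw [orderOf_frobQ, twNorm_succ, twNorm_succ]
    simp only [twNorm, map_one, mul_one]
    exact hA)
  exact ⟨B, hB⟩

theorem exists_normS (hF : Fintype.card F = q ^ 2) (c : Fˣ) (hc : uMap (frobQ hF) c = c) : ∃ w, w * uMap (frobQ hF) w = c := by
  obtain ⟨w, hw⟩ := Uni.exists_norm_eq hF (c := (c : F)) (congrArg Units.val hc)
  have hw0 : w ≠ 0 := by rintro rfl; rw [zero_pow (by omega)] at hw; exact c.ne_zero hw.symm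
  refine ⟨Units.mk0 w hw0, ?_⟩
  apply Units.ext
  rw [Units.val_mul, coe_uMap, Units.val_mk0, frobQ_apply, ← pow_succ', hw]

theorem exists_j (hF : Fintype.card F = q ^ 2) (K : Type*) [Field K] [Fintype K] (hK : Fintype.card K = q) :
    ∃ j : K →+* F, ∀ x, frobQ hF x = x ↔ x ∈ Set.range j := by
  obtain ⟨p, hp⟩ := CharP.exists K
  obtain ⟨f, hpp, hf⟩ := FiniteField.card K p
  have : Fact p.Prime := ⟨hpp⟩
  refine exists_embedding (p := p) (f := 2 * f) ?_ (frobQ hF) K ?_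
  · rw [hF, ← hK, hf, ← pow_mul, mul_comm]
  · rw [orderOf_frobQ, Nat.mul_div_cancel_left _ (by norm_num), hf]

theorem theta_map_j (hF : Fintype.card F = q ^ 2) (j : K →+* F) (hj : ∀ x, frobQ hF x = x ↔ x ∈ Set.range j) (k : GL (Fin n) K) :
    thH hF n (Matrix.GeneralLinearGroup.map j k) = Matrix.GeneralLinearGroup.map j (invTGL k) := by
  have h1 : invTGL (Matrix.GeneralLinearGroup.map j k) = Matrix.GeneralLinearGroup.map j (invTGL k) := by
    apply Units.ext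
    rw [coe_invTGL, ← map_inv]
    rfl
  show mapGL (frobQ hF) (invTGL _) = _
  rw [h1, mapGL_map j _ hj]

theorem map_j_injective (j : K →+* F) : Function.Injective (Matrix.GeneralLinearGroup.map j : GL (Fin n) K →* GL (Fin n) F) := by
  intro a b hab
  apply Units.ext
  ext i k
  apply j.injective
  exact congrArg (fun M : GL (Fin n) F => (M : Matrix (Fin n) (Fin n) F) i k) hab

theorem simil_group (k M M' : GL (Fin n) K) (c : Kˣ) :
    (invTGL k)⁻¹ * M' * k = Matrix.GeneralLinearGroup.scalar (Fin n) c * M ↔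
      (k : Matrix (Fin n) (Fin n) K)ᵀ * (M' : Matrix (Fin n) (Fin n) K) * (k : Matrix (Fin n) (Fin n) K) = (c : K) • (M : Matrix (Fin n) (Fin n) K) := by
  rw [Units.ext_iff, Units.val_mul, Units.val_mul, coe_invTGL_inv, Units.val_mul, scal_coe, Matrix.smul_mul, Matrix.one_mul]

/-- the relation between unitary matrices and forms over the small field -/
def RelE (hF : Fintype.card F = q ^ 2) (j : K →+* F) (ε : Fˣ) (g : GL (Fin n) F) (M : GL (Fin n) K) : Prop :=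
  ∃ (a : GL (Fin n) F) (κ η : Fˣ), ARel (sH hF n) (thH hF n) (zS F n) (uMap (frobQ hF)) ε g (Matrix.GeneralLinearGroup.map j M) a κ η

/-- the relation between automorphisms and forms -/
def RelU (hF : Fintype.card F = q ^ 2) (j : K →+* F) (γ : MulAut (Cfsg.PSU n F q)) (M : GL (Fin n) K) : Prop :=
  ∃ (g : Cfsg.GU n F q) (ε : Fˣ), γ = cAutU g (frobQ hF) ∧ RelE hF j ε (g : GL (Fin n) F) M

theorem mem_GU_iff' (hF : Fintype.card F = q ^ 2) (g : GL (Fin n) F) : g ∈ Cfsg.GU n F q ↔ thH hF n g = g := mem_GU_iff_theta hF g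

theorem eps_spec {R : Type*} [Field R] {ε : Rˣ} (h : ε * ε = 1) : ε = 1 ∨ ε = -1 := by
  have h1 := congrArg Units.val h
  rw [Units.val_mul, Units.val_one] at h1
  rcases mul_self_eq_one_iff.1 h1 with h2 | h2
  · left; exact Units.ext h2
  · right; exact Units.ext (by rw [h2, Units.val_neg, Units.val_one])

theorem RelE.transpose {hF : Fintype.card F = q ^ 2} {j : K →+* F} (hj : ∀ x, frobQ hF x = x ↔ x ∈ Set.range j) {ε : Fˣ} {g : GL (Fin n) F} {M : GL (Fin n) K}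
    (h : RelE hF j ε g M) : (M : Matrix (Fin n) (Fin n) K)ᵀ = M ∨ (M : Matrix (Fin n) (Fin n) K)ᵀ = -(M : Matrix (Fin n) (Fin n) K) := by
  obtain ⟨a, κ, η, R⟩ := h
  have h1 := R.theta_J (setting hF n)
  rw [theta_map_j hF j hj] at h1
  obtain ⟨e, he, hee⟩ : ∃ e : Kˣ, e * e = 1 ∧ Units.map (j : K →* F) e = ε := by
    rcases eps_spec R.he with h2 | h2
    · exact ⟨1, one_mul _, by rw [map_one, h2]⟩
    · refine ⟨-1, by rw [neg_mul_neg, one_mul], ?_⟩
      rw [h2]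
      apply Units.ext
      simp
  rw [← hee] at h1
  have h2 : invTGL M = Matrix.GeneralLinearGroup.scalar (Fin n) e * M⁻¹ := by
    apply map_j_injective j
    rw [h1, map_mul, map_scalar, map_inv]
  have h3 := congrArg (fun x => x⁻¹) h2
  simp only [_root_.mul_inv_rev, inv_inv] at h3
  have h4 := congrArg Units.val h3
  rw [coe_invTGL_inv, Units.val_mul, ← map_inv, scal_coe, Matrix.mul_smul, Matrix.mul_one] at h4
  rcases eps_spec he with h5 | h5
  · left; rw [h4, h5]; simp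
  · right; rw [h4, h5]; simp

theorem exists_of_M {hF : Fintype.card F = q ^ 2} {j : K →+* F} (hj : ∀ x, frobQ hF x = x ↔ x ∈ Set.range j) (M : GL (Fin n) K)
    (hM : (M : Matrix (Fin n) (Fin n) K)ᵀ = M ∨ (M : Matrix (Fin n) (Fin n) K)ᵀ = -(M : Matrix (Fin n) (Fin n) K)) :
    ∃ (g : Cfsg.GU n F q) (ε : Fˣ), RelE hF j ε (g : GL (Fin n) F) M := by
  obtain ⟨e, he, heM⟩ : ∃ e : Kˣ, e * e = 1 ∧ (M : Matrix (Fin n) (Fin n) K)ᵀ = (e : K) • (M : Matrix (Fin n) (Fin n) K) := by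
    rcases hM with h | h
    · exact ⟨1, one_mul _, by rw [h, Units.val_one, one_smul]⟩
    · exact ⟨-1, by rw [neg_mul_neg, one_mul], by rw [h, Units.val_neg, Units.val_one, neg_smul, one_smul]⟩
  obtain ⟨ε, hε⟩ : ∃ ε : Fˣ, ε = Units.map (j : K →* F) e := ⟨_, rfl⟩
  have hεε : ε * ε = 1 := by rw [hε, ← map_mul, he, map_one]
  have htε : uMap (frobQ hF) ε = ε := by
    apply Units.ext
    rw [coe_uMap]
    exact (hj _).2 ⟨e, by rw [hε]; rfl⟩
  obtain ⟨κ, hκ⟩ := exists_normS hF ε htε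
  obtain ⟨η, hη⟩ := h90S hF ε (by rw [htε, hεε])
  have hη' : uMap (frobQ hF) η = ε * η := by
    have h1 : ε⁻¹ = ε := inv_eq_of_mul_eq_one_left hεε
    rw [← h1]
    conv_rhs => rw [hη, mul_inv, inv_inv, mul_comm η⁻¹, inv_mul_cancel_right]
  obtain ⟨C, hC⟩ := exists_herm_eq (frobQ hF) (frobQ_ne_one hF) (fun a => Uni.conjHom_involutive hF a)
    (Matrix.GeneralLinearGroup.scalar (Fin n) η⁻¹ * Matrix.GeneralLinearGroup.map j M) (by
      intro i k
      rw [Units.val_mul, scal_coe, Matrix.smul_mul, Matrix.one_mul, Matrix.smul_apply, Matrix.smul_apply, smul_eq_mul, smul_eq_mul, map_mul]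
      have h1 : frobQ hF ((η⁻¹ : Fˣ) : F) = ((ε * η⁻¹ : Fˣ) : F) := by
        rw [← coe_uMap, map_inv, hη', mul_inv, inv_eq_of_mul_eq_one_left hεε]
      have h2 : frobQ hF ((Matrix.GeneralLinearGroup.map j M : GL (Fin n) F) i k) = (Matrix.GeneralLinearGroup.map j M : GL (Fin n) F) i k :=
        (hj _).2 ⟨_, rfl⟩
      have h3 : ((Matrix.GeneralLinearGroup.map j M : GL (Fin n) F) : Matrix (Fin n) (Fin n) F) k i = (ε : F) * (Matrix.GeneralLinearGroup.map j M : GL (Fin n) F) i k := by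
        have h4 : (M : Matrix (Fin n) (Fin n) K) k i = (e : K) * (M : Matrix (Fin n) (Fin n) K) i k := by
          have := congrFun (congrFun heM i) k
          rwa [Matrix.transpose_apply, Matrix.smul_apply, smul_eq_mul] at this
        show j _ = _
        rw [h4, map_mul, hε]
        rfl
      rw [h1, h2, h3, Units.val_mul]
      ring)
  obtain ⟨a, ha⟩ : ∃ a : GL (Fin n) F, a = (thH hF n C)⁻¹ := ⟨_, rfl⟩
  have hJ : Matrix.GeneralLinearGroup.map j M = zS F n η * ((thH hF n a)⁻¹ * a) := by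
    have h1 : (thH hF n a)⁻¹ * a = Matrix.GeneralLinearGroup.scalar (Fin n) η⁻¹ * Matrix.GeneralLinearGroup.map j M := by
      rw [hC, ha, map_inv, (setting hF n).htt, inv_inv]
      rfl
    rw [h1, ← mul_assoc, ← map_mul, mul_inv_cancel, map_one, one_mul]
  have R : ARel (sH hF n) (thH hF n) (zS F n) (uMap (frobQ hF)) ε (zS F n κ * (a * (sH hF n a)⁻¹)) (Matrix.GeneralLinearGroup.map j M) a κ η :=
    ⟨hεε, hκ, hη', rfl, hJ, mapGL_map j _ hj M⟩
  exact ⟨⟨_, (mem_GU_iff' hF _).2 (R.fix (setting hF n))⟩, ε, a, κ, η, R⟩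

theorem exists_of_g {hF : Fintype.card F = q ^ 2} {j : K →+* F} (hn : 1 ≤ n) (hj : ∀ x, frobQ hF x = x ↔ x ∈ Set.range j) (g : Cfsg.GU n F q) (c : U1 F q)
    (hc : (g : GL (Fin n) F) * sH hF n g = zS F n c) : ∃ (ε : Fˣ) (M : GL (Fin n) K), RelE hF j ε (g : GL (Fin n) F) M := by
  have hs := setting hF n
  obtain ⟨ε, hε⟩ : ∃ ε : Fˣ, ε = c := ⟨_, rfl⟩
  rw [← hε] at hc
  have htε : uMap (frobQ hF) ε = ε := by
    apply zS_inj (F := F) hn
    have h1 := congrArg (sH hF n) hc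
    rw [map_mul, hs.hss, hs.hsz] at h1
    rw [← h1]
    have h2 : sH hF n (g : GL (Fin n) F) = (g : GL (Fin n) F)⁻¹ * zS F n ε := by rw [← hc, inv_mul_cancel_left]
    rw [h2, ← hs.hz, mul_assoc, inv_mul_cancel, mul_one]
  have hεε : ε * ε = 1 := by
    have h1 := mem_U1.1 c.2
    apply Units.ext
    rw [← hε, pow_succ] at h1
    rw [Units.val_mul, Units.val_one]
    have h2 : (ε : F) ^ q = ε := congrArg Units.val htε
    rw [h2] at h1
    exact h1
  obtain ⟨κ, hκ⟩ := exists_normS hF ε htε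
  obtain ⟨η, hη⟩ := h90S hF ε (by rw [htε, hεε])
  have hη' : uMap (frobQ hF) η = ε * η := by
    have h1 : ε⁻¹ = ε := inv_eq_of_mul_eq_one_left hεε
    rw [← h1]
    conv_rhs => rw [hη, mul_inv, inv_inv, mul_comm η⁻¹, inv_mul_cancel_right]
  obtain ⟨a, ha⟩ := h90G hF (zS F n κ⁻¹ * (g : GL (Fin n) F)) (by
    rw [map_mul, hs.hsz, hs.zl, mul_assoc, hc, ← map_mul, ← map_mul, ← hκ, map_inv]
    rw [← mul_assoc, ← mul_inv, mul_comm (uMap _ κ), inv_mul_cancel, map_one])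
  have hg : (g : GL (Fin n) F) = zS F n κ * (a * (sH hF n a)⁻¹) := by
    rw [← ha, ← mul_assoc, ← map_mul, mul_inv_cancel, map_one, one_mul]
  have R := of_fix hs hεε hκ hη' hg ((mem_GU_iff' hF _).1 g.2)
  obtain ⟨M, hM⟩ := exists_of_fixed j (frobQ hF) hj _ R.hJs
  refine ⟨ε, M, a, κ, η, ?_⟩
  rw [hM]
  exact R

theorem coe_mapGU' (hF : Fintype.card F = q ^ 2) (h : Cfsg.GU n F q) : ((mapGU (frobQ hF) h : Cfsg.GU n F q) : GL (Fin n) F) = sH hF n h := rfl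

theorem mapGU_refl (g : Cfsg.GU n F q) : mapGU (RingEquiv.refl F) g = g := by
  apply GU_ext; ext i j; rfl

theorem inter_iffU (hF : Fintype.card F = q ^ 2) (hn : 3 ≤ n) (h g g' : Cfsg.GU n F q) :
    diagU n F q h * cAutU g (frobQ hF) = cAutU g' (frobQ hF) * diagU n F q h ↔
      ∃ c : U1 F q, (h : GL (Fin n) F) * g = zS F n c * ((g' : GL (Fin n) F) * sH hF n h) := by
  rw [diagU_apply, cAutU_mul, cAutU_mul, cAutU_eq_iff hF hn]
  constructor
  · rintro ⟨-, c, hc⟩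
    refine ⟨c, ?_⟩
    rw [mapGU_refl] at hc
    have h1 := congrArg Subtype.val hc
    rw [(setting hF n).hz]
    exact h1
  · rintro ⟨c, hc⟩
    refine ⟨by ext x; rfl, c, ?_⟩
    rw [mapGU_refl]
    apply Subtype.ext
    rw [(setting hF n).hz] at hc
    exact hc

theorem conj_iffU (hF : Fintype.card F = q ^ 2) (hn : 3 ≤ n) (g g' : Cfsg.GU n F q) :
    Cfsg.IsConjUnder (Cfsg.inndiagPSU n F q) (cAutU g (frobQ hF)) (cAutU g' (frobQ hF)) ↔
      ∃ (h : Cfsg.GU n F q) (c : U1 F q), (h : GL (Fin n) F) * g = zS F n c * ((g' : GL (Fin n) F) * sH hF n h) := by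
  rw [inndiagPSU_eq]
  constructor
  · rintro ⟨_, ⟨h, rfl⟩, hh⟩
    rw [eq_mul_inv_iff_mul_eq] at hh
    exact ⟨h, (inter_iffU hF hn h g g').1 hh.symm⟩
  · rintro ⟨h, hc⟩
    refine ⟨_, ⟨h, rfl⟩, ?_⟩
    rw [eq_mul_inv_iff_mul_eq]
    exact ((inter_iffU hF hn h g g').2 hc).symm

theorem scalar_U1 (hn : 1 ≤ n) (h h' : Cfsg.GU n F q) (c : Fˣ) (hc : (h : GL (Fin n) F) = zS F n c * h') : c ∈ U1 F q := by
  rw [← scalar_mem_GU_iff (n := n) hn]
  have h1 : Matrix.GeneralLinearGroup.scalar (Fin n) c = (h : GL (Fin n) F) * (h' : GL (Fin n) F)⁻¹ := by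
    rw [hc, mul_inv_cancel_right]
  rw [h1]
  exact (h * h'⁻¹).2

theorem RelU.graph {hF : Fintype.card F = q ^ 2} {j : K →+* F} (hn : 3 ≤ n) {γ : MulAut (Cfsg.PSU n F q)} {M : GL (Fin n) K}
    (h : RelU hF j γ M) : Cfsg.IsGraphAutClassPSU γ ∧ orderOf γ = 2 := by
  obtain ⟨g, ε, rfl, a, κ, η, R⟩ := h
  constructor
  · refine ⟨hn, cAutU g (RingEquiv.refl F), cAutU 1 (frobQ hF), frobQ hF, ?_, innDiag_cAutU g, field_cAutU _, cAutU_eq g _⟩
    have := orderOf_frobQ hF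
    rw [show orderOf (frobQ hF : F ≃+* F) = 2 from this]
    exact even_two
  · apply orderOf_eq_prime
    · rw [pow_two, cAutU_mul, cAutU_eq_one_iff hF hn]
      have h1 := R.norm (setting hF n)
      refine ⟨?_, ⟨ε, ?_⟩, ?_⟩
      · ext x
        exact Uni.conjHom_involutive hF x
      · apply scalar_U1 (by omega : 1 ≤ n) (g * mapGU (frobQ hF) g) 1
        show (g : GL (Fin n) F) * sH hF n g = _
        rw [h1]
        simp
      · exact Subtype.ext h1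
    · intro h
      exact frobQ_ne_one hF ((cAutU_eq_one_iff hF hn _ _).1 h).1

theorem graph_specU (hF : Fintype.card F = q ^ 2) (hn : 3 ≤ n) {γ : MulAut (Cfsg.PSU n F q)} (h : Cfsg.IsGraphAutClassPSU γ) (h2 : orderOf γ = 2) :
    ∃ (g : Cfsg.GU n F q) (c : U1 F q), γ = cAutU g (frobQ hF) ∧ (g : GL (Fin n) F) * sH hF n g = zS F n c := by
  obtain ⟨-, δ, φ, σ, hσ, hδ, hφ, rfl⟩ := h
  obtain ⟨g, rfl⟩ := innDiag_iff.1 hδ
  rw [field_iff.1 hφ, ← cAutU_eq] at h2 ⊢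
  have h3 := pow_orderOf_eq_one (cAutU g σ)
  rw [h2, pow_two, cAutU_mul, cAutU_eq_one_iff hF hn] at h3
  obtain ⟨h4, c, hc⟩ := h3
  have h5 : (σ : RingAut F) ^ 2 = 1 := by
    ext x
    rw [pow_two]
    exact congrArg (fun ρ : F ≃+* F => ρ x) h4
  have h6 : (σ : RingAut F) ≠ 1 := by
    intro h7
    rw [show σ = (1 : RingAut F) from h7] at hσ
    have h8 : orderOf ((1 : RingAut F) : F ≃+* F) = 1 := orderOf_one
    rw [h8] at hσ
    exact absurd hσ (by decide)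
  have h7 : orderOf (σ : RingAut F) = 2 := orderOf_eq_prime h5 h6
  obtain ⟨p, hp⟩ := CharP.exists F
  obtain ⟨f, hpp, hf⟩ := FiniteField.card F p
  have : Fact p.Prime := ⟨hpp⟩
  obtain ⟨hcyc, _⟩ := ringAut_cyclic_card F hf
  have hfin : Finite (RingAut F) := finite_ringAut
  have h8 : σ = frobQ hF := order2_unique (G := RingAut F) h7 (orderOf_frobQ hF)
  subst h8
  exact ⟨g, c, rfl, congrArg Subtype.val hc⟩

theorem exists_relU {hF : Fintype.card F = q ^ 2} {j : K →+* F} (hj : ∀ x, frobQ hF x = x ↔ x ∈ Set.range j) (hn : 3 ≤ n) {γ : MulAut (Cfsg.PSU n F q)}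
    (h : Cfsg.IsGraphAutClassPSU γ) (h2 : orderOf γ = 2) : ∃ M : GL (Fin n) K, RelU hF j γ M := by
  obtain ⟨g, c, rfl, hc⟩ := graph_specU hF hn h h2
  obtain ⟨ε, M, hM⟩ := exists_of_g (by omega) hj g c hc
  exact ⟨M, g, ε, rfl, hM⟩

theorem exists_relU' {hF : Fintype.card F = q ^ 2} {j : K →+* F} (hj : ∀ x, frobQ hF x = x ↔ x ∈ Set.range j) (M : GL (Fin n) K)
    (hM : (M : Matrix (Fin n) (Fin n) K)ᵀ = M ∨ (M : Matrix (Fin n) (Fin n) K)ᵀ = -(M : Matrix (Fin n) (Fin n) K)) :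
    ∃ γ : MulAut (Cfsg.PSU n F q), RelU hF j γ M := by
  obtain ⟨g, ε, h⟩ := exists_of_M hj M hM
  exact ⟨_, g, ε, rfl, h⟩

theorem RelU.transpose {hF : Fintype.card F = q ^ 2} {j : K →+* F} (hj : ∀ x, frobQ hF x = x ↔ x ∈ Set.range j) {γ : MulAut (Cfsg.PSU n F q)} {M : GL (Fin n) K}
    (h : RelU hF j γ M) : (M : Matrix (Fin n) (Fin n) K)ᵀ = M ∨ (M : Matrix (Fin n) (Fin n) K)ᵀ = -(M : Matrix (Fin n) (Fin n) K) := by
  obtain ⟨g, ε, -, h⟩ := h
  exact h.transpose hj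

/-- all involutory graph automorphisms of `PSL_n` over the small field correspond -/
theorem exists_relU_gam {hF : Fintype.card F = q ^ 2} {j : K →+* F} (hj : ∀ x, frobQ hF x = x ↔ x ∈ Set.range j) (hn : 3 ≤ n)
    {γ₀ : MulAut (Matrix.ProjectiveSpecialLinearGroup (Fin n) K)} (h : Cfsg.IsGraphAutClassPSL γ₀) (h2 : orderOf γ₀ = 2) :
    ∃ (γ : MulAut (Cfsg.PSU n F q)) (M : GL (Fin n) K), γ₀ = gam M ∧ RelU hF j γ M := by
  obtain ⟨M, rfl⟩ := graph_spec h
  obtain ⟨γ, hγ⟩ := exists_relU' (q := q) hj M ((orderOf_gam hn M).1 h2)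
  exact ⟨γ, M, rfl, hγ⟩

/-- the simplest example -/
theorem relU_one (hF : Fintype.card F = q ^ 2) (j : K →+* F) : RelU hF j (cAutU (1 : Cfsg.GU n F q) (frobQ hF)) (1 : GL (Fin n) K) := by
  refine ⟨1, 1, rfl, 1, 1, 1, one_mul _, ?_, ?_, ?_, ?_, ?_⟩
  · rw [map_one, one_mul]
  · rw [map_one, one_mul]
  · rw [map_one, map_one]; simp
  · rw [map_one, map_one, map_one]; simp
  · rw [map_one, map_one]

/-- similarities give unitary intertwiners -/
theorem lift_simil {hF : Fintype.card F = q ^ 2} {j : K →+* F} (hj : ∀ x, frobQ hF x = x ↔ x ∈ Set.range j) (hn : 1 ≤ n) {ε ε' : Fˣ} {g a g' a' : GL (Fin n) F}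
    {M M' : GL (Fin n) K} {κ η κ' η' : Fˣ}
    (R : ARel (sH hF n) (thH hF n) (zS F n) (uMap (frobQ hF)) ε g (Matrix.GeneralLinearGroup.map j M) a κ η)
    (R' : ARel (sH hF n) (thH hF n) (zS F n) (uMap (frobQ hF)) ε' g' (Matrix.GeneralLinearGroup.map j M') a' κ' η')
    (k : GL (Fin n) K) (c : Kˣ)
    (h : (k : Matrix (Fin n) (Fin n) K)ᵀ * (M' : Matrix (Fin n) (Fin n) K) * (k : Matrix (Fin n) (Fin n) K) = (c : K) • (M : Matrix (Fin n) (Fin n) K)) :
    ∃ μ : Fˣ, η' * (μ * uMap (frobQ hF) μ * η)⁻¹ = Units.map (j : K →* F) c ∧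
      zS F n μ * (a' * Matrix.GeneralLinearGroup.map j k * a⁻¹) ∈ Cfsg.GU n F q := by
  have hs := setting hF n
  rw [← simil_group] at h
  have h1 := congrArg (Matrix.GeneralLinearGroup.map j) h
  rw [map_mul, map_mul, map_inv, ← theta_map_j hF j hj, map_mul, map_scalar] at h1
  obtain ⟨x, hx⟩ : ∃ x : Fˣ, x = Units.map (j : K →* F) c := ⟨_, rfl⟩
  rw [← hx] at h1 ⊢
  have htx : uMap (frobQ hF) x = x := by
    apply Units.ext
    rw [coe_uMap]
    exact (hj _).2 ⟨c, by rw [hx]; rfl⟩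
  have hee := R.eps_eq hs (zS_inj hn) R' _ x htx h1
  obtain ⟨μ, hμ⟩ := exists_normS hF (η' * (x * η)⁻¹) (by
    rw [map_mul, map_inv, map_mul, htx, R.hη, R'.hη, hee, ← mul_assoc, mul_comm x ε', mul_assoc ε' x, mul_inv ε', mul_comm ε' η', mul_assoc η' ε', mul_inv_cancel_left])
  have hμ2 : η' * (μ * uMap (frobQ hF) μ * η)⁻¹ = x := by
    have e1 : η' * (x * η)⁻¹ * η = η' * x⁻¹ := by
      rw [mul_inv x, mul_assoc, mul_assoc, inv_mul_cancel, mul_one]
    rw [hμ, e1, mul_inv, inv_inv, mul_inv_cancel_left]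
  refine ⟨μ, hμ2, ?_⟩
  rw [mem_GU_iff' hF, R.transport_theta hs R', hμ2]
  exact h1

theorem descend_inter {hF : Fintype.card F = q ^ 2} {j : K →+* F} (hj : ∀ x, frobQ hF x = x ↔ x ∈ Set.range j) (hn : 1 ≤ n) {ε ε' : Fˣ} {g a g' a' : GL (Fin n) F}
    {M M' : GL (Fin n) K} {κ η κ' η' : Fˣ}
    (R : ARel (sH hF n) (thH hF n) (zS F n) (uMap (frobQ hF)) ε g (Matrix.GeneralLinearGroup.map j M) a κ η)
    (R' : ARel (sH hF n) (thH hF n) (zS F n) (uMap (frobQ hF)) ε' g' (Matrix.GeneralLinearGroup.map j M') a' κ' η')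
    (h : Cfsg.GU n F q) (c : Fˣ) (hc : (h : GL (Fin n) F) * g = zS F n c * (g' * sH hF n h)) :
    ∃ (μ : Fˣ) (k : GL (Fin n) K) (e : Kˣ), (h : GL (Fin n) F) = zS F n μ * (a' * Matrix.GeneralLinearGroup.map j k * a⁻¹) ∧
      η' * (μ * uMap (frobQ hF) μ * η)⁻¹ = Units.map (j : K →* F) e ∧
      (k : Matrix (Fin n) (Fin n) K)ᵀ * (M' : Matrix (Fin n) (Fin n) K) * (k : Matrix (Fin n) (Fin n) K) = (e : K) • (M : Matrix (Fin n) (Fin n) K) := by
  have hs := setting hF n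
  obtain ⟨μ, P, hP, hh⟩ := R.extract hs (zS_inj hn) (h90S hF) R' _ c hc
  obtain ⟨k, rfl⟩ := exists_of_fixed j (frobQ hF) hj P hP
  have h1 := (mem_GU_iff' hF _).1 h.2
  rw [hh, R.transport_theta hs R'] at h1
  obtain ⟨x, hx⟩ : ∃ x, x = η' * (μ * uMap (frobQ hF) μ * η)⁻¹ := ⟨_, rfl⟩
  rw [← hx] at h1
  have htx : uMap (frobQ hF) x = x := by
    apply zS_inj (F := F) hn
    apply mul_right_cancel (b := Matrix.GeneralLinearGroup.map j M)
    rw [← h1, ← hs.hsz]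
    have h2 := congrArg (sH hF n) h1
    rw [map_mul (sH hF n) (zS F n x), R.hJs] at h2
    rw [← h2, map_mul, map_mul, map_inv, hs.hst, hP, R'.hJs]
  obtain ⟨e, he⟩ := (hj x).1 (congrArg Units.val htx)
  have he0 : e ≠ 0 := by rintro rfl; rw [map_zero] at he; exact x.ne_zero he.symm
  have hxe : x = Units.map (j : K →* F) (Units.mk0 e he0) := Units.ext he.symm
  refine ⟨μ, k, Units.mk0 e he0, hh, by rw [← hx, hxe], ?_⟩
  rw [← simil_group]
  apply map_j_injective j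
  rw [map_mul, map_mul, map_inv, ← theta_map_j hF j hj, map_mul, map_scalar, ← hxe]
  exact h1

/-- conjugacy corresponds -/
theorem RelU.conj_iff {hF : Fintype.card F = q ^ 2} {j : K →+* F} (hj : ∀ x, frobQ hF x = x ↔ x ∈ Set.range j) (hn : 3 ≤ n)
    {γ γ' : MulAut (Cfsg.PSU n F q)} {M M' : GL (Fin n) K} (h : RelU hF j γ M) (h' : RelU hF j γ' M') :
    Cfsg.IsConjUnder (Cfsg.inndiagPSU n F q) γ γ' ↔ Cfsg.IsConjUnder (Cfsg.inndiagPSL n K) (gam M) (gam M') := by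
  have hs := setting hF n
  obtain ⟨g, ε, rfl, a, κ, η, R⟩ := h
  obtain ⟨g', ε', rfl, a', κ', η', R'⟩ := h'
  rw [gam_conj_iff (by omega), conj_iffU hF hn]
  constructor
  · rintro ⟨h, c, hc⟩
    obtain ⟨μ, k, e, -, -, hk⟩ := descend_inter hj (by omega) R R' h c hc
    exact ⟨k, e, hk⟩
  · rintro ⟨k, c, hk⟩
    obtain ⟨μ, hμ, hmem⟩ := lift_simil hj (by omega) R R' k c hk
    have h1 := R.transport_s hs R' μ (Matrix.GeneralLinearGroup.map j k) (mapGL_map j _ hj k)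
    let h : Cfsg.GU n F q := ⟨_, hmem⟩
    exact ⟨h, ⟨_, scalar_U1 (by omega) (h * g) (g' * mapGU (frobQ hF) h) _ h1⟩, h1⟩

theorem diagU_eq_of_scalar (hF : Fintype.card F = q ^ 2) (hn : 3 ≤ n) (h h' : Cfsg.GU n F q) (c : Fˣ) (hc : (h : GL (Fin n) F) = zS F n c * h') :
    diagU n F q h = diagU n F q h' := by
  rw [diagU_eq_iff hF hn]
  refine ⟨⟨c, scalar_U1 (by omega) h h' c hc⟩, Subtype.ext ?_⟩
  rw [(setting hF n).hz] at hc
  exact hc

/-- centralizers correspond -/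
theorem RelU.cent {hF : Fintype.card F = q ^ 2} {j : K →+* F} (hj : ∀ x, frobQ hF x = x ↔ x ∈ Set.range j) (hn : 3 ≤ n)
    {γ : MulAut (Cfsg.PSU n F q)} {M : GL (Fin n) K} (h : RelU hF j γ M) :
    Nonempty (↥(Cfsg.inndiagPSU n F q ⊓ Subgroup.centralizer {γ}) ≃* ↥(Cfsg.inndiagPSL n K ⊓ Subgroup.centralizer {gam M})) := by
  have hs := setting hF n
  obtain ⟨g, ε, rfl, a, κ, η, R⟩ := h
  have h1 : ∀ k : simM M, ∃ (μ : Fˣ) (h : Cfsg.GU n F q), (h : GL (Fin n) F) = zS F n μ * (a * Matrix.GeneralLinearGroup.map j (k : GL (Fin n) K) * a⁻¹) := by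
    rintro ⟨k, hk⟩
    obtain ⟨c, hc⟩ := (mem_simM k M).1 hk
    obtain ⟨μ, -, hmem⟩ := lift_simil hj (by omega) R R k c hc
    exact ⟨μ, ⟨_, hmem⟩, rfl⟩
  choose μ f hf using h1
  let ρ0 : ↥(simM M) →* MulAut (Cfsg.PSU n F q) := MonoidHom.mk' (fun k => diagU n F q (f k)) (by
    intro k k'
    rw [← map_mul]
    apply diagU_eq_of_scalar hF hn _ _ (μ (k * k') * (μ k * μ k')⁻¹)
    show (f (k * k') : GL (Fin n) F) = _ * ((f k : GL (Fin n) F) * (f k' : GL (Fin n) F))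
    rw [hf, hf, hf, hs.zl, ← mul_assoc (zS F n _) (zS F n (μ k')), ← map_mul, mul_assoc (zS F n (μ k)), ← mul_assoc (zS F n _) (zS F n (μ k)), ← map_mul]
    have e1 : μ (k * k') * (μ k * μ k')⁻¹ * μ k' * μ k = μ (k * k') := by
      calc _ = μ (k * k') * ((μ k * μ k')⁻¹ * (μ k * μ k')) := by ac_rfl
        _ = _ := by rw [inv_mul_cancel, mul_one]
    rw [e1, Subgroup.coe_mul, map_mul]
    group)
  have hρ0 : ∀ k, ρ0 k = diagU n F q (f k) := fun k => rfl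
  have hρ : ∀ k, ρ0 k ∈ (diagU n F q).range ⊓ Subgroup.centralizer {cAutU g (frobQ hF)} := by
    intro k
    refine ⟨⟨_, rfl⟩, Subgroup.mem_centralizer_singleton_iff.2 ?_⟩
    rw [hρ0, inter_iffU hF hn]
    have h1 := R.transport_s hs R (μ k) (Matrix.GeneralLinearGroup.map j (k : GL (Fin n) K)) (mapGL_map j _ hj _)
    rw [← hf k] at h1
    exact ⟨⟨_, scalar_U1 (by omega) (f k * g) (g * mapGU (frobQ hF) (f k)) _ h1⟩, h1⟩
  let ρ := ρ0.codRestrict _ hρ
  have hsurj : Function.Surjective ρ := by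
    rintro ⟨_, ⟨h, rfl⟩, hg⟩
    obtain ⟨c, hc⟩ := (inter_iffU hF hn h g g).1 (Subgroup.mem_centralizer_singleton_iff.1 hg)
    obtain ⟨μ', k, e, hh, -, hk⟩ := descend_inter hj (by omega) R R h c hc
    refine ⟨⟨k, (mem_simM k M).2 ⟨e, hk⟩⟩, Subtype.ext ?_⟩
    show diagU n F q (f _) = diagU n F q h
    apply diagU_eq_of_scalar hF hn _ _ (μ ⟨k, (mem_simM k M).2 ⟨e, hk⟩⟩ * μ'⁻¹)
    rw [hf, hh, ← mul_assoc (zS F n _) (zS F n _), ← map_mul, inv_mul_cancel_right]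
  have hker : ρ.ker = (Cfsg.Geo.scalars (Fin n) K).subgroupOf (simM M) := by
    ext k
    rw [MonoidHom.mem_ker, Subgroup.mem_subgroupOf]
    have h1 : ρ k = 1 ↔ diagU n F q (f k) = diagU n F q 1 := by
      rw [map_one]
      exact Subtype.ext_iff
    rw [h1]
    constructor
    · intro h2
      obtain ⟨c, hc⟩ := (diagU_eq_iff hF hn _ _).1 h2
      have h3 := congrArg Subtype.val hc
      rw [one_mul, coe_scU, hf k] at h3
      -- the matrix is scalar
      have h4 : Matrix.GeneralLinearGroup.map j (k : GL (Fin n) K) = zS F n ((μ k)⁻¹ * c) := by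
        have h5 : Matrix.GeneralLinearGroup.map j (k : GL (Fin n) K) = a⁻¹ * (zS F n (μ k)⁻¹ * (zS F n (μ k) * (a * Matrix.GeneralLinearGroup.map j (k : GL (Fin n) K) * a⁻¹))) * a := by
          rw [← mul_assoc (zS F n _) (zS F n _), ← map_mul, inv_mul_cancel, map_one, one_mul]
          group
        rw [h5, h3, ← map_mul, ← hs.hz, mul_assoc, inv_mul_cancel, mul_one]
      obtain ⟨x, hx⟩ : ∃ x, x = (μ k)⁻¹ * (c : Fˣ) := ⟨_, rfl⟩
      rw [← hx] at h4
      have htx : uMap (frobQ hF) x = x := by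
        apply zS_inj (F := F) (n := n) (by omega)
        rw [← hs.hsz, ← h4]
        exact mapGL_map j _ hj _
      obtain ⟨e, he⟩ := (hj x).1 (congrArg Units.val htx)
      have he0 : e ≠ 0 := by rintro rfl; rw [map_zero] at he; exact x.ne_zero he.symm
      have hxe : x = Units.map (j : K →* F) (Units.mk0 e he0) := Units.ext he.symm
      refine ⟨Units.mk0 e he0, ?_⟩
      apply map_j_injective j
      show Matrix.GeneralLinearGroup.map j (Matrix.GeneralLinearGroup.scalar (Fin n) (Units.mk0 e he0)) = _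
      rw [h4, hxe, map_scalar]
    · rintro ⟨e, he'⟩
      have he : Matrix.GeneralLinearGroup.scalar (Fin n) e = (k : GL (Fin n) K) := he'
      apply diagU_eq_of_scalar hF hn _ _ (μ k * Units.map (j : K →* F) e)
      rw [hf k, ← he, map_scalar, ← hs.hz, mul_assoc (zS F n _) a, mul_inv_cancel, mul_one, ← map_mul]
      simp
  rw [inndiagPSU_eq]
  obtain ⟨e2⟩ := cent_gam (by omega : 2 ≤ n) M
  exact ⟨((QuotientGroup.quotientKerEquivOfSurjective ρ hsurj).symm.trans (QuotientGroup.quotientMulEquivOfEq hker)).trans e2.symm⟩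

end conc

end Cfsg.Agent.H41
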