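import Mathlib
import Cfsg.Agent.H41.GraphPSU
import Cfsg.Agent.H41.GraphCount
import Cfsg.Agent.H41.GraphEven

set_option autoImplicit false
set_option linter.unusedSectionVars false
set_option linter.unusedVariables false

/-! Splitting of the class of an involutory graph automorphism of `PSU_n(q)`. -/

namespace Cfsg.Agent.H41

open Matrix Cfsg.Agent.AutPSL Cfsg.Agent.AutLie Cfsg.Agent.AutPSU Cfsg.Agent.Uni

section idx
variable {U : Type*} [CommGroup U] [Finite U] [IsCyclic U] {n m : ℕ}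

theorem idxA (D : Subgroup U) (h : ∀ d ∈ D, ∃ b : U, d = b ^ n) :
    (D ⊔ (powMonoidHom n : U →* U).range).index = Nat.gcd n (Nat.card U) := by
  have h1 : D ≤ (powMonoidHom n : U →* U).range := by
    intro d hd
    obtain ⟨b, hb⟩ := h d hd
    exact ⟨b, hb.symm⟩
  rw [sup_eq_right.2 h1]
  have h2 := index_sup_pow' (⊥ : Subgroup U) n 1 (by simp)
  rw [bot_sup_eq, Nat.div_one] at h2
  exact h2

theorem idxB (hnm : n = 2 * m) (D : Subgroup U) (h1 : ∀ d ∈ D, ∃ b : U, d = b ^ m) (h2 : ∀ b : U, b ^ m ∈ D) :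
    (D ⊔ (powMonoidHom n : U →* U).range).index = Nat.gcd m (Nat.card U) := by
  have h3 : D ⊔ (powMonoidHom n : U →* U).range = (powMonoidHom m : U →* U).range := by
    apply le_antisymm
    · apply sup_le
      · intro d hd
        obtain ⟨b, hb⟩ := h1 d hd
        exact ⟨b, hb.symm⟩
      · rintro _ ⟨b, rfl⟩
        refine ⟨b ^ 2, ?_⟩
        rw [powMonoidHom_apply, powMonoidHom_apply, ← pow_mul, hnm]
    · refine le_trans ?_ le_sup_left
      rintro _ ⟨b, rfl⟩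
      exact h2 b
  rw [h3]
  have h4 := index_sup_pow' (⊥ : Subgroup U) m 1 (by simp)
  rw [bot_sup_eq, Nat.div_one] at h4
  exact h4

theorem idxC (hnm : n = 2 * m) (D : Subgroup U) (w : U) (hw : w ∈ D) (hw2 : w * w = 1) (hw1 : w ≠ 1) (h1 : ∀ d ∈ D, ∃ b : U, d = b ^ m ∨ d = w * b ^ m)
    (h2 : ∀ b : U, b ^ m ∈ D ∨ w * b ^ m ∈ D) :
    (D ⊔ (powMonoidHom n : U →* U).range).index = Nat.gcd n (Nat.card U) / 2 := by
  have h4 : D ⊔ (powMonoidHom n : U →* U).range = Subgroup.zpowers w ⊔ (powMonoidHom m : U →* U).range := by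
    apply le_antisymm
    · apply sup_le
      · intro d hd
        obtain ⟨b, rfl | rfl⟩ := h1 d hd
        · exact Subgroup.mem_sup_right ⟨b, rfl⟩
        · have hbm : b ^ m ∈ (powMonoidHom m : U →* U).range := ⟨b, rfl⟩
          exact Subgroup.mul_mem_sup (Subgroup.mem_zpowers _) hbm
      · refine le_trans ?_ le_sup_right
        rintro _ ⟨b, rfl⟩
        refine ⟨b ^ 2, ?_⟩
        rw [powMonoidHom_apply, powMonoidHom_apply, ← pow_mul, hnm]
    · refine le_trans ?_ le_sup_left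
      apply sup_le
      · rw [Subgroup.zpowers_le]
        exact hw
      · rintro _ ⟨b, rfl⟩
        rcases h2 b with h3 | h3
        · exact h3
        · have h5 := Subgroup.mul_mem _ hw h3
          rw [← mul_assoc, hw2, one_mul] at h5
          exact h5
  have hcard : Nat.card (Subgroup.zpowers w) = 2 := by
    rw [Nat.card_zpowers]
    apply orderOf_eq_prime
    · rw [pow_two, hw2]
    · exact hw1
  rw [h4, index_sup_pow' _ m 2 hcard, hnm]
  have hev : 2 ∣ Nat.card U := by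
    have := Subgroup.card_subgroup_dvd_card (Subgroup.zpowers w)
    rw [hcard] at this
    exact this
  obtain ⟨k, hk⟩ := hev
  rw [hk, Nat.mul_div_cancel_left _ (by norm_num), Nat.gcd_mul_left, Nat.mul_div_cancel_left _ (by norm_num)]

end idx

section cnt
variable {F : Type*} [Field F] [Fintype F] {q n m : ℕ} {K : Type*} [Field K]

/-- determinants of the unitary matrices commuting with `γ` -/
noncomputable def dets (hF : Fintype.card F = q ^ 2) (γ : MulAut (Cfsg.PSU n F q)) : Subgroup (U1 F q) :=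
  ((Subgroup.centralizer {γ}).comap (diagU n F q)).map (detHom hF n)

theorem count_relU (hF : Fintype.card F = q ^ 2) (hn : 3 ≤ n) (γ : MulAut (Cfsg.PSU n F q)) :
    Cfsg.splitClassCount (Cfsg.inndiagPSU n F q) (Cfsg.Inn (Cfsg.PSU n F q)) γ =
      (dets hF γ ⊔ (powMonoidHom n : U1 F q →* U1 F q).range).index := by
  rw [inndiagPSU_eq]
  refine splitClassCount_eq_index (diagU n F q) _ _ rfl ?_ _ (detHom hF n)
    (detHom_surjective hF (by omega)) (powMonoidHom n : U1 F q →* U1 F q).range _ (fun g => diagU_mem_inn hF hn g) ?_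
  · rw [inn_eq hF]
    rintro _ ⟨s, rfl⟩
    exact ⟨_, rfl⟩
  · intro g
    rw [Subgroup.mem_sup]
    constructor
    · rintro ⟨_, ⟨k, hk, rfl⟩, y, hy, hyy⟩
      refine ⟨k, Subgroup.mem_centralizer_singleton_iff.1 hk, ?_⟩
      rw [← hyy, mul_comm, inv_mul_cancel_left]
      exact hy
    · rintro ⟨k, hk, hkk⟩
      refine ⟨detHom hF n k, ⟨k, Subgroup.mem_centralizer_singleton_iff.2 hk, rfl⟩, detHom hF n g * (detHom hF n k)⁻¹, hkk, ?_⟩
      rw [mul_comm, inv_mul_cancel_right]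

theorem det_form (j : K →+* F) (μ : Fˣ) (a : GL (Fin n) F) (k : GL (Fin n) K) :
    Matrix.GeneralLinearGroup.det (zS F n μ * (a * Matrix.GeneralLinearGroup.map j k * a⁻¹)) = μ ^ n * Units.map (j : K →* F) (Matrix.GeneralLinearGroup.det k) := by
  rw [map_mul, det_scalar', map_mul, map_mul, map_inv, mul_comm (Matrix.GeneralLinearGroup.det a), mul_inv_cancel_right]
  congr 1
  apply Units.ext
  exact (RingHom.map_det j (k : Matrix (Fin n) (Fin n) K)).symm

/-- description of the determinants -/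
theorem mem_dets {hF : Fintype.card F = q ^ 2} {j : K →+* F} (hj : ∀ x, frobQ hF x = x ↔ x ∈ Set.range j) (hn : 3 ≤ n)
    {γ : MulAut (Cfsg.PSU n F q)} {M : GL (Fin n) K} (h : RelU hF j γ M) (d : U1 F q) :
    d ∈ dets hF γ ↔ ∃ (μ : Fˣ) (k : GL (Fin n) K) (e : Kˣ), μ * uMap (frobQ hF) μ * Units.map (j : K →* F) e = 1 ∧
      (k : Matrix (Fin n) (Fin n) K)ᵀ * (M : Matrix (Fin n) (Fin n) K) * (k : Matrix (Fin n) (Fin n) K) = (e : K) • (M : Matrix (Fin n) (Fin n) K) ∧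
      (d : Fˣ) = μ ^ n * Units.map (j : K →* F) (Matrix.GeneralLinearGroup.det k) := by
  have hs := setting hF n
  obtain ⟨g, ε, rfl, a, κ, η, R⟩ := h
  have hη : ∀ (μ : Fˣ) (x : Fˣ), η * (μ * uMap (frobQ hF) μ * η)⁻¹ = x ↔ μ * uMap (frobQ hF) μ * x = 1 := by
    intro μ x
    have e1 : η * (μ * uMap (frobQ hF) μ * η)⁻¹ = (μ * uMap (frobQ hF) μ)⁻¹ := by
      rw [mul_inv (μ * uMap (frobQ hF) μ), mul_comm _ η⁻¹, mul_inv_cancel_left]
    rw [e1, mul_eq_one_iff_inv_eq]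
  constructor
  · rintro ⟨h, hh, rfl⟩
    obtain ⟨c, hc⟩ := (inter_iffU hF hn h g g).1 (Subgroup.mem_centralizer_singleton_iff.1 hh)
    obtain ⟨μ, k, e, h1, h2, h3⟩ := descend_inter hj (by omega) R R h c hc
    refine ⟨μ, k, e, (hη _ _).1 h2, h3, ?_⟩
    show Matrix.GeneralLinearGroup.det (h : GL (Fin n) F) = _
    rw [h1, det_form]
  · rintro ⟨μ, k, e, h2, h3, h4⟩
    have h1 : zS F n μ * (a * Matrix.GeneralLinearGroup.map j k * a⁻¹) ∈ Cfsg.GU n F q := by
      rw [mem_GU_iff' hF, R.transport_theta hs R, (hη _ _).2 h2]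
      have h5 := (simil_group k M M e).2 h3
      have h6 := congrArg (Matrix.GeneralLinearGroup.map j) h5
      rw [map_mul, map_mul, map_inv, ← theta_map_j hF j hj, map_mul, map_scalar] at h6
      exact h6
    have h7 := R.transport_s hs R μ (Matrix.GeneralLinearGroup.map j k) (mapGL_map j _ hj k)
    let h : Cfsg.GU n F q := ⟨_, h1⟩
    refine ⟨h, ?_, ?_⟩
    · apply Subgroup.mem_centralizer_singleton_iff.2
      rw [inter_iffU hF hn]
      exact ⟨⟨_, scalar_U1 (by omega) (h * g) (g * mapGU (frobQ hF) h) _ h7⟩, h7⟩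
    · apply Subtype.ext
      show Matrix.GeneralLinearGroup.det (zS F n μ * (a * Matrix.GeneralLinearGroup.map j k * a⁻¹)) = _
      rw [det_form, h4]

theorem mem_U1' (hF : Fintype.card F = q ^ 2) (c : Fˣ) : c ∈ U1 F q ↔ c * uMap (frobQ hF) c = 1 := by
  rw [mem_U1, Units.ext_iff, Units.val_mul, Units.val_one, pow_succ']
  rfl

theorem detA [Finite K] (hc : Odd n ∨ CharP K 2) (d e : Kˣ) (h : d * d = e ^ n) : ∃ b : Kˣ, b * b = e ∧ d = b ^ n := by
  rcases hc with hodd | hc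
  · obtain ⟨r, hr⟩ := hodd
    obtain ⟨b, hb⟩ : ∃ b : Kˣ, b = d * (e ^ r)⁻¹ := ⟨_, rfl⟩
    have hbb : b * b = e := by
      rw [hb, mul_mul_mul_comm, h, hr, ← mul_inv, ← pow_add, ← two_mul, pow_succ, mul_comm (e ^ (2 * r)), mul_inv_cancel_right]
    have h3 : d * d = b ^ n * b ^ n := by
      rw [h, ← mul_pow, hbb]
    have h4 := congrArg Units.val h3
    rw [Units.val_mul, Units.val_mul] at h4
    rcases mul_self_eq_mul_self_iff.1 h4 with h5 | h5
    · exact ⟨b, hbb, Units.ext h5⟩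
    · refine ⟨-b, by rw [neg_mul_neg, hbb], Units.ext ?_⟩
      have hno : Odd n := ⟨r, hr⟩
      rw [h5, hno.neg_pow, Units.val_neg]
  · obtain ⟨b, hb⟩ := exists_sqrt (e : K)
    have hb0 : b ≠ 0 := by
      rintro rfl
      rw [mul_zero] at hb
      exact e.ne_zero hb.symm
    refine ⟨Units.mk0 b hb0, Units.ext hb, Units.ext (sq_inj ?_)⟩
    have h4 := congrArg Units.val h
    rw [Units.val_mul, Units.val_pow_eq_pow_val] at h4
    rw [h4, ← hb, Units.val_pow_eq_pow_val, Units.val_mk0, mul_pow]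

theorem cntA [Finite K] {hF : Fintype.card F = q ^ 2} {j : K →+* F} (hj : ∀ x, frobQ hF x = x ↔ x ∈ Set.range j) (hn : 3 ≤ n)
    {γ : MulAut (Cfsg.PSU n F q)} {M : GL (Fin n) K} (h : RelU hF j γ M) (hc : Odd n ∨ CharP K 2) :
    Cfsg.splitClassCount (Cfsg.inndiagPSU n F q) (Cfsg.Inn (Cfsg.PSU n F q)) γ = Nat.gcd n (q + 1) := by
  rw [count_relU hF hn, idxA, Uni.card_norm_ker hF]
  intro d hd
  obtain ⟨μ, k, e, h1, h2, h3⟩ := (mem_dets hj hn h d).1 hd
  obtain ⟨b, hb, hbd⟩ := detA hc _ _ (det_rel k M e h2)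
  have htb : uMap (frobQ hF) (Units.map (j : K →* F) b) = Units.map (j : K →* F) b := by
    apply Units.ext
    rw [coe_uMap]
    exact (hj _).2 ⟨b, rfl⟩
  refine ⟨⟨μ * Units.map (j : K →* F) b, ?_⟩, ?_⟩
  · rw [mem_U1' hF, map_mul, htb, mul_mul_mul_comm, ← map_mul, hb, h1]
  · apply Subtype.ext
    rw [h3, hbd, map_pow, ← mul_pow]
    rfl

theorem tt_div (hF : Fintype.card F = q ^ 2) (μ : Fˣ) : μ * (uMap (frobQ hF) μ)⁻¹ ∈ U1 F q := by
  rw [mem_U1' hF, map_mul, map_inv, uMap_uMap, mul_mul_mul_comm, mul_comm μ (uMap (frobQ hF) μ), mul_mul_mul_comm, mul_inv_cancel, mul_inv_cancel, one_mul]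

theorem cntB {hF : Fintype.card F = q ^ 2} {j : K →+* F} (hj : ∀ x, frobQ hF x = x ↔ x ∈ Set.range j) (hn : 3 ≤ n) (hnm : n = 2 * m)
    {γ : MulAut (Cfsg.PSU n F q)} {M : GL (Fin n) K} (h : RelU hF j γ M) (hM : ∀ v, v ⬝ᵥ (M : Matrix (Fin n) (Fin n) K) *ᵥ v = 0) :
    Cfsg.splitClassCount (Cfsg.inndiagPSU n F q) (Cfsg.Inn (Cfsg.PSU n F q)) γ = Nat.gcd m (q + 1) := by
  obtain ⟨hk1, hk2⟩ := alt_key hnm M hM
  have key : ∀ (μ : Fˣ) (e : Kˣ), μ * uMap (frobQ hF) μ * Units.map (j : K →* F) e = 1 →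
      μ ^ n * Units.map (j : K →* F) (e ^ m) = (μ * (uMap (frobQ hF) μ)⁻¹) ^ m := by
    intro μ e h1
    have h2 : (uMap (frobQ hF) μ)⁻¹ = μ * Units.map (j : K →* F) e := by
      rw [inv_eq_iff_mul_eq_one, ← h1]; ac_rfl
    rw [h2, map_pow, hnm, pow_mul, ← mul_pow, pow_two, mul_assoc]
  rw [count_relU hF hn, idxB hnm, Uni.card_norm_ker hF]
  · intro d hd
    obtain ⟨μ, k, e, h1, h2, h3⟩ := (mem_dets hj hn h d).1 hd
    refine ⟨⟨_, tt_div hF μ⟩, ?_⟩
    apply Subtype.ext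
    rw [h3, hk1 k e ((simil_iff _ _ _ _).1 h2), key μ e h1]
    rfl
  · intro b
    rw [mem_dets hj hn h]
    obtain ⟨μ, hμ⟩ := h90S hF (b : Fˣ) ((mem_U1' hF _).1 b.2)
    obtain ⟨x, hx⟩ : ∃ x, x = (μ * uMap (frobQ hF) μ)⁻¹ := ⟨_, rfl⟩
    have htx : uMap (frobQ hF) x = x := by
      rw [hx, map_inv, map_mul, uMap_uMap, mul_comm μ]
    obtain ⟨e, he⟩ := (hj x).1 (congrArg Units.val htx)
    have he0 : e ≠ 0 := by rintro rfl; rw [map_zero] at he; exact x.ne_zero he.symm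
    have hxe : x = Units.map (j : K →* F) (Units.mk0 e he0) := Units.ext he.symm
    have h1 : μ * uMap (frobQ hF) μ * Units.map (j : K →* F) (Units.mk0 e he0) = 1 := by
      rw [← hxe, hx, mul_inv_cancel]
    obtain ⟨k, hk, hkd⟩ := hk2 (Units.mk0 e he0)
    refine ⟨μ, k, Units.mk0 e he0, h1, (simil_iff _ _ _ _).2 hk, ?_⟩
    rw [hkd, key μ _ h1, ← hμ]
    rfl

theorem exists_refl [Finite K] (h2 : (2 : K) ≠ 0) (hn : 1 ≤ n) (M : GL (Fin n) K) (hM : (M : Matrix (Fin n) (Fin n) K)ᵀ = M) :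
    ∃ k : GL (Fin n) K, (k : Matrix (Fin n) (Fin n) K)ᵀ * (M : Matrix (Fin n) (Fin n) K) * (k : Matrix (Fin n) (Fin n) K) = ((1 : Kˣ) : K) • (M : Matrix (Fin n) (Fin n) K) ∧
      Matrix.GeneralLinearGroup.det k = -1 := by
  have hfin : Fintype K := Fintype.ofFinite K
  obtain ⟨v, hv⟩ : ∃ v, qM (M : Matrix (Fin n) (Fin n) K) v ≠ 0 := by
    by_contra hcon
    push Not at hcon
    have h0 := (qM_nd h2 M hM).1 (Pi.single ⟨0, by omega⟩ 1) (fun w => by
      rw [QuadraticMap.polarBilin_apply_apply]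
      unfold QuadraticMap.polar
      rw [hcon, hcon, hcon]
      ring)
    have := congrFun h0 ⟨0, by omega⟩
    simp at this
  let Q := qM (M : Matrix (Fin n) (Fin n) K)
  obtain ⟨g, hg⟩ := (Cfsg.Agent.Orth.bridge Q).surjective (Cfsg.Agent.Orth.reflProd Q [⟨v, hv⟩])
  have hdet := Cfsg.Agent.Orth.det_of_reflProd Q g [⟨v, hv⟩] hg
  refine ⟨(g : GL (Fin n) K), ?_, ?_⟩
  · rw [simil_iff_q h2 _ _ _ hM hM]
    intro w
    rw [Units.val_one, one_mul]
    exact g.2 w w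
  · apply Units.ext
    rw [Matrix.GeneralLinearGroup.val_det_apply, hdet, Units.val_neg, Units.val_one]
    simp

theorem cntC [Finite K] {hF : Fintype.card F = q ^ 2} {j : K →+* F} (hj : ∀ x, frobQ hF x = x ↔ x ∈ Set.range j) (hn : 3 ≤ n) (h2 : (2 : K) ≠ 0) (hnm : n = 2 * m)
    {γ : MulAut (Cfsg.PSU n F q)} {M : GL (Fin n) K} (h : RelU hF j γ M) (hM : (M : Matrix (Fin n) (Fin n) K)ᵀ = M) :
    Cfsg.splitClassCount (Cfsg.inndiagPSU n F q) (Cfsg.Inn (Cfsg.PSU n F q)) γ = Nat.gcd n (q + 1) / 2 := by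
  have key : ∀ (μ : Fˣ) (e : Kˣ), μ * uMap (frobQ hF) μ * Units.map (j : K →* F) e = 1 →
      μ ^ n * Units.map (j : K →* F) (e ^ m) = (μ * (uMap (frobQ hF) μ)⁻¹) ^ m := by
    intro μ e h1
    have h2 : (uMap (frobQ hF) μ)⁻¹ = μ * Units.map (j : K →* F) e := by
      rw [inv_eq_iff_mul_eq_one, ← h1]; ac_rfl
    rw [h2, map_pow, hnm, pow_mul, ← mul_pow, pow_two, mul_assoc]
  have hneg : ∀ x : Kˣ, Units.map (j : K →* F) (-x) = - Units.map (j : K →* F) x := by
    intro x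
    apply Units.ext
    simp
  have hm1 : (-1 : Fˣ) ∈ U1 F q := by
    rw [mem_U1' hF]
    have : uMap (frobQ hF) (-1 : Fˣ) = -1 := by
      apply Units.ext
      simp
    rw [this, neg_mul_neg, one_mul]
  have hdk : ∀ (k : GL (Fin n) K) (c : Kˣ), (k : Matrix (Fin n) (Fin n) K)ᵀ * (M : Matrix (Fin n) (Fin n) K) * (k : Matrix (Fin n) (Fin n) K) = (c : K) • (M : Matrix (Fin n) (Fin n) K) →
      Matrix.GeneralLinearGroup.det k = c ^ m ∨ Matrix.GeneralLinearGroup.det k = -c ^ m := by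
    intro k c h
    have h1 := congrArg Units.val (det_rel k M c h)
    have e1 : c ^ n = c ^ m * c ^ m := by rw [← pow_add]; congr 1; omega
    rw [Units.val_mul, e1, Units.val_mul] at h1
    rcases mul_self_eq_mul_self_iff.1 h1 with h3 | h3
    · left; exact Units.ext h3
    · right; exact Units.ext (by rw [h3, Units.val_neg])
  rw [count_relU hF hn, idxC hnm _ (⟨-1, hm1⟩ : U1 F q), Uni.card_norm_ker hF]
  · -- reflections
    obtain ⟨k, hk, hkd⟩ := exists_refl h2 (by omega) M hM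
    rw [mem_dets hj hn h]
    refine ⟨1, k, 1, by rw [map_one, map_one, mul_one, mul_one], hk, ?_⟩
    rw [hkd, hneg, map_one, one_pow, one_mul]
  · apply Subtype.ext
    show (-1 : Fˣ) * (-1) = 1
    rw [neg_mul_neg, one_mul]
  · intro h3
    have h4 : (-1 : Fˣ) = 1 := congrArg Subtype.val h3
    have h5 := congrArg Units.val h4
    rw [Units.val_neg, Units.val_one] at h5
    have h6 : j 2 = 0 := by
      rw [map_ofNat]
      linear_combination -h5
    exact h2 ((map_eq_zero j).1 h6)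
  · intro d hd
    obtain ⟨μ, k, e, h1, h3, h4⟩ := (mem_dets hj hn h d).1 hd
    refine ⟨⟨_, tt_div hF μ⟩, ?_⟩
    rcases hdk k e h3 with h5 | h5
    · left
      apply Subtype.ext
      rw [h4, h5, key μ e h1]
      rfl
    · right
      apply Subtype.ext
      rw [h4, h5, hneg, mul_neg, key μ e h1]
      show _ = (-1 : Fˣ) * _
      rw [neg_mul, one_mul]
      rfl
  · intro b
    rw [mem_dets hj hn h, mem_dets hj hn h]
    obtain ⟨μ, hμ⟩ := h90S hF (b : Fˣ) ((mem_U1' hF _).1 b.2)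
    obtain ⟨x, hx⟩ : ∃ x, x = (μ * uMap (frobQ hF) μ)⁻¹ := ⟨_, rfl⟩
    have htx : uMap (frobQ hF) x = x := by
      rw [hx, map_inv, map_mul, uMap_uMap, mul_comm μ]
    obtain ⟨e, he⟩ := (hj x).1 (congrArg Units.val htx)
    have he0 : e ≠ 0 := by rintro rfl; rw [map_zero] at he; exact x.ne_zero he.symm
    have hxe : x = Units.map (j : K →* F) (Units.mk0 e he0) := Units.ext he.symm
    have h1 : μ * uMap (frobQ hF) μ * Units.map (j : K →* F) (Units.mk0 e he0) = 1 := by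
      rw [← hxe, hx, mul_inv_cancel]
    obtain ⟨k, hk⟩ := sym_surj h2 (by omega) hnm M hM (Units.mk0 e he0)
    rcases hdk k _ hk with h5 | h5
    · left
      refine ⟨μ, k, Units.mk0 e he0, h1, hk, ?_⟩
      rw [h5, key μ _ h1, ← hμ]
      rfl
    · right
      refine ⟨μ, k, Units.mk0 e he0, h1, hk, ?_⟩
      rw [h5, hneg, mul_neg, key μ _ h1, ← hμ]
      show (-1 : Fˣ) * _ = _
      rw [neg_mul, one_mul]
      rfl

end cnt

end Cfsg.Agent.H41
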