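import Mathlib
import Cfsg.Agent.H41.InvolCentSp
import Cfsg.Agent.H41.InvolO
import Cfsg.Agent.OrthCount.Orders

set_option autoImplicit false
set_option linter.unusedSectionVars false
set_option linter.unusedVariables false

/-! Orders of centralizers of involutions of orthogonal groups of plus type in characteristic two. -/

namespace Cfsg.Agent.H41

open Matrix Cfsg.Agent.H43 Cfsg.Agent.Orth QuadraticMap

/-- the order of `O⁺_{2k}(q)` -/
def goO (q : ℕ) : ℕ → ℕ
  | 0 => 1
  | (m + 1) => 2 * (q ^ (m + 1) - 1) * q ^ m * spO q m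

theorem goO_succ {q : ℕ} (hq : 2 ≤ q) (m : ℕ) : goO q (m + 1) = goO q m * ((q ^ (m + 1) - 1) * (q ^ m + 1) * q ^ (2 * m)) := by
  cases m with
  | zero => simp [goO, spO, mul_comm]
  | succ m =>
    show 2 * (q ^ (m + 1 + 1) - 1) * q ^ (m + 1) * spO q (m + 1) = 2 * (q ^ (m + 1) - 1) * q ^ m * spO q m * ((q ^ (m + 1 + 1) - 1) * (q ^ (m + 1) + 1) * q ^ (2 * (m + 1)))
    rw [spO_succ]
    have h1 : q ^ (2 * (m + 1)) - 1 = (q ^ (m + 1) - 1) * (q ^ (m + 1) + 1) := by
      have h2 : 1 ≤ q ^ (m + 1) := Nat.one_le_pow _ _ (by omega)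
      obtain ⟨c, hc⟩ := Nat.exists_eq_add_of_le h2
      rw [pow_mul', hc, Nat.add_sub_cancel_left]
      have : (1 + c) ^ 2 = c * (1 + c + 1) + 1 := by ring
      rw [this, Nat.add_sub_cancel]
    rw [h1]
    ring

def sfO (q m s : ℕ) : ℕ := ∏ k ∈ Finset.range s, (q ^ (m - k) - 1) * (q ^ (m - k - 1) + 1) * q ^ k

theorem o_frames {q : ℕ} (hq : 2 ≤ q) (d s : ℕ) : goO q (d + s) = sfO q (d + s) s * q ^ (2 * d * s + s * (s - 1) / 2) * goO q d := by
  induction s with
  | zero => simp [sfO]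
  | succ s ih =>
    rw [← add_assoc, goO_succ hq, ih]
    unfold sfO
    rw [Finset.prod_range_succ']
    have e1 : ∏ k ∈ Finset.range s, (q ^ (d + s + 1 - (k + 1)) - 1) * (q ^ (d + s + 1 - (k + 1) - 1) + 1) * q ^ (k + 1) =
        q ^ s * ∏ k ∈ Finset.range s, (q ^ (d + s - k) - 1) * (q ^ (d + s - k - 1) + 1) * q ^ k := by
      have e0 : ∏ _k ∈ Finset.range s, q = q ^ s := by rw [Finset.prod_const, Finset.card_range]
      rw [← e0, ← Finset.prod_mul_distrib]
      refine Finset.prod_congr rfl fun k hk => ?_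
      have hk' := Finset.mem_range.1 hk
      have h1 : d + s + 1 - (k + 1) = d + s - k := by omega
      rw [h1, pow_succ]
      ring
    rw [e1]
    simp only [Nat.sub_zero, pow_zero, mul_one, Nat.add_sub_cancel]
    have e2 : q ^ (2 * d * (s + 1) + (s + 1) * s / 2) * q ^ s = q ^ (2 * d * s + s * (s - 1) / 2) * q ^ (2 * (d + s)) := by
      rw [← pow_add, ← pow_add]
      congr 1
      have h2 : (s + 1) * s / 2 = s * (s - 1) / 2 + s := by
        cases s with
        | zero => rfl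
        | succ s =>
          have : (s + 1 + 1) * (s + 1) = (s + 1) * (s + 1 - 1) + (s + 1) * 2 := by
            rw [Nat.add_sub_cancel]; ring
          rw [this, Nat.add_mul_div_right _ _ (by norm_num)]
      rw [h2]
      ring
    calc _ = (∏ k ∈ Finset.range s, (q ^ (d + s - k) - 1) * (q ^ (d + s - k - 1) + 1) * q ^ k) * (q ^ (2 * d * s + s * (s - 1) / 2) * q ^ (2 * (d + s))) * (q ^ (d + s + 1) - 1) * (q ^ (d + s) + 1) * goO q d := by ring
      _ = _ := by rw [← e2]; ring

section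
variable {F : Type*} [Field F] [Fintype F] [CharP F 2] {m : ℕ}

theorem card_OGrp_plus : Nat.card (OGrp (qfPlus m F)) = goO (Fintype.card F) m := by
  rw [← Nat.card_congr (bridge (qfPlus m F)).toEquiv]
  cases m with
  | zero =>
    rw [goO, Nat.card_eq_one_iff_unique]
    refine ⟨⟨fun a b => ?_⟩, ⟨1⟩⟩
    apply Subtype.ext
    apply Units.ext
    exact Subsingleton.elim _ _
  | succ m =>
    have h := Cfsg.Agent.OrthCount.order_plus (F := F) (m + 1) (by omega)
    rw [Nat.card_eq_fintype_card (α := F)] at h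
    refine h.trans ?_
    rw [goO, spO, Nat.add_sub_cancel]
    have : Fintype.card F ^ ((m + 1) * m) = Fintype.card F ^ (m ^ 2) * Fintype.card F ^ m := by rw [← pow_add]; congr 1; ring
    rw [this]
    ring

theorem N_zero : Fintype.card F * {v : Fin m ⊕ Fin m → F | qfPlus m F v = 0}.ncard + Fintype.card F ^ m = Fintype.card F ^ (2 * m) + Fintype.card F ^ (m + 1) := by
  have h := Cfsg.Agent.OrthCount.zeros_plus (F := F) m
  rw [Nat.card_eq_fintype_card (α := F)] at h
  exact h

theorem N_one : Fintype.card F * {v : Fin m ⊕ Fin m → F | qfPlus m F v = 1}.ncard + Fintype.card F ^ m = Fintype.card F ^ (2 * m) := by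
  classical
  have hsum : Nat.card (Fin m ⊕ Fin m → F) = ∑ c : F, {v : Fin m ⊕ Fin m → F | qfPlus m F v = c}.ncard := by
    rw [← Nat.card_congr (Equiv.sigmaFiberEquiv (fun v : Fin m ⊕ Fin m → F => qfPlus m F v)), Nat.card_sigma]
    rfl
  have hc : ∀ c : F, c ≠ 0 → {v : Fin m ⊕ Fin m → F | qfPlus m F v = c}.ncard = {v : Fin m ⊕ Fin m → F | qfPlus m F v = 1}.ncard := by
    intro c hc
    obtain ⟨b, hb⟩ := hsq_of c
    have hb0 : b ≠ 0 := by rintro rfl; rw [mul_zero] at hb; exact hc hb.symm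
    have h1 : {v : Fin m ⊕ Fin m → F | qfPlus m F v = c} = (fun v => b • v) '' {v : Fin m ⊕ Fin m → F | qfPlus m F v = 1} := by
      ext v
      constructor
      · intro hv
        refine ⟨b⁻¹ • v, ?_, by show b • b⁻¹ • v = v; rw [smul_smul, mul_inv_cancel₀ hb0, one_smul]⟩
        show qfPlus m F (b⁻¹ • v) = 1
        have hv' : qfPlus m F v = c := hv
        rw [QuadraticMap.map_smul, hv', ← hb, smul_eq_mul]
        field_simp
      · rintro ⟨w, hw, rfl⟩
        show qfPlus m F (b • w) = c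
        have hw' : qfPlus m F w = 1 := hw
        rw [QuadraticMap.map_smul, hw', smul_eq_mul, mul_one, hb]
    rw [h1]
    exact Set.ncard_image_of_injective _ (smul_right_injective _ hb0)
  rw [← Finset.add_sum_erase Finset.univ _ (Finset.mem_univ (0 : F)), Finset.sum_congr rfl (fun c hc' => hc c (Finset.mem_erase.1 hc').1),
    Finset.sum_const, Finset.card_erase_of_mem (Finset.mem_univ _), Finset.card_univ, smul_eq_mul, Nat.card_fun, Nat.card_sum, Nat.card_eq_fintype_card (α := F), Nat.card_eq_fintype_card (α := Fin m), Fintype.card_fin] at hsum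
  have h0 := N_zero (F := F) (m := m)
  obtain ⟨q, hq⟩ : ∃ q, Fintype.card F = q := ⟨_, rfl⟩
  have hq1 : 1 < q := hq ▸ Fintype.one_lt_card
  rw [hq] at hsum h0 ⊢
  obtain ⟨p, rfl⟩ : ∃ p, q = p + 1 := ⟨q - 1, by omega⟩
  rw [Nat.add_sub_cancel] at hsum
  have hp : 0 < p := by omega
  have e1 : (p + 1) ^ (m + m) = (p + 1) ^ (2 * m) := by rw [two_mul]
  have e2 : (p + 1) ^ (m + 1) = (p + 1) ^ m + p * (p + 1) ^ m := by ring
  rw [e1] at hsum
  rw [e2] at h0
  apply Nat.eq_of_mul_eq_mul_left hp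
  generalize {v : Fin m ⊕ Fin m → F | qfPlus m F v = 0}.ncard = A at *
  generalize {v : Fin m ⊕ Fin m → F | qfPlus m F v = 1}.ncard = B at *
  generalize (p + 1) ^ m = X at *
  generalize (p + 1) ^ (2 * m) = Y at *
  have h3 : (p + 1) * A = Y + p * X := by omega
  have h4 : (p + 1) * Y = (p + 1) * A + (p + 1) * (p * B) := by rw [hsum]; ring
  rw [h3] at h4
  nlinarith

theorem PQ_orth {s : ℕ} {d : ℕ → F} {r : Fin s → (Fin m ⊕ Fin m → F)} (hr : PQ (qfPlus m F) d s r) (i j : Fin s) :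
    polar (qfPlus m F) (r i) (r j) = 0 := by
  by_cases hij : i = j
  · rw [hij, polar_self]
    rw [show (2 : ℕ) • (qfPlus m F) (r j) = (qfPlus m F) (r j) + (qfPlus m F) (r j) from two_nsmul _]
    exact CharTwo.add_self_eq_zero _
  · exact hr.2.1 i j hij

theorem card_fix_PQ {s : ℕ} {d : ℕ → F} {r : Fin s → (Fin m ⊕ Fin m → F)} (hr : PQ (qfPlus m F) d s r) :
    goO (Fintype.card F) m = Nat.card {r : Fin s → (Fin m ⊕ Fin m → F) // PQ (qfPlus m F) d s r} * Nat.card (fixSet (OGrp (qfPlus m F)) r) := by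
  rw [← card_OGrp_plus]
  apply card_orbit_fam (OGrp (qfPlus m F)) r {r | PQ (qfPlus m F) d s r}
  · intro g hg
    refine ⟨hr.1.map' (g : (Fin m ⊕ Fin m → F) →ₗ[F] (Fin m ⊕ Fin m → F)) (LinearEquiv.ker g), fun i j hij => ?_, fun i => ?_⟩
    · have := O_isom g hg (r i) (r j)
      rw [pbil, pbil] at this
      show polar (qfPlus m F) (g (r i)) (g (r j)) = 0
      rw [this, hr.2.1 i j hij]
    · show qfPlus m F (g (r i)) = d i
      have : qfPlus m F (g (r i)) = qfPlus m F (r i) := hg (r i)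
      rw [this, hr.2.2]
  · intro y hy
    obtain ⟨g, hg⟩ := witt_family (qfPlus_nondegenerate m F) s r y hr.1 hy.1 (fun i j => by
      rw [PQ_orth hr, PQ_orth hy]) (fun i => by rw [hr.2.2, hy.2.2])
    exact ⟨g, g.2, hg⟩

theorem card_PQ_zero {s : ℕ} (hs : s ≤ m) : Nat.card {r : Fin s → (Fin m ⊕ Fin m → F) // PQ (qfPlus m F) (fun _ => 0) s r} = sfO (Fintype.card F) m s := by
  classical
  have hfr : Module.finrank F (Fin m ⊕ Fin m → F) = 2 * m := by
    rw [Module.finrank_fintype_fun_eq_card, Fintype.card_sum, Fintype.card_fin]; ring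
  apply card_PQ (nd_of_nondegenerate (qfPlus_nondegenerate m F)) hfr (fun _ => 0) s (fun _ _ => rfl)
  intro k hk
  rw [Nat.card_eq_fintype_card, if_pos rfl]
  have h0 := N_zero (F := F) (m := m)
  obtain ⟨q, hq⟩ : ∃ q, Fintype.card F = q := ⟨_, rfl⟩
  have hq1 : 1 < q := hq ▸ Fintype.one_lt_card
  rw [hq] at h0 ⊢
  generalize {v : Fin m ⊕ Fin m → F | qfPlus m F v = 0}.ncard = A at *
  obtain ⟨e, rfl⟩ : ∃ e, m = e + k + 1 := ⟨m - k - 1, by omega⟩
  have e1 : e + k + 1 - k = e + 1 := by omega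
  have e2 : 2 * (e + k + 1) - k = (e + 1) + (e + 1) + k := by omega
  rw [e1, Nat.add_sub_cancel, e2]
  obtain ⟨c, hc⟩ := Nat.exists_eq_add_of_le (Nat.one_le_pow (e + 1) q (by omega))
  have e3 : q ^ (e + 1 + (e + 1) + k) = (1 + c) * (1 + c) * q ^ k := by rw [pow_add, pow_add, hc]
  have e4 : q ^ (e + k + 1) = (1 + c) * q ^ k := by rw [show e + k + 1 = (e + 1) + k by ring, pow_add, hc]
  have e5 : q ^ (e + k + 1 + 1) = q * ((1 + c) * q ^ k) := by rw [pow_succ, e4]; ring
  have e6 : q * q ^ e = 1 + c := by rw [← hc]; ring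
  rw [hc, Nat.add_sub_cancel_left, e3]
  rw [e4, e5] at h0
  have e7 : q * (c * (q ^ e + 1) * q ^ k + q ^ k) = c * (q * q ^ e) * q ^ k + c * q * q ^ k + q * q ^ k := by ring
  rw [e7, e6]
  have e8 : c * (1 + c) * q ^ k + c * q * q ^ k + q * q ^ k + (1 + c) * q ^ k = (1 + c) * (1 + c) * q ^ k + q * ((1 + c) * q ^ k) := by ring
  omega

theorem card_PQ_one {u : ℕ} (hs : u + 1 ≤ m) : Nat.card {r : Fin (u + 1) → (Fin m ⊕ Fin m → F) // PQ (qfPlus m F) (fun i => if i = u then 1 else 0) (u + 1) r} =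
    sfO (Fintype.card F) m u * (Fintype.card F ^ (m - 1) * (Fintype.card F ^ (m - u) - 1)) := by
  classical
  have hfr : Module.finrank F (Fin m ⊕ Fin m → F) = 2 * m := by
    rw [Module.finrank_fintype_fun_eq_card, Fintype.card_sum, Fintype.card_fin]; ring
  rw [card_PQ (nd_of_nondegenerate (qfPlus_nondegenerate m F)) hfr (fun i => if i = u then 1 else 0) (u + 1) (fun k hk => if_neg (by omega))
    (fun k => if k = u then (Fintype.card F ^ (m - 1) * (Fintype.card F ^ (m - u) - 1)) else (Fintype.card F ^ (m - k) - 1) * (Fintype.card F ^ (m - k - 1) + 1) * Fintype.card F ^ k),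
    Finset.prod_range_succ, if_pos rfl]
  · congr 1
    refine Finset.prod_congr rfl fun k hk => ?_
    rw [if_neg (by have := Finset.mem_range.1 hk; omega)]
  · intro k hk
    rw [Nat.card_eq_fintype_card]
    have h0 := N_zero (F := F) (m := m)
    have h1 := N_one (F := F) (m := m)
    by_cases hku : k = u
    · subst hku
      simp only [if_true, one_ne_zero, if_false, add_zero]
      obtain ⟨q, hq⟩ : ∃ q, Fintype.card F = q := ⟨_, rfl⟩
      have hq1 : 1 < q := hq ▸ Fintype.one_lt_card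
      rw [hq] at h1 ⊢
      generalize {v : Fin m ⊕ Fin m → F | qfPlus m F v = 1}.ncard = A at *
      obtain ⟨e, rfl⟩ : ∃ e, m = e + k + 1 := ⟨m - k - 1, by omega⟩
      have e1 : e + k + 1 - k = e + 1 := by omega
      have e2 : 2 * (e + k + 1) - k = (e + 1) + (e + k + 1) := by omega
      rw [e1, Nat.add_sub_cancel, e2]
      obtain ⟨c, hc⟩ := Nat.exists_eq_add_of_le (Nat.one_le_pow (e + 1) q (by omega))
      have e3 : q ^ (e + 1 + (e + k + 1)) = (1 + c) * q ^ (e + k + 1) := by rw [pow_add, hc]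
      rw [hc, Nat.add_sub_cancel_left, e3]
      have e4 : q * (q ^ (e + k) * c) = c * q ^ (e + k + 1) := by ring
      have e5 : (1 + c) * q ^ (e + k + 1) = q ^ (e + k + 1) + c * q ^ (e + k + 1) := by ring
      omega
    · simp only [if_neg hku, if_true]
      obtain ⟨q, hq⟩ : ∃ q, Fintype.card F = q := ⟨_, rfl⟩
      have hq1 : 1 < q := hq ▸ Fintype.one_lt_card
      rw [hq] at h0 ⊢
      generalize {v : Fin m ⊕ Fin m → F | qfPlus m F v = 0}.ncard = A at *
      obtain ⟨e, rfl⟩ : ∃ e, m = e + k + 1 := ⟨m - k - 1, by omega⟩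
      have e1 : e + k + 1 - k = e + 1 := by omega
      have e2 : 2 * (e + k + 1) - k = (e + 1) + (e + 1) + k := by omega
      rw [e1, Nat.add_sub_cancel, e2]
      obtain ⟨c, hc⟩ := Nat.exists_eq_add_of_le (Nat.one_le_pow (e + 1) q (by omega))
      have e3 : q ^ (e + 1 + (e + 1) + k) = (1 + c) * (1 + c) * q ^ k := by rw [pow_add, pow_add, hc]
      have e4 : q ^ (e + k + 1) = (1 + c) * q ^ k := by rw [show e + k + 1 = (e + 1) + k by ring, pow_add, hc]
      have e5 : q ^ (e + k + 1 + 1) = q * ((1 + c) * q ^ k) := by rw [pow_succ, e4]; ring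
      have e6 : q * q ^ e = 1 + c := by rw [← hc]; ring
      rw [hc, Nat.add_sub_cancel_left, e3]
      rw [e4, e5] at h0
      have e7 : q * (c * (q ^ e + 1) * q ^ k + q ^ k) = c * (q * q ^ e) * q ^ k + c * q * q ^ k + q * q ^ k := by ring
      rw [e7, e6]
      have e8 : c * (1 + c) * q ^ k + c * q * q ^ k + q * q ^ k + (1 + c) * q ^ k = (1 + c) * (1 + c) * q ^ k + q * ((1 + c) * q ^ k) := by ring
      omega

theorem sfO_pos {q m s : ℕ} (hq : 2 ≤ q) (hs : s ≤ m) : 0 < sfO q m s := by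
  apply Finset.prod_pos
  intro k hk
  have hk' := Finset.mem_range.1 hk
  have h1 : 1 < q ^ (m - k) := Nat.one_lt_pow (by omega) (by omega)
  have h2 : 0 < q ^ k := pow_pos (by omega) k
  exact Nat.mul_pos (Nat.mul_pos (by omega) (by omega)) h2

theorem fixSet_reindex {V : Type*} [AddCommGroup V] [Module F V] (G : Subgroup (V ≃ₗ[F] V)) {ι κ : Type*} (e : κ ≃ ι) (r : ι → V) :
    fixSet G r = fixSet G (fun i => r (e i)) := by
  ext g
  constructor
  · rintro ⟨h1, h2⟩
    exact ⟨h1, fun i => h2 _⟩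
  · rintro ⟨h1, h2⟩
    refine ⟨h1, fun i => ?_⟩
    have := h2 (e.symm i)
    simpa using this

theorem card_idata {V : Type*} [AddCommGroup V] [Module F V] [FiniteDimensional F V] {f : LinearMap.BilinForm F V} {t : V ≃ₗ[F] V} {ι : Type} [Fintype ι] {x : ι → V} {β : ι → ι → F}
    (hx : IData f t x β) : Fintype.card ι = Module.finrank F (LinearMap.range (nn t)) := by
  have h1 : LinearMap.range (nn t) = Submodule.span F (Set.range fun i => nn t (x i)) := by
    apply le_antisymm
    · rintro _ ⟨v, rfl⟩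
      exact hx.span v
    · rw [Submodule.span_le]
      rintro _ ⟨i, rfl⟩
      exact ⟨x i, rfl⟩
  rw [h1, finrank_span_eq_card hx.li]

theorem finrank_plus : Module.finrank F (Fin m ⊕ Fin m → F) = 2 * m := by
  rw [Module.finrank_fintype_fun_eq_card, Fintype.card_sum, Fintype.card_fin]; ring

theorem o_alt {s : ℕ} {t : (Fin m ⊕ Fin m → F) ≃ₗ[F] (Fin m ⊕ Fin m → F)} (htG : t ∈ OGrp (qfPlus m F)) (ht : ∀ v, t (t v) = v)
    (hs : Module.finrank F (LinearMap.range (nn t)) = s) (ha : ∀ v, polarBilin (qfPlus m F) v (nn t v) = 0) :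
    Nat.card (cen (OGrp (qfPlus m F)) t) = spO (Fintype.card F) (s / 2) *
      (Fintype.card F ^ (2 * (m - s) * s + s * (s - 1) / 2) * goO (Fintype.card F) (m - s)) := by
  classical
  have hq : 2 ≤ Fintype.card F := Fintype.one_lt_card
  have hQ := qfPlus_nondegenerate m F
  have hnd := nd_of_nondegenerate hQ
  obtain ⟨k, hk, x, hx⟩ := exists_data_alt (pB_alt (qfPlus m F)) hnd ht (O_isom t htG) ha
  rw [← J_eq_comm] at hx
  rw [card_cen (pB_alt _) hnd (fun g hg => O_isom g hg) (O_witt hQ) htG ht (Matrix.isUnit_det_J (Fin k) F) hx, card_Y_J, show s / 2 = k by omega]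
  congr 1
  have hsm : s ≤ m := by
    rw [← hs]
    exact rank_le hnd ht finrank_plus
  have hc := card_idata hx
  rw [hs] at hc
  let e : Fin s ≃ Fin k ⊕ Fin k := (Fintype.equivFinOfCardEq hc).symm
  rw [fixSet_reindex _ e]
  have hP : PQ (qfPlus m F) (fun _ => 0) s (fun i => nn t (x (e i))) := by
    refine ⟨hx.li.comp _ e.injective, fun i j _ => ?_, fun i => ?_⟩
    · rw [← pbil]; exact f_nn_nn' t ht (O_isom t htG) _ _
    · rw [Q_nn htG]; exact ha _
  have h1 := card_fix_PQ hP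
  rw [card_PQ_zero hsm] at h1
  have h2 := o_frames hq (m - s) s
  rw [Nat.sub_add_cancel hsm, h1, mul_assoc] at h2
  exact Nat.eq_of_mul_eq_mul_left (sfO_pos hq hsm) h2

theorem o_nonalt {u : ℕ} {t : (Fin m ⊕ Fin m → F) ≃ₗ[F] (Fin m ⊕ Fin m → F)} (htG : t ∈ OGrp (qfPlus m F)) (ht : ∀ v, t (t v) = v)
    (hs : Module.finrank F (LinearMap.range (nn t)) = u + 1) (hna : ∃ v, polarBilin (qfPlus m F) v (nn t v) ≠ 0) :
    Nat.card (cen (OGrp (qfPlus m F)) t) = orN (Fintype.card F) (u + 1) *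
      (2 * Fintype.card F ^ ((2 * (m - (u + 1)) + 1) * u + u * (u - 1) / 2) * spO (Fintype.card F) (m - (u + 1))) := by
  classical
  have hq : 2 ≤ Fintype.card F := Fintype.one_lt_card
  have hQ := qfPlus_nondegenerate m F
  have hnd := nd_of_nondegenerate hQ
  obtain ⟨x, hx⟩ := exists_data_nonalt hsq_of (pB_alt (qfPlus m F)) hnd ht (O_isom t htG) hna hs
  rw [← one_eq_refl] at hx
  rw [card_cen (pB_alt _) hnd (fun g hg => O_isom g hg) (O_witt hQ) htG ht (by rw [Matrix.det_one]; exact isUnit_one) hx, card_Y_one (by omega)]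
  congr 1
  have hsm : u + 1 ≤ m := by
    rw [← hs]
    exact rank_le hnd ht finrank_plus
  obtain ⟨r, hr⟩ : ∃ r : Fin (u + 1) → (Fin m ⊕ Fin m → F), r = fun i => nn t (x i) := ⟨_, rfl⟩
  obtain ⟨r', hr'⟩ : ∃ r' : Fin (u + 1) → (Fin m ⊕ Fin m → F), r' = fun i => if i = Fin.last u then r (Fin.last u) else r i + r (Fin.last u) := ⟨_, rfl⟩
  have horth : ∀ i j, polar (qfPlus m F) (r i) (r j) = 0 := by
    intro i j
    rw [hr, ← pbil]; exact f_nn_nn' t ht (O_isom t htG) _ _
  have hQr : ∀ i, qfPlus m F (r i) = 1 := by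
    intro i
    rw [hr]
    simp only
    rw [Q_nn htG, hx.gram, Matrix.one_apply_eq]
  have hfix : fixSet (OGrp (qfPlus m F)) (fun i => nn t (x i)) = fixSet (OGrp (qfPlus m F)) r' := by
    rw [← hr]
    ext g
    constructor
    · rintro ⟨h1, h2⟩
      refine ⟨h1, fun i => ?_⟩
      rw [hr']
      simp only
      split_ifs
      · exact h2 _
      · rw [map_add, h2, h2]
    · rintro ⟨h1, h2⟩
      have h3 : g (r (Fin.last u)) = r (Fin.last u) := by
        have := h2 (Fin.last u)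
        rw [hr'] at this
        simpa using this
      refine ⟨h1, fun i => ?_⟩
      by_cases hi : i = Fin.last u
      · rw [hi, h3]
      · have := h2 i
        rw [hr'] at this
        simp only [if_neg hi, map_add, h3] at this
        exact add_right_cancel this
  rw [hfix]
  have hP : PQ (qfPlus m F) (fun i => if i = u then 1 else 0) (u + 1) r' := by
    refine ⟨?_, fun i j _ => ?_, fun i => ?_⟩
    · have hli : LinearIndependent F r := by rw [hr]; exact hx.li
      rw [Fintype.linearIndependent_iff] at hli ⊢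
      intro c hc
      rw [Fin.sum_univ_castSucc] at hc
      have h1 : ∀ i : Fin u, r' i.castSucc = r i.castSucc + r (Fin.last u) := by
        intro i
        rw [hr']
        simp only
        rw [if_neg (Fin.castSucc_lt_last i).ne]
      have h2 : r' (Fin.last u) = r (Fin.last u) := by
        rw [hr']
        simp
      simp only [h1, h2, smul_add, Finset.sum_add_distrib, ← Finset.sum_smul] at hc
      rw [add_assoc, ← add_smul] at hc
      have h3 := hli (Fin.snoc (fun i => c i.castSucc) (∑ i : Fin u, c i.castSucc + c (Fin.last u))) (by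
        rw [Fin.sum_univ_castSucc]
        simp only [Fin.snoc_castSucc, Fin.snoc_last]
        exact hc)
      have h4 : ∀ i : Fin u, c i.castSucc = 0 := by
        intro i
        have := h3 i.castSucc
        rwa [Fin.snoc_castSucc] at this
      intro i
      refine Fin.lastCases ?_ (fun i => ?_) i
      · have := h3 (Fin.last u)
        rw [Fin.snoc_last] at this
        simpa [h4] using this
      · exact h4 i
    · rw [hr']
      simp only
      split_ifs <;> simp only [polar_add_left, polar_add_right, horth, add_zero]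
    · rw [hr']
      simp only
      by_cases hi : i = Fin.last u
      · rw [if_pos hi, hQr, hi, Fin.val_last, if_pos rfl]
      · have hi' : (i : ℕ) ≠ u := fun h => hi (Fin.ext h)
        rw [if_neg hi, if_neg hi', qadd, hQr, hQr, horth, add_zero]
        exact CharTwo.add_self_eq_zero _
  have h1 := card_fix_PQ hP
  rw [card_PQ_one hsm] at h1
  obtain ⟨d, rfl⟩ := Nat.exists_eq_add_of_le' hsm
  have h2 := o_frames hq (d + 1) u
  rw [show d + 1 + u = d + (u + 1) by ring, h1, mul_assoc, mul_assoc, mul_assoc (sfO (Fintype.card F) (d + (u + 1)) u) (Fintype.card F ^ (2 * (d + 1) * u + u * (u - 1) / 2))] at h2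
  have h3 := Nat.eq_of_mul_eq_mul_left (sfO_pos hq (by omega)) h2
  rw [Nat.add_sub_cancel]
  have e1 : d + (u + 1) - u = d + 1 := by omega
  have e2 : d + (u + 1) - 1 = d + u := by omega
  rw [e1, e2, goO] at h3
  have h4 : 1 < Fintype.card F ^ (d + 1) := Nat.one_lt_pow (by omega) hq
  have h5 : 0 < Fintype.card F ^ (d + u) * (Fintype.card F ^ (d + 1) - 1) := Nat.mul_pos (pow_pos (by omega) _) (by omega)
  apply Nat.eq_of_mul_eq_mul_left h5
  rw [mul_assoc (Fintype.card F ^ (d + u)), h3]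
  have e3 : Fintype.card F ^ (2 * (d + 1) * u + u * (u - 1) / 2) * Fintype.card F ^ d = Fintype.card F ^ (d + u) * Fintype.card F ^ ((2 * d + 1) * u + u * (u - 1) / 2) := by
    rw [← pow_add, ← pow_add]
    congr 1
    ring
  calc _ = (Fintype.card F ^ (2 * (d + 1) * u + u * (u - 1) / 2) * Fintype.card F ^ d) * (2 * (Fintype.card F ^ (d + 1) - 1) * spO (Fintype.card F) d) := by ring
    _ = _ := by rw [e3]; ring

end

section omega
variable {F : Type*} [Field F] [Fintype F] [CharP F 2] {ι : Type} [Fintype ι] [DecidableEq ι] (Q : QuadraticForm F (ι → F))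

theorem invol_bridge2 (g : ↥(Cfsg.isometryGroup F ⇑Q)) (hg : g ^ 2 = 1) (v : ι → F) :
    ((bridge Q g : OGrp Q) : (ι → F) ≃ₗ[F] (ι → F)) (((bridge Q g : OGrp Q) : (ι → F) ≃ₗ[F] (ι → F)) v) = v := by
  have h2 : bridge Q g * bridge Q g = 1 := by rw [← _root_.map_mul, ← pow_two, hg, map_one]
  exact congrArg (fun z : OGrp Q => (z : (ι → F) ≃ₗ[F] (ι → F)) v) h2

theorem card_cen_group (x : OGrp Q) : Nat.card ↥(Subgroup.centralizer ({x} : Set (OGrp Q))) = Nat.card (cen (OGrp Q) (x : (ι → F) ≃ₗ[F] (ι → F))) :=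
  card_cent_of_inj (OGrp Q).subtype (Subgroup.subtype_injective _) (OGrp Q) (fun h => ⟨fun hh => ⟨⟨h, hh⟩, rfl⟩, fun ⟨g, hg⟩ => hg ▸ g.2⟩) x

theorem card_sub_cent {G H : Type*} [Group G] [Group H] (e : G ≃* H) (N : Subgroup G) (K : Subgroup H) (hNK : ∀ g, g ∈ N ↔ e g ∈ K) (x : G) :
    Nat.card {g : ↥N // (g : G) * x = x * (g : G)} = Nat.card ↥(K.subgroupOf (Subgroup.centralizer ({e x} : Set H))) := by
  have hmem : ∀ g : G, g * x = x * g → e g ∈ Subgroup.centralizer ({e x} : Set H) := by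
    intro g hg
    rw [Subgroup.mem_centralizer_singleton_iff, ← _root_.map_mul, ← _root_.map_mul, hg]
  apply Nat.card_eq_of_bijective (fun g => (⟨⟨e g.1.1, hmem _ g.2⟩, (hNK g.1.1).1 g.1.2⟩ :
    ↥(K.subgroupOf (Subgroup.centralizer ({e x} : Set H)))))
  constructor
  · intro a b h
    have h1 := congrArg (fun z : ↥(K.subgroupOf (Subgroup.centralizer ({e x} : Set H))) => z.1.1) h
    exact Subtype.ext (Subtype.ext (e.injective h1))
  · rintro ⟨⟨g, hg⟩, hg2⟩
    obtain ⟨g, rfl⟩ := e.surjective g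
    refine ⟨⟨⟨g, (hNK g).2 hg2⟩, ?_⟩, rfl⟩
    rw [Subgroup.mem_centralizer_singleton_iff, ← _root_.map_mul, ← _root_.map_mul] at hg
    exact e.injective hg

theorem card_omega_cent (x : ↥(Cfsg.isometryGroup F ⇑Q)) :
    Nat.card {g : ↥(Cfsg.Omega F ⇑Q) // (g : ↥(Cfsg.isometryGroup F ⇑Q)) * x = x * (g : ↥(Cfsg.isometryGroup F ⇑Q))} =
      Nat.card ↥((commutator (OGrp Q)).subgroupOf (Subgroup.centralizer ({bridge Q x} : Set (OGrp Q)))) :=
  card_sub_cent (bridge Q) (Cfsg.Omega F ⇑Q) (commutator (OGrp Q)) (fun g => mem_Omega_iff Q g) x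

theorem card_omega_all (x : ↥(Cfsg.isometryGroup F ⇑Q))
    (h : ∀ g : OGrp Q, g * bridge Q x = bridge Q x * g → g ∈ commutator (OGrp Q)) :
    Nat.card {g : ↥(Cfsg.Omega F ⇑Q) // (g : ↥(Cfsg.isometryGroup F ⇑Q)) * x = x * (g : ↥(Cfsg.isometryGroup F ⇑Q))} =
      Nat.card (cen (OGrp Q) ((bridge Q x : OGrp Q) : (ι → F) ≃ₗ[F] (ι → F))) := by
  rw [card_omega_cent, ← card_cen_group]
  have h1 : (commutator (OGrp Q)).subgroupOf (Subgroup.centralizer ({bridge Q x} : Set (OGrp Q))) = ⊤ := by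
    rw [Subgroup.subgroupOf_eq_top]
    intro g hg
    exact h g (Subgroup.mem_centralizer_singleton_iff.1 hg)
  rw [h1]
  exact Nat.card_congr Subgroup.topEquiv.toEquiv

theorem card_omega_half (hQ : (polarBilin Q).Nondegenerate) (hR : RGrp Q = ⊤) (x : ↥(Cfsg.isometryGroup F ⇑Q)) (c : OGrp Q) (hc : c * bridge Q x = bridge Q x * c) (hc' : c ∉ commutator (OGrp Q)) :
    2 * Nat.card {g : ↥(Cfsg.Omega F ⇑Q) // (g : ↥(Cfsg.isometryGroup F ⇑Q)) * x = x * (g : ↥(Cfsg.isometryGroup F ⇑Q))} =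
      Nat.card (cen (OGrp Q) ((bridge Q x : OGrp Q) : (ι → F) ≃ₗ[F] (ι → F))) := by
  rw [card_omega_cent, ← card_cen_group]
  have h1 : ((commutator (OGrp Q)).subgroupOf (Subgroup.centralizer ({bridge Q x} : Set (OGrp Q)))).index = 2 := by
    rw [Subgroup.index_eq_two_iff]
    refine ⟨⟨c, Subgroup.mem_centralizer_singleton_iff.2 hc⟩, fun b => ?_⟩
    rw [Subgroup.mem_subgroupOf, Subgroup.mem_subgroupOf]
    by_cases hb : (b : OGrp Q) ∈ commutator (OGrp Q)
    · right
      refine ⟨hb, fun h => hc' ?_⟩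
      have h2 := Subgroup.mul_mem _ (Subgroup.inv_mem _ hb) h
      rw [Subgroup.coe_mul, inv_mul_cancel_left] at h2
      exact h2
    · left
      exact ⟨not_mem_mul hQ hR _ _ hb hc', hb⟩
  rw [← h1, mul_comm, Subgroup.card_mul_index]

end omega

end Cfsg.Agent.H41
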