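import Mathlib

set_option autoImplicit false
set_option linter.unusedSectionVars false

/-! Number of rotation orbits on multiplicity functions of sum `n` on a group of prime order. -/

namespace Cfsg.Agent.H41

open Function

/-- multiplicity functions of sum `n`, not concentrated in one point -/
def MulFn (M : Type*) [Fintype M] (n : ℕ) : Type _ := {a : M → ℕ // (∑ x, a x = n) ∧ ∀ x, a x ≠ n}

section
variable {M : Type*} [Group M] [Fintype M] {n : ℕ}

instance : MulAction M (MulFn M n) where
  smul m a := ⟨fun x => a.1 (m⁻¹ * x), by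
    constructor
    · refine Eq.trans ?_ a.2.1
      exact Fintype.sum_equiv (Equiv.mulLeft m⁻¹) _ _ (fun x => rfl)
    · intro x; exact a.2.2 _⟩
  one_smul a := by
    apply Subtype.ext
    funext x
    show a.1 (1⁻¹ * x) = a.1 x
    rw [inv_one, one_mul]
  mul_smul m m' a := by
    apply Subtype.ext
    funext x
    show a.1 ((m * m')⁻¹ * x) = a.1 (m'⁻¹ * (m⁻¹ * x))
    rw [mul_inv_rev, mul_assoc]

theorem MulFn.smul_apply (m : M) (a : MulFn M n) (x : M) : (m • a).1 x = a.1 (m⁻¹ * x) := rfl

instance : Finite (MulFn M n) := by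
  have h1 : Finite {a : M → ℕ // ∑ x, a x = n} := by
    classical
    exact Finite.of_equiv _ (Sym.equivNatSumOfFintype M n)
  apply Finite.of_injective (fun a : MulFn M n => (⟨a.1, a.2.1⟩ : {a : M → ℕ // ∑ x, a x = n}))
  intro a b h
  exact Subtype.ext (congrArg (fun z : {a : M → ℕ // ∑ x, a x = n} => z.1) h)

theorem card_mulFn (hn : 1 ≤ n) : Nat.card (MulFn M n) + Fintype.card M = Nat.choose (n + Fintype.card M - 1) (Fintype.card M - 1) := by
  classical
  have h1 : Nat.card {a : M → ℕ // ∑ x, a x = n} = Nat.choose (n + Fintype.card M - 1) (Fintype.card M - 1) := by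
    rw [← Nat.card_congr (Sym.equivNatSumOfFintype M n), Nat.card_eq_fintype_card, Sym.card_sym_eq_choose]
    have hM : 0 < Fintype.card M := Fintype.card_pos
    rw [add_comm]
    apply Nat.choose_symm_of_eq_add
    omega
  rw [← h1]
  have h2 : Fintype.card M = Nat.card M := Nat.card_eq_fintype_card.symm
  rw [h2]
  have h3 : Finite {a : M → ℕ // ∑ x, a x = n} := Finite.of_equiv _ (Sym.equivNatSumOfFintype M n)
  rw [← Nat.card_sum]
  have hsing : ∀ x : M, ∑ y, (Pi.single x n : M → ℕ) y = n := by
    intro x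
    rw [Finset.sum_pi_single']
    simp
  refine Nat.card_eq_of_bijective (fun s => Sum.elim (fun a : MulFn M n => (⟨a.1, a.2.1⟩ : {a : M → ℕ // ∑ x, a x = n}))
    (fun x : M => ⟨Pi.single x n, hsing x⟩) s) ⟨?_, ?_⟩
  · rintro (a | x) (b | y) h
    · exact congrArg Sum.inl (Subtype.ext (congrArg (fun z : {a : M → ℕ // ∑ x, a x = n} => z.1) h))
    · exfalso
      have h4 : a.1 = Pi.single y n := congrArg (fun z : {a : M → ℕ // ∑ x, a x = n} => z.1) h
      exact a.2.2 y (by rw [h4, Pi.single_eq_same])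
    · exfalso
      have h4 : Pi.single x n = b.1 := congrArg (fun z : {a : M → ℕ // ∑ x, a x = n} => z.1) h
      exact b.2.2 x (by rw [← h4, Pi.single_eq_same])
    · have h4 : (Pi.single x n : M → ℕ) = Pi.single y n := congrArg (fun z : {a : M → ℕ // ∑ x, a x = n} => z.1) h
      have h5 := congrFun h4 x
      rw [Pi.single_eq_same, Pi.single_apply] at h5
      split_ifs at h5 with h6
      · rw [h6]
      · omega
  · rintro ⟨a, ha⟩
    by_cases h : ∃ x, a x = n
    · obtain ⟨x, hx⟩ := h
      refine ⟨Sum.inr x, ?_⟩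
      apply Subtype.ext
      funext y
      show (Pi.single x n : M → ℕ) y = a y
      rw [Pi.single_apply]
      split_ifs with hy
      · rw [hy, hx]
      · symm
        rw [← Finset.add_sum_erase _ _ (Finset.mem_univ x), hx] at ha
        have h0 : ∑ z ∈ Finset.univ.erase x, a z = 0 := by omega
        rw [Finset.sum_eq_zero_iff] at h0
        exact h0 y (Finset.mem_erase.mpr ⟨hy, Finset.mem_univ _⟩)
    · push Not at h
      exact ⟨Sum.inl ⟨a, ha, h⟩, rfl⟩

theorem card_fixedBy {r : ℕ} [Fact r.Prime] (hM : Fintype.card M = r) (hn : 1 ≤ n) (g : M) (hg : g ≠ 1) :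
    Nat.card (MulAction.fixedBy (MulFn M n) g) = if r ∣ n then 1 else 0 := by
  classical
  have hr : r.Prime := Fact.out
  have hgen : ∀ x : M, x ∈ Subgroup.zpowers g := fun x => mem_zpowers_of_prime_card (p := r) (by rw [Nat.card_eq_fintype_card, hM]) hg
  have hconst : ∀ a : MulFn M n, g • a = a → ∀ x, a.1 x = a.1 1 := by
    intro a ha x
    obtain ⟨k, hk⟩ := hgen x
    have h1 : g ^ k ∈ MulAction.stabilizer M a := Subgroup.zpow_mem _ (show g ∈ MulAction.stabilizer M a from ha) k
    have h2 : (g ^ k) • a = a := h1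
    have h3 : ((g ^ k) • a).1 x = a.1 x := by rw [h2]
    rw [MulFn.smul_apply] at h3
    simp only at hk
    rw [← h3, hk, inv_mul_cancel]
  have hsum : ∀ a : MulFn M n, g • a = a → r * a.1 1 = n := by
    intro a ha
    refine Eq.trans ?_ a.2.1
    rw [Finset.sum_congr rfl (fun x _ => hconst a ha x), Finset.sum_const, Finset.card_univ, hM, smul_eq_mul]
  split_ifs with h
  · obtain ⟨k, hk⟩ := h
    rw [Nat.card_eq_one_iff_unique]
    constructor
    · constructor
      rintro ⟨a, ha⟩ ⟨b, hb⟩
      apply Subtype.ext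
      apply Subtype.ext
      funext x
      have h1 := hsum a ha
      have h2 := hsum b hb
      rw [hconst a ha x, hconst b hb x]
      exact Nat.eq_of_mul_eq_mul_left hr.pos (h1.trans h2.symm)
    · refine ⟨⟨⟨fun _ => k, ?_, ?_⟩, ?_⟩⟩
      · rw [Finset.sum_const, Finset.card_univ, hM, smul_eq_mul, hk]
      · intro _ h
        rw [hk] at h hn
        have := hr.two_le
        have hk0 : k ≠ 0 := by rintro rfl; omega
        nlinarith [Nat.pos_of_ne_zero hk0]
      · apply Subtype.ext
        rfl
  · rw [Nat.card_eq_zero]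
    left
    constructor
    rintro ⟨a, ha⟩
    exact h ⟨_, (hsum a ha).symm⟩

theorem card_orbits {r : ℕ} [Fact r.Prime] (hM : Fintype.card M = r) (hn : 1 ≤ n) :
    Nat.card (Quotient (MulAction.orbitRel M (MulFn M n))) * r =
      Nat.card (MulFn M n) + (r - 1) * (if r ∣ n then 1 else 0) := by
  classical
  have h1 := Nat.card_congr (MulAction.sigmaFixedByEquivOrbitsProdGroup M (MulFn M n))
  rw [Nat.card_prod, Nat.card_sigma, Nat.card_eq_fintype_card (α := M), hM] at h1
  rw [← h1, ← Finset.add_sum_erase _ _ (Finset.mem_univ (1 : M))]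
  congr 1
  · apply Nat.card_congr
    rw [MulAction.fixedBy_one_eq_univ]
    exact Equiv.Set.univ _
  · rw [Finset.sum_congr rfl (fun g hg => card_fixedBy hM hn g (Finset.ne_of_mem_erase hg)), Finset.sum_const,
      Finset.card_erase_of_mem (Finset.mem_univ _), Finset.card_univ, hM, smul_eq_mul]

theorem final_count {r : ℕ} [Fact r.Prime] (hM : Fintype.card M = r) (hn : 1 ≤ n) :
    Nat.card (Quotient (MulAction.orbitRel M (MulFn M n))) + (r - 1) * (if r ∣ n then 1 else 0) =
      (Nat.choose (n + r - 1) (r - 1) - r - (if r ∣ n then 1 else 0)) / r + r * (if r ∣ n then 1 else 0) := by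
  have hr : r.Prime := Fact.out
  have h1 := card_orbits (M := M) hM hn
  have h2 := card_mulFn (M := M) hn
  rw [hM] at h2
  obtain ⟨N, hN⟩ : ∃ N, N = Nat.card (Quotient (MulAction.orbitRel M (MulFn M n))) := ⟨_, rfl⟩
  obtain ⟨T, hT⟩ : ∃ T, T = Nat.card (MulFn M n) := ⟨_, rfl⟩
  rw [← hN, ← hT] at h1
  rw [← hT] at h2
  rw [← hN, ← h2]
  have hr1 := hr.two_le
  split_ifs at h1 ⊢ with h
  · -- N * r = T + (r-1), T + r - r - 1 = T - 1 = N r - r
    have h3 : T + r - r - 1 = (N - 1) * r := by
      rw [Nat.sub_mul, one_mul]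
      omega
    have hN0 : N ≠ 0 := by
      rintro rfl
      omega
    rw [h3, Nat.mul_div_cancel _ hr.pos]
    omega
  · have h3 : T + r - r - 0 = N * r := by omega
    rw [h3, Nat.mul_div_cancel _ hr.pos, mul_zero, mul_zero]

end

end Cfsg.Agent.H41
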