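import Mathlib
import Cfsg.Agent.H41.SemisMat

set_option autoImplicit false
set_option linter.unusedSectionVars false

/-! Characteristic polynomials of matrices `A` with `A ^ r` scalar. -/

namespace Cfsg.Agent.H41

open Matrix Polynomial

theorem irr_dvd_of_aeval {F : Type*} [Field F] {ι : Type*} [Fintype ι] [DecidableEq ι] (A : Matrix ι ι F) (p h : F[X])
    (hp : aeval A p = 0) (hirr : Irreducible h) (hdvd : h ∣ A.charpoly) : h ∣ p := by
  obtain ⟨v, hv0, hv⟩ := exists_ker_of_dvd_charpoly_mat A h hirr hdvd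
  by_contra hnd
  have hcop : IsCoprime h p := (hirr.coprime_iff_not_dvd).mpr hnd
  obtain ⟨a, b, hab⟩ := hcop
  have h1 := congrArg (aeval A) hab
  rw [map_add, map_mul, map_mul, hp, mul_zero, add_zero, map_one] at h1
  apply hv0
  rw [← one_mulVec v, ← h1, ← mulVec_mulVec, hv, mulVec_zero]

theorem charpoly_splits_of_aeval {F : Type*} [Field F] {ι : Type*} [Fintype ι] [DecidableEq ι] (A : Matrix ι ι F) (p : F[X])
    (hp : aeval A p = 0) (hp0 : p ≠ 0) (hs : p.Splits) : A.charpoly.Splits := by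
  rw [splits_iff_splits]
  right
  intro g hg hgd
  have h1 := irr_dvd_of_aeval A p g hp hg hgd
  exact (hs.of_dvd hp0 h1).degree_eq_one_of_irreducible hg

theorem eq_pow_of_irr {F : Type*} [Field F] (p : F[X]) (hp : Irreducible p) (hpm : p.Monic) : ∀ (k : ℕ) (f : F[X]), f.natDegree = k → f.Monic →
    (∀ h : F[X], Irreducible h → h ∣ f → h ∣ p) → ∃ j, f = p ^ j := by
  intro k
  induction k using Nat.strong_induction_on with
  | _ k ih =>
    intro f hk hf hdiv
    by_cases h1 : IsUnit f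
    · exact ⟨0, by rw [pow_zero]; exact hf.eq_one_of_isUnit h1⟩
    · obtain ⟨h, hirr, hh⟩ := WfDvdMonoid.exists_irreducible_factor h1 hf.ne_zero
      have h2 := hdiv h hirr hh
      have h3 : p ∣ f := ((hirr.associated_of_dvd hp h2).symm.dvd).trans hh
      obtain ⟨g, hg⟩ := h3
      have hgm : g.Monic := by
        rw [hg] at hf
        exact hpm.of_mul_monic_left hf
      have hdeg : g.natDegree < k := by
        rw [← hk, hg, hpm.natDegree_mul hgm]
        have := hp.natDegree_pos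
        omega
      obtain ⟨j, hj⟩ := ih _ hdeg g rfl hgm (fun h' hi' hd' => hdiv h' hi' (hd'.trans ⟨p, by rw [hg, mul_comm]⟩))
      exact ⟨j + 1, by rw [hg, hj, pow_succ']⟩

theorem aeval_pow_sub {F : Type*} [Field F] {ι : Type*} [Fintype ι] [DecidableEq ι] (A : Matrix ι ι F) (r : ℕ) (c : F)
    (hA : A ^ r = c • (1 : Matrix ι ι F)) : aeval A (X ^ r - C c) = 0 := by
  rw [map_sub, map_pow, aeval_X, aeval_C, hA, Algebra.algebraMap_eq_smul_one, sub_self]

/-- non-split case: the characteristic polynomial -/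
theorem charpoly_nonsplit {F : Type*} [Field F] {n : ℕ} (A : Matrix (Fin n) (Fin n) F) (r : ℕ) (hr : r.Prime) (c : F)
    (hc : ∀ b : F, b ^ r ≠ c) (hA : A ^ r = c • (1 : Matrix (Fin n) (Fin n) F)) :
    r ∣ n ∧ A.charpoly = (X ^ r - C c) ^ (n / r) := by
  have hirr := X_pow_sub_C_irreducible_of_prime hr hc
  have hmon : (X ^ r - C c : F[X]).Monic := monic_X_pow_sub_C c hr.ne_zero
  obtain ⟨j, hj⟩ := eq_pow_of_irr (X ^ r - C c) hirr hmon _ A.charpoly rfl (charpoly_monic A)
    (fun h hi hd => irr_dvd_of_aeval A _ h (aeval_pow_sub A r c hA) hi hd)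
  have hdeg := congrArg natDegree hj
  rw [charpoly_natDegree_eq_dim, Fintype.card_fin, hmon.natDegree_pow, natDegree_X_pow_sub_C] at hdeg
  refine ⟨⟨j, by rw [hdeg, mul_comm]⟩, ?_⟩
  rw [hj, hdeg, Nat.mul_div_cancel _ hr.pos]

theorem sim_nonsplit {F : Type*} [Field F] [Fintype F] {n : ℕ} (A B : Matrix (Fin n) (Fin n) F) (r : ℕ) (hr : r.Prime) (hrF : (r : F) ≠ 0) (c : F)
    (hc : ∀ b : F, b ^ r ≠ c) (hA : A ^ r = c • (1 : Matrix (Fin n) (Fin n) F)) (hB : B ^ r = c • (1 : Matrix (Fin n) (Fin n) F)) :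
    ∃ P : Matrix (Fin n) (Fin n) F, P.det ≠ 0 ∧ P * A = B * P := by
  have hc0 : c ≠ 0 := fun h => hc 0 (by rw [h, zero_pow hr.ne_zero])
  have key : ∀ D : Matrix (Fin n) (Fin n) F, D ^ r = c • (1 : Matrix (Fin n) (Fin n) F) → D ^ (r * (Fintype.card F - 1)) = 1 := by
    intro D hD
    rw [pow_mul, hD, _root_.smul_pow, one_pow, FiniteField.pow_card_sub_one_eq_one c hc0, one_smul]
  apply exists_simil_of_charpoly A B (r * (Fintype.card F - 1)) _ (key A hA) (key B hB)
  · rw [(charpoly_nonsplit A r hr c hc hA).2, (charpoly_nonsplit B r hr c hc hB).2]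
  · rw [Nat.cast_mul]
    apply mul_ne_zero hrF
    have h1 : 1 ≤ Fintype.card F := Fintype.card_pos
    rw [Nat.cast_sub h1, FiniteField.cast_card_eq_zero, zero_sub, Nat.cast_one]
    exact neg_ne_zero.mpr one_ne_zero

theorem exists_nonsplit {F : Type*} [Field F] {n : ℕ} (r : ℕ) (hr : r.Prime) (c : F) (hn : r ∣ n) :
    ∃ A : Matrix (Fin n) (Fin n) F, A ^ r = c • (1 : Matrix (Fin n) (Fin n) F) := by
  obtain ⟨m, hm⟩ := hn
  obtain ⟨A0, hA0⟩ := exists_charpoly_eq (F := F) r (X ^ r - C c) (monic_X_pow_sub_C c hr.ne_zero) (natDegree_X_pow_sub_C)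
  have h1 : A0 ^ r = c • (1 : Matrix (Fin r) (Fin r) F) := by
    have h2 := aeval_self_charpoly A0
    rw [hA0, map_sub, map_pow, aeval_X, aeval_C, Algebra.algebraMap_eq_smul_one, sub_eq_zero] at h2
    exact h2
  have e : Fin r × Fin m ≃ Fin n := finProdFinEquiv.trans (finCongr hm.symm)
  refine ⟨Matrix.reindexAlgEquiv F F e (Matrix.blockDiagonal (fun _ : Fin m => A0)), ?_⟩
  rw [← map_pow, ← Matrix.blockDiagonal_pow]
  have h2 : ((fun _ : Fin m => A0) ^ r : Fin m → Matrix (Fin r) (Fin r) F) = c • (1 : Fin m → Matrix (Fin r) (Fin r) F) := by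
    funext i
    exact h1
  rw [h2, Matrix.blockDiagonal_smul, Matrix.blockDiagonal_one, map_smul, map_one]

end Cfsg.Agent.H41
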