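import Mathlib
import Cfsg.Agent.H41.PGPoly
import Cfsg.Agent.H41.OrbCount

set_option autoImplicit false
set_option linter.unusedSectionVars false

/-! Conjugacy classes of elements of prime order `r` in a linear group modulo scalars, when `r` divides the
number of scalars. -/

namespace Cfsg.Agent.H41

open Matrix Polynomial Function

/-- similarity -/
def Sim {K : Type*} [Field K] {n : ℕ} (A B : Matrix (Fin n) (Fin n) K) : Prop :=
  ∃ P : Matrix (Fin n) (Fin n) K, P.det ≠ 0 ∧ P * A = B * P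

theorem isConj_iff_sim {K : Type*} [Field K] {n : ℕ} (A B : GL (Fin n) K) :
    IsConj A B ↔ Sim (A : Matrix (Fin n) (Fin n) K) (B : Matrix (Fin n) (Fin n) K) := by
  constructor
  · intro h
    obtain ⟨P, hP⟩ := isConj_iff.mp h
    refine ⟨P, (Matrix.GeneralLinearGroup.det P).ne_zero, ?_⟩
    rw [mul_inv_eq_iff_eq_mul] at hP
    exact congrArg Units.val hP
  · rintro ⟨P, hdet, hP⟩
    rw [isConj_iff]
    refine ⟨Matrix.GeneralLinearGroup.mkOfDetNeZero P hdet, ?_⟩
    rw [mul_inv_eq_iff_eq_mul]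
    apply Units.ext
    exact hP

theorem Sim.charpoly_eq {K : Type*} [Field K] {n : ℕ} {A B : Matrix (Fin n) (Fin n) K} (h : Sim A B) : A.charpoly = B.charpoly := by
  obtain ⟨P, hdet, hP⟩ := h
  obtain ⟨u, hu⟩ : ∃ u : (Matrix (Fin n) (Fin n) K)ˣ, (u : Matrix (Fin n) (Fin n) K) = P :=
    ⟨Matrix.GeneralLinearGroup.mkOfDetNeZero P hdet, rfl⟩
  have h1 : B = (u : Matrix (Fin n) (Fin n) K) * A * ((u⁻¹ : (Matrix (Fin n) (Fin n) K)ˣ) : Matrix (Fin n) (Fin n) K) := by
    rw [hu, hP, ← hu, mul_assoc, Units.mul_inv, mul_one]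
  rw [h1, Matrix.coe_units_inv]
  exact (Matrix.charpoly_units_conj u A).symm

theorem Sim.pow {K : Type*} [Field K] {n : ℕ} {A B : Matrix (Fin n) (Fin n) K} (h : Sim A B) (k : ℕ) : Sim (A ^ k) (B ^ k) := by
  obtain ⟨P, hdet, hP⟩ := h
  refine ⟨P, hdet, ?_⟩
  have h1 : SemiconjBy P A B := hP
  exact h1.pow_right k

theorem Sim.scalar {K : Type*} [Field K] {n : ℕ} (hn : 1 ≤ n) {c d : K}
    (h : Sim (c • (1 : Matrix (Fin n) (Fin n) K)) (d • (1 : Matrix (Fin n) (Fin n) K))) : c = d := by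
  obtain ⟨P, hdet, hP⟩ := h
  rw [mul_smul_comm, mul_one, smul_mul_assoc, one_mul] at hP
  by_contra hne
  apply hdet
  have h1 : (c - d) • P = 0 := by rw [sub_smul, hP, sub_self]
  rw [smul_eq_zero] at h1
  rcases h1 with h1 | h1
  · exact absurd (sub_eq_zero.mp h1) hne
  · have : Nonempty (Fin n) := ⟨⟨0, hn⟩⟩
    rw [h1, det_zero]

theorem Sim.symm {K : Type*} [Field K] {n : ℕ} {A B : Matrix (Fin n) (Fin n) K} (h : Sim A B) : Sim B A := by
  obtain ⟨P, hdet, hP⟩ := h
  have hu : IsUnit P.det := Ne.isUnit hdet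
  refine ⟨P⁻¹, ?_, ?_⟩
  · rw [det_nonsing_inv]
    exact (isUnit_ringInverse.mpr hu).ne_zero
  · calc P⁻¹ * B = P⁻¹ * (B * P) * P⁻¹ := by rw [mul_assoc, mul_assoc, Matrix.mul_nonsing_inv _ hu, mul_one]
      _ = A * P⁻¹ := by rw [← hP, ← mul_assoc, Matrix.nonsing_inv_mul _ hu, one_mul]

structure PGData {K : Type*} [Field K] {n : ℕ} {Γ : Type*} [Group Γ] (ι : Γ →* GL (Fin n) K) (N : Subgroup Kˣ) (r : ℕ) : Prop where
  center : ∀ g : Γ, g ∈ Subgroup.center Γ ↔ ∃ c ∈ N, ((ι g : GL (Fin n) K) : Matrix (Fin n) (Fin n) K) = (c : K) • 1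
  conj : ∀ g h : Γ, IsConj (ι g) (ι h) → IsConj g h
  diag : ∀ f : Fin n → Kˣ, (∀ i, f i ∈ N) → ∃ g : Γ, ((ι g : GL (Fin n) K) : Matrix (Fin n) (Fin n) K) = Matrix.diagonal (fun i => (f i : K))
  pow : ∀ d : Kˣ, d ^ r ∈ N → d ∈ N
  ns : ∀ A : GL (Fin n) K, ∀ c ∈ N, (∀ d : K, d ^ r ≠ c) → (A : Matrix (Fin n) (Fin n) K) ^ r = (c : K) • 1 → ∃ g, IsConj (ι g) A

section
variable {K : Type*} [Field K] [Fintype K] {n : ℕ} {Γ : Type*} [Group Γ] {ι : Γ →* GL (Fin n) K} {N : Subgroup Kˣ} {r : ℕ}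

theorem PGData.scal (D : PGData ι N r) (c : Kˣ) (hc : c ∈ N) :
    ∃ g : Γ, g ∈ Subgroup.center Γ ∧ ((ι g : GL (Fin n) K) : Matrix (Fin n) (Fin n) K) = (c : K) • 1 := by
  obtain ⟨g, hg⟩ := D.diag (fun _ => c) (fun _ => hc)
  have h1 : ((ι g : GL (Fin n) K) : Matrix (Fin n) (Fin n) K) = (c : K) • 1 := by
    rw [hg, Matrix.smul_one_eq_diagonal]
  exact ⟨g, (D.center g).mpr ⟨c, hc, h1⟩, h1⟩

theorem PGData.mk_iff (D : PGData ι N r) (g h : Γ) :
    IsConj (QuotientGroup.mk g : Γ ⧸ Subgroup.center Γ) (QuotientGroup.mk h) ↔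
      ∃ c ∈ N, Sim ((ι g : GL (Fin n) K) : Matrix (Fin n) (Fin n) K) ((c : K) • ((ι h : GL (Fin n) K) : Matrix (Fin n) (Fin n) K)) := by
  constructor
  · intro h1
    obtain ⟨k, hk⟩ := isConj_iff.mp h1
    obtain ⟨k, rfl⟩ := QuotientGroup.mk_surjective k
    rw [← QuotientGroup.mk_mul, ← QuotientGroup.mk_inv, ← QuotientGroup.mk_mul, eq_comm, QuotientGroup.eq] at hk
    obtain ⟨c, hc, hz⟩ := (D.center _).mp hk
    refine ⟨c, hc, ((ι k : GL (Fin n) K) : Matrix (Fin n) (Fin n) K), (Matrix.GeneralLinearGroup.det (ι k)).ne_zero, ?_⟩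
    have h2 : ι k * ι g = ι h * ι (h⁻¹ * (k * g * k⁻¹)) * ι k := by
      rw [← map_mul, ← map_mul, ← map_mul]
      congr 1
      group
    have h3 := congrArg Units.val h2
    rw [Units.val_mul, Units.val_mul, Units.val_mul, hz] at h3
    rw [h3, mul_smul_comm, mul_one]
  · rintro ⟨c, hc, h1⟩
    obtain ⟨z, hz, hz2⟩ := D.scal c hc
    have h2 : IsConj (ι g) (ι (z * h)) := by
      rw [isConj_iff_sim, map_mul, Units.val_mul, hz2, smul_mul_assoc, one_mul]
      exact h1
    have h3 := (D.conj _ _ h2)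
    have h4 : IsConj (QuotientGroup.mk' (Subgroup.center Γ) g) (QuotientGroup.mk' (Subgroup.center Γ) (z * h)) := MonoidHom.map_isConj _ h3
    have h5 : (QuotientGroup.mk' (Subgroup.center Γ) (z * h)) = QuotientGroup.mk' (Subgroup.center Γ) h := by
      rw [map_mul, (QuotientGroup.eq_one_iff (N := Subgroup.center Γ) z).mpr hz |> fun e => (e : QuotientGroup.mk' (Subgroup.center Γ) z = 1), one_mul]
    rw [h5] at h4
    exact h4

/-- classes with a lift of order dividing `r` -/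
def P1 (ι : Γ →* GL (Fin n) K) (r : ℕ) (C : ConjClasses (Γ ⧸ Subgroup.center Γ)) : Prop :=
  ∃ g : Γ, ConjClasses.mk (QuotientGroup.mk g) = C ∧ ((ι g : GL (Fin n) K) : Matrix (Fin n) (Fin n) K) ^ r = 1 ∧ g ∉ Subgroup.center Γ

/-- the other classes -/
def P2 (ι : Γ →* GL (Fin n) K) (N : Subgroup Kˣ) (r : ℕ) (C : ConjClasses (Γ ⧸ Subgroup.center Γ)) : Prop :=
  ∃ g : Γ, ConjClasses.mk (QuotientGroup.mk g) = C ∧ ∃ c ∈ N, (∀ d : K, d ^ r ≠ c) ∧
    ((ι g : GL (Fin n) K) : Matrix (Fin n) (Fin n) K) ^ r = (c : K) • 1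

theorem PGData.iff_or (D : PGData ι N r) (hr : r.Prime) (hn : 1 ≤ n) (C : ConjClasses (Γ ⧸ Subgroup.center Γ)) :
    (∃ g : Γ ⧸ Subgroup.center Γ, ConjClasses.mk g = C ∧ orderOf g = r) ↔ P1 ι r C ∨ P2 ι N r C := by
  have : Fact r.Prime := ⟨hr⟩
  constructor
  · rintro ⟨g, rfl, hg⟩
    obtain ⟨g, rfl⟩ := QuotientGroup.mk_surjective g
    have h1 : (QuotientGroup.mk g : Γ ⧸ Subgroup.center Γ) ^ r = 1 := by rw [← hg]; exact pow_orderOf_eq_one _
    have h2 : g ∉ Subgroup.center Γ := by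
      intro h
      have h3 : (QuotientGroup.mk g : Γ ⧸ Subgroup.center Γ) = 1 := (QuotientGroup.eq_one_iff g).mpr h
      rw [h3, orderOf_one] at hg
      exact hr.one_lt.ne hg
    rw [← QuotientGroup.mk_pow, QuotientGroup.eq_one_iff, D.center] at h1
    obtain ⟨c, hc, h1⟩ := h1
    rw [map_pow, Units.val_pow_eq_pow_val] at h1
    by_cases hcr : ∀ d : K, d ^ r ≠ c
    · right
      exact ⟨g, rfl, c, hc, hcr, h1⟩
    · push Not at hcr
      obtain ⟨d, hd⟩ := hcr
      left
      have hd0 : d ≠ 0 := by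
        rintro rfl
        rw [zero_pow hr.ne_zero] at hd
        exact c.ne_zero hd.symm
      have hdN : Units.mk0 d hd0 ∈ N := by
        apply D.pow
        have h3 : (Units.mk0 d hd0) ^ r = c := Units.ext hd
        rw [h3]; exact hc
      obtain ⟨z, hz, hz2⟩ := D.scal _ (N.inv_mem hdN)
      refine ⟨z * g, ?_, ?_, ?_⟩
      · congr 1
        rw [QuotientGroup.mk_mul, (QuotientGroup.eq_one_iff z).mpr hz, one_mul]
      · rw [map_mul, Units.val_mul, hz2, smul_mul_assoc, one_mul, _root_.smul_pow, h1, smul_smul, ← hd,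
          ← mul_pow, Units.val_inv_eq_inv_val, Units.val_mk0, inv_mul_cancel₀ hd0, one_pow, one_smul]
      · intro h
        exact h2 ((Subgroup.mul_mem_cancel_left _ hz).mp h)
  · rintro (⟨g, rfl, h1, h2⟩ | ⟨g, rfl, c, hc, h1, h2⟩)
    · refine ⟨QuotientGroup.mk g, rfl, ?_⟩
      apply orderOf_eq_prime
      · rw [← QuotientGroup.mk_pow, QuotientGroup.eq_one_iff, D.center]
        exact ⟨1, N.one_mem, by rw [map_pow, Units.val_pow_eq_pow_val, h1, Units.val_one, one_smul]⟩
      · rwa [Ne, QuotientGroup.eq_one_iff]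
    · refine ⟨QuotientGroup.mk g, rfl, ?_⟩
      apply orderOf_eq_prime
      · rw [← QuotientGroup.mk_pow, QuotientGroup.eq_one_iff, D.center]
        exact ⟨c, hc, by rw [map_pow, Units.val_pow_eq_pow_val, h2]⟩
      · rw [Ne, QuotientGroup.eq_one_iff, D.center]
        rintro ⟨e, he, h3⟩
        rw [h3, _root_.smul_pow, one_pow] at h2
        have : Nonempty (Fin n) := ⟨⟨0, hn⟩⟩
        have h4 := congrFun (congrFun h2 ⟨0, hn⟩) ⟨0, hn⟩
        simp only [Matrix.smul_apply, Matrix.one_apply_eq, smul_eq_mul, mul_one] at h4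
        exact h1 e h4

theorem PGData.disj (D : PGData ι N r) (hn : 1 ≤ n) (C : ConjClasses (Γ ⧸ Subgroup.center Γ)) (h1 : P1 ι r C) (h2 : P2 ι N r C) : False := by
  obtain ⟨g, hg, hg1, _⟩ := h1
  obtain ⟨h, hh, c, hc, hcr, hh1⟩ := h2
  rw [← hh, ConjClasses.mk_eq_mk_iff_isConj, D.mk_iff] at hg
  obtain ⟨d, hd, hs⟩ := hg
  have h3 := hs.pow r
  rw [hg1, _root_.smul_pow, hh1, smul_smul, ← one_smul K (1 : Matrix (Fin n) (Fin n) K), smul_smul, mul_one] at h3
  have h4 := Sim.scalar hn h3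
  apply hcr ((d⁻¹ : Kˣ) : K)
  have h5 : (d : K) ^ r ≠ 0 := pow_ne_zero _ d.ne_zero
  rw [Units.val_inv_eq_inv_val, inv_pow]
  field_simp
  rw [h4]

theorem PGData.card_P2 (D : PGData ι N r) (hr : r.Prime) (hn : 1 ≤ n) (hrK : (r : K) ≠ 0) (hrN : r ∣ Nat.card N) :
    Nat.card {C : ConjClasses (Γ ⧸ Subgroup.center Γ) // P2 ι N r C} = (r - 1) * (if r ∣ n then 1 else 0) := by
  classical
  split_ifs with hrn
  · rw [mul_one]
    obtain ⟨R, hR⟩ : ∃ R : Subgroup N, R = (powMonoidHom r : N →* N).range := ⟨_, rfl⟩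
    have hmemR : ∀ x : N, x ∈ R ↔ ∃ y : N, y ^ r = x := by
      intro x
      rw [hR]
      exact Iff.rfl
    have hcQ : Nat.card (N ⧸ R) = r := by
      have h1 : R.index = r := by
        rw [hR, IsCyclic.index_powMonoidHom_range, Nat.gcd_eq_right hrN]
      exact h1
    have hfin : Finite (N ⧸ R) := inferInstance
    have hT : Nat.card {x : N ⧸ R // x ≠ 1} = r - 1 := by
      have h1 : Nat.card {x : N ⧸ R // x = 1} + Nat.card {x : N ⧸ R // x ≠ 1} = r := by
        rw [← hcQ, ← Nat.card_sum]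
        exact Nat.card_congr (Equiv.sumCompl _)
      have h2 : Nat.card {x : N ⧸ R // x = 1} = 1 := Nat.card_unique
      omega
    rw [← hT]
    symm
    -- choose elements
    have hnr : ∀ x : {x : N ⧸ R // x ≠ 1}, ∀ d : K, d ^ r ≠ ((x.1.out : Kˣ) : K) := by
      intro x d hd
      have hd0 : d ≠ 0 := by
        rintro rfl
        rw [zero_pow hr.ne_zero] at hd
        exact (x.1.out : Kˣ).ne_zero hd.symm
      have h3 : (Units.mk0 d hd0) ^ r = (x.1.out : Kˣ) := Units.ext hd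
      have hdN : Units.mk0 d hd0 ∈ N := D.pow _ (by rw [h3]; exact x.1.out.2)
      apply x.2
      rw [← QuotientGroup.out_eq' x.1, QuotientGroup.eq_one_iff, hmemR]
      exact ⟨⟨_, hdN⟩, Subtype.ext h3⟩
    have hex : ∀ x : {x : N ⧸ R // x ≠ 1}, ∃ g : Γ,
        ((ι g : GL (Fin n) K) : Matrix (Fin n) (Fin n) K) ^ r = ((x.1.out : Kˣ) : K) • 1 := by
      intro x
      obtain ⟨A, hA⟩ := exists_nonsplit (F := K) r hr ((x.1.out : Kˣ) : K) hrn
      have hdet : A.det ≠ 0 := by
        intro h0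
        have h1 := congrArg det hA
        rw [det_pow, h0, zero_pow hr.ne_zero, det_smul, det_one, mul_one] at h1
        exact pow_ne_zero _ (x.1.out : Kˣ).ne_zero h1.symm
      obtain ⟨g, hg⟩ := D.ns (Matrix.GeneralLinearGroup.mkOfDetNeZero A hdet) _ x.1.out.2 (hnr x) hA
      rw [isConj_iff_sim] at hg
      refine ⟨g, ?_⟩
      obtain ⟨P, hP, hPA⟩ := hg.pow r
      have h2 : (((Matrix.GeneralLinearGroup.mkOfDetNeZero A hdet : GL (Fin n) K)) : Matrix (Fin n) (Fin n) K) ^ r =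
        ((x.1.out : Kˣ) : K) • 1 := hA
      rw [h2, smul_mul_assoc, one_mul] at hPA
      have hu : IsUnit P := (Matrix.isUnit_iff_isUnit_det P).mpr (Ne.isUnit hP)
      apply hu.mul_left_cancel
      rw [hPA, mul_smul_comm, mul_one]
    choose g hg using hex
    refine Nat.card_eq_of_bijective (fun x => (⟨ConjClasses.mk (QuotientGroup.mk (g x)), g x, rfl, _, x.1.out.2, hnr x, hg x⟩ :
      {C : ConjClasses (Γ ⧸ Subgroup.center Γ) // P2 ι N r C})) ⟨?_, ?_⟩
    · intro x y hxy
      have h1 : ConjClasses.mk (QuotientGroup.mk (g x)) = ConjClasses.mk (QuotientGroup.mk (g y)) :=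
        congrArg (fun z : {C : ConjClasses (Γ ⧸ Subgroup.center Γ) // P2 ι N r C} => z.1) hxy
      rw [ConjClasses.mk_eq_mk_iff_isConj, D.mk_iff] at h1
      obtain ⟨c, hc, hs⟩ := h1
      have h3 := hs.pow r
      rw [hg x, _root_.smul_pow, hg y, smul_smul] at h3
      have h4 := Sim.scalar hn h3
      apply Subtype.ext
      rw [← QuotientGroup.out_eq' x.1, ← QuotientGroup.out_eq' y.1, eq_comm, QuotientGroup.eq, hmemR]
      refine ⟨⟨c, hc⟩, ?_⟩
      apply Subtype.ext
      apply Units.ext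
      show (c : K) ^ r = (((y.1.out : Kˣ)⁻¹ * (x.1.out : Kˣ) : Kˣ) : K)
      rw [Units.val_mul, h4, Units.val_inv_eq_inv_val]
      have := (y.1.out : Kˣ).ne_zero
      field_simp
    · rintro ⟨C, h, rfl, c, hc, hcr, hh⟩
      have hx : (QuotientGroup.mk (⟨c, hc⟩ : N) : N ⧸ R) ≠ 1 := by
        rw [Ne, QuotientGroup.eq_one_iff, hmemR]
        rintro ⟨y, hy⟩
        exact hcr ((y : Kˣ) : K) (congrArg (fun z : N => ((z : Kˣ) : K)) hy)
      refine ⟨⟨_, hx⟩, ?_⟩
      apply Subtype.ext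
      show ConjClasses.mk (QuotientGroup.mk (g ⟨_, hx⟩)) = ConjClasses.mk (QuotientGroup.mk h)
      rw [ConjClasses.mk_eq_mk_iff_isConj, D.mk_iff]
      have h1 : (QuotientGroup.mk (⟨c, hc⟩ : N) : N ⧸ R) = QuotientGroup.mk ((QuotientGroup.mk (⟨c, hc⟩ : N) : N ⧸ R).out) :=
        (QuotientGroup.out_eq' _).symm
      rw [QuotientGroup.eq, hmemR] at h1
      obtain ⟨e, he⟩ := h1
      refine ⟨(e : Kˣ), e.2, ?_⟩
      have h2 : ((e : Kˣ) : K) ^ r * (c : K) = (((QuotientGroup.mk (⟨c, hc⟩ : N) : N ⧸ R).out : Kˣ) : K) := by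
        have h3 := congrArg (fun z : N => ((z : Kˣ) : K)) he
        simp only [Subgroup.coe_pow, Units.val_pow_eq_pow_val, Subgroup.coe_mul, Units.val_mul, InvMemClass.coe_inv] at h3
        rw [h3]
        have := c.ne_zero
        rw [Units.val_inv_eq_inv_val]
        field_simp
      apply sim_nonsplit _ _ r hr hrK _ (hnr ⟨_, hx⟩) (hg _)
      rw [_root_.smul_pow, hh, smul_smul, h2]
  · rw [mul_zero, Nat.card_eq_zero]
    left
    constructor
    rintro ⟨C, g, rfl, c, hc, hcr, hg⟩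
    exact hrn (charpoly_nonsplit _ r hr (c : K) hcr hg).1

theorem exists_fun_mult {M : Type*} [Fintype M] [DecidableEq M] (a : M → ℕ) (ha : ∑ x, a x = n) :
    ∃ f : Fin n → M, ∀ x, (Finset.univ.filter (fun i => f i = x)).card = a x := by
  have h1 : Fintype.card (Σ x : M, Fin (a x)) = Fintype.card (Fin n) := by
    rw [Fintype.card_sigma, Fintype.card_fin]
    simpa using ha
  obtain ⟨e⟩ := Fintype.card_eq.mp h1
  refine ⟨fun i => (e.symm i).1, fun x => ?_⟩
  have h2 : Fintype.card {i : Fin n // (e.symm i).1 = x} = a x := by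
    rw [← Fintype.card_fin (a x)]
    apply Fintype.card_congr
    refine (e.symm.subtypeEquiv (p := fun i => (e.symm i).1 = x) (q := fun s => s.1 = x) (fun i => Iff.rfl)).trans ?_
    exact Equiv.sigmaSubtype x
  rw [Fintype.card_subtype] at h2
  exact h2

theorem count_diag [DecidableEq K] (f : Fin n → K) (x : K) :
    (Matrix.diagonal f).charpoly.roots.count x = (Finset.univ.filter (fun i => f i = x)).card := by
  rw [charpoly_diagonal]
  have h1 : (∏ i, (X - C (f i))) = ((Finset.univ.val.map f).map (fun a => X - C a)).prod := by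
    rw [Multiset.map_map]; rfl
  rw [h1, roots_multiset_prod_X_sub_C, Multiset.count_map, Finset.card_def, Finset.filter_val]
  congr 1
  apply Multiset.filter_congr
  intro i _
  exact eq_comm

theorem root_pow (A : Matrix (Fin n) (Fin n) K) (hA : A ^ r = 1) (x : K) (hx : x ∈ A.charpoly.roots) : x ^ r = 1 := by
  have h1 : X - C x ∣ A.charpoly := by
    rw [dvd_iff_isRoot]
    exact isRoot_of_mem_roots hx
  have h2 := irr_dvd_of_aeval A (X ^ r - C 1) (X - C x) (aeval_pow_sub A r 1 (by rw [hA, one_smul])) (irreducible_X_sub_C x) h1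
  rw [dvd_iff_isRoot, IsRoot.def, eval_sub, eval_pow, eval_X, eval_C] at h2
  exact sub_eq_zero.mp h2

theorem splits_pow (A : Matrix (Fin n) (Fin n) K) (hA : A ^ r = 1) (hr : r ∣ Fintype.card K - 1) : A.charpoly.Splits := by
  have hq : 1 < Fintype.card K := Fintype.one_lt_card
  have h1 : A ^ (Fintype.card K) = A := by
    obtain ⟨k, hk⟩ := hr
    have h2 : Fintype.card K = r * k + 1 := by omega
    rw [h2, pow_succ, pow_mul, hA, one_pow, one_mul]
  apply charpoly_splits_of_aeval A (X ^ Fintype.card K - X)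
  · rw [map_sub, map_pow, aeval_X, h1, sub_self]
  · exact FiniteField.X_pow_card_sub_X_ne_zero K hq
  · rw [splits_iff_card_roots, FiniteField.roots_X_pow_card_sub_X, FiniteField.X_pow_card_sub_X_natDegree_eq K hq]
    rfl

theorem charpoly_eq_of_count [DecidableEq K] (A B : Matrix (Fin n) (Fin n) K) (hA : A ^ r = 1) (hB : B ^ r = 1)
    (hr : r ∣ Fintype.card K - 1) (h : ∀ x : K, x ^ r = 1 → A.charpoly.roots.count x = B.charpoly.roots.count x) :
    A.charpoly = B.charpoly := by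
  rw [(splits_pow A hA hr).eq_prod_roots_of_monic (charpoly_monic A), (splits_pow B hB hr).eq_prod_roots_of_monic (charpoly_monic B)]
  congr 2
  ext x
  by_cases hx : x ^ r = 1
  · exact h x hx
  · rw [Multiset.count_eq_zero_of_notMem (fun h => hx (root_pow A hA x h)),
      Multiset.count_eq_zero_of_notMem (fun h => hx (root_pow B hB x h))]

theorem PGData.card_P1 (D : PGData ι N r) (hr : r.Prime) (hn : 1 ≤ n) (hrK : (r : K) ≠ 0) (hrq : r ∣ Fintype.card K - 1)
    [Fintype (rootsOfUnity r K)] :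
    Nat.card {C : ConjClasses (Γ ⧸ Subgroup.center Γ) // P1 ι r C} =
      Nat.card (Quotient (MulAction.orbitRel (rootsOfUnity r K) (MulFn (rootsOfUnity r K) n))) := by
  classical
  have hN : ∀ x : rootsOfUnity r K, (x : Kˣ) ∈ N := by
    intro x
    apply D.pow
    have h1 : (x : Kˣ) ^ r = 1 := x.2
    rw [h1]; exact N.one_mem
  have hxr : ∀ x : rootsOfUnity r K, ((x : Kˣ) : K) ^ r = 1 := by
    intro x
    have h1 : (x : Kˣ) ^ r = 1 := x.2
    exact congrArg Units.val h1
  have hex : ∀ a : MulFn (rootsOfUnity r K) n, ∃ g : Γ, ∃ f : Fin n → rootsOfUnity r K,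
      (∀ x, (Finset.univ.filter (fun i => f i = x)).card = a.1 x) ∧
      ((ι g : GL (Fin n) K) : Matrix (Fin n) (Fin n) K) = Matrix.diagonal (fun i => ((f i : Kˣ) : K)) := by
    intro a
    obtain ⟨f, hf⟩ := exists_fun_mult a.1 a.2.1
    obtain ⟨g, hg⟩ := D.diag (fun i => (f i : Kˣ)) (fun i => hN _)
    exact ⟨g, f, hf, hg⟩
  choose g f hf hg using hex
  have hcount : ∀ (a : MulFn (rootsOfUnity r K) n) (c : rootsOfUnity r K) (x : rootsOfUnity r K),
      (((c : Kˣ) : K) • ((ι (g a) : GL (Fin n) K) : Matrix (Fin n) (Fin n) K)).charpoly.roots.count ((x : Kˣ) : K) = (c • a).1 x := by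
    intro a c x
    rw [hg, ← Matrix.diagonal_smul]
    rw [count_diag, MulFn.smul_apply, ← hf a]
    congr 1
    ext i
    simp only [Finset.mem_filter, Finset.mem_univ, true_and]
    rw [eq_inv_mul_iff_mul_eq, Subtype.ext_iff, Units.ext_iff]
    exact Iff.rfl
  have hpow : ∀ (a : MulFn (rootsOfUnity r K) n), ((ι (g a) : GL (Fin n) K) : Matrix (Fin n) (Fin n) K) ^ r = 1 := by
    intro a
    rw [hg, Matrix.diagonal_pow, ← Matrix.diagonal_one]
    congr 1
    funext i
    exact hxr (f a i)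
  have hncen : ∀ (a : MulFn (rootsOfUnity r K) n), g a ∉ Subgroup.center Γ := by
    intro a h
    obtain ⟨c, hc, h1⟩ := (D.center _).mp h
    rw [hg, Matrix.smul_one_eq_diagonal] at h1
    have h2 : ∀ i, ((f a i : Kˣ) : K) = (c : K) := fun i => congrFun (Matrix.diagonal_injective h1) i
    apply a.2.2 (f a ⟨0, hn⟩)
    rw [← hf a]
    rw [Finset.filter_true_of_mem, Finset.card_univ, Fintype.card_fin]
    intro i _
    apply Subtype.ext
    apply Units.ext
    rw [h2, h2]
  have hsim : ∀ (A B : Matrix (Fin n) (Fin n) K), A ^ r = 1 → B ^ r = 1 → (∀ x : K, x ^ r = 1 → A.charpoly.roots.count x = B.charpoly.roots.count x) → Sim A B := by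
    intro A B hA hB h
    exact exists_simil_of_charpoly A B r hrK hA hB (charpoly_eq_of_count A B hA hB hrq h)
  have hF : ∀ a b : MulFn (rootsOfUnity r K) n, ConjClasses.mk (QuotientGroup.mk (g a) : Γ ⧸ Subgroup.center Γ) = ConjClasses.mk (QuotientGroup.mk (g b)) ↔
      (MulAction.orbitRel (rootsOfUnity r K) (MulFn (rootsOfUnity r K) n)).r a b := by
    intro a b
    rw [ConjClasses.mk_eq_mk_iff_isConj, D.mk_iff]
    constructor
    · rintro ⟨c, hc, h1⟩
      have h2 := h1.pow r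
      rw [hpow, _root_.smul_pow, hpow] at h2
      have h3 : Sim ((1 : K) • (1 : Matrix (Fin n) (Fin n) K)) ((c : K) ^ r • (1 : Matrix (Fin n) (Fin n) K)) := by
        rw [one_smul]; exact h2
      have h4 := Sim.scalar hn h3
      have hcM : c ∈ rootsOfUnity r K := by
        rw [mem_rootsOfUnity]
        exact Units.ext h4.symm
      refine ⟨⟨c, hcM⟩, ?_⟩
      apply Subtype.ext
      funext x
      have h5 := hcount b ⟨c, hcM⟩ x
      have h6 := hcount a 1 x
      rw [one_smul] at h6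
      rw [← h5, ← h6]
      have h7 : (((1 : rootsOfUnity r K) : Kˣ) : K) • ((ι (g a) : GL (Fin n) K) : Matrix (Fin n) (Fin n) K) =
        ((ι (g a) : GL (Fin n) K) : Matrix (Fin n) (Fin n) K) := one_smul _ _
      rw [h7, h1.charpoly_eq]
    · rintro ⟨c, hc⟩
      simp only at hc
      refine ⟨(c : Kˣ), hN c, ?_⟩
      apply hsim _ _ (hpow a)
      · rw [_root_.smul_pow, hpow, hxr, one_smul]
      · intro x hx
        have hx0 : x ≠ 0 := by
          rintro rfl
          rw [zero_pow hr.ne_zero] at hx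
          exact zero_ne_one hx
        obtain ⟨y, hy⟩ : ∃ y : rootsOfUnity r K, ((y : Kˣ) : K) = x :=
          ⟨⟨Units.mk0 x hx0, by rw [mem_rootsOfUnity]; exact Units.ext hx⟩, rfl⟩
        have h5 := hcount b c y
        have h6 := hcount a 1 y
        rw [one_smul] at h6
        have h7 : (((1 : rootsOfUnity r K) : Kˣ) : K) • ((ι (g a) : GL (Fin n) K) : Matrix (Fin n) (Fin n) K) =
          ((ι (g a) : GL (Fin n) K) : Matrix (Fin n) (Fin n) K) := one_smul _ _
        rw [h7] at h6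
        rw [← hy, h5, h6, hc]
  symm
  refine Nat.card_eq_of_bijective (fun s => Quotient.lift (fun a => (⟨ConjClasses.mk (QuotientGroup.mk (g a)), g a, rfl, hpow a, hncen a⟩ :
      {C : ConjClasses (Γ ⧸ Subgroup.center Γ) // P1 ι r C})) (fun a b h => Subtype.ext ((hF a b).mpr h)) s) ⟨?_, ?_⟩
  · intro s t
    induction s using Quotient.inductionOn with
    | _ a =>
      induction t using Quotient.inductionOn with
      | _ b =>
        intro h
        apply Quotient.sound
        exact (hF a b).mp (congrArg (fun z : {C : ConjClasses (Γ ⧸ Subgroup.center Γ) // P1 ι r C} => z.1) h)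
  · rintro ⟨C, h, rfl, hh, hnc⟩
    obtain ⟨A, hA⟩ : ∃ A, A = ((ι h : GL (Fin n) K) : Matrix (Fin n) (Fin n) K) := ⟨_, rfl⟩
    rw [← hA] at hh
    have hsplit := splits_pow A hh hrq
    have hcard : Multiset.card A.charpoly.roots = n := by
      rw [splits_iff_card_roots.mp hsplit, charpoly_natDegree_eq_dim, Fintype.card_fin]
    let a0 : rootsOfUnity r K → ℕ := fun x => A.charpoly.roots.count ((x : Kˣ) : K)
    have hsum : ∑ x, a0 x = n := by
      rw [← hcard]
      have hinj : Function.Injective (fun x : rootsOfUnity r K => ((x : Kˣ) : K)) := fun x y hxy => Subtype.ext (Units.ext hxy)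
      have h1 : ∑ x, a0 x = ∑ y ∈ Finset.univ.image (fun x : rootsOfUnity r K => ((x : Kˣ) : K)), A.charpoly.roots.count y := by
        rw [Finset.sum_image (fun x _ y _ hxy => hinj hxy)]
      rw [h1]
      apply Multiset.sum_count_eq_card
      intro x hx
      have hx1 := root_pow A hh x hx
      have hx0 : x ≠ 0 := by
        rintro rfl
        rw [zero_pow hr.ne_zero] at hx1
        exact zero_ne_one hx1
      rw [Finset.mem_image]
      exact ⟨⟨Units.mk0 x hx0, by rw [mem_rootsOfUnity]; exact Units.ext hx1⟩, Finset.mem_univ _, rfl⟩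
    have hne : ∀ x, a0 x ≠ n := by
      intro x hx
      apply hnc
      rw [D.center]
      refine ⟨(x : Kˣ), hN x, ?_⟩
      have h1 : A.charpoly.roots = Multiset.replicate n ((x : Kˣ) : K) := by
        rw [Multiset.eq_replicate]
        refine ⟨hcard, fun b hb => ?_⟩
        exact (Multiset.count_eq_card.mp (hx.trans hcard.symm) b hb).symm
      have h2 : Sim A (((x : Kˣ) : K) • (1 : Matrix (Fin n) (Fin n) K)) := by
        apply hsim A _ hh
        · rw [_root_.smul_pow, hxr, one_pow, one_smul]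
        · intro y _
          rw [h1, Matrix.smul_one_eq_diagonal, count_diag, Multiset.count_replicate]
          split_ifs with hy
          · rw [Finset.filter_true_of_mem (fun _ _ => hy), Finset.card_univ, Fintype.card_fin]
          · rw [Finset.filter_false_of_mem (fun _ _ => hy), Finset.card_empty]
      obtain ⟨P, hP, hPA⟩ := h2
      have hu : IsUnit P := (Matrix.isUnit_iff_isUnit_det P).mpr (Ne.isUnit hP)
      rw [← hA]
      apply hu.mul_left_cancel
      rw [hPA, smul_mul_assoc, one_mul, mul_smul_comm, mul_one]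
    let a : MulFn (rootsOfUnity r K) n := ⟨a0, hsum, hne⟩
    refine ⟨Quotient.mk _ a, ?_⟩
    apply Subtype.ext
    show ConjClasses.mk (QuotientGroup.mk (g a)) = ConjClasses.mk (QuotientGroup.mk h)
    rw [ConjClasses.mk_eq_mk_iff_isConj, D.mk_iff]
    refine ⟨1, N.one_mem, ?_⟩
    rw [Units.val_one, one_smul, ← hA]
    apply hsim _ _ (hpow a) hh
    intro x hx
    have hx0 : x ≠ 0 := by
      rintro rfl
      rw [zero_pow hr.ne_zero] at hx
      exact zero_ne_one hx
    obtain ⟨y, hy⟩ : ∃ y : rootsOfUnity r K, ((y : Kˣ) : K) = x :=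
      ⟨⟨Units.mk0 x hx0, by rw [mem_rootsOfUnity]; exact Units.ext hx⟩, rfl⟩
    have h6 := hcount a 1 y
    rw [one_smul] at h6
    have h7 : (((1 : rootsOfUnity r K) : Kˣ) : K) • ((ι (g a) : GL (Fin n) K) : Matrix (Fin n) (Fin n) K) =
      ((ι (g a) : GL (Fin n) K) : Matrix (Fin n) (Fin n) K) := one_smul _ _
    rw [h7] at h6
    rw [← hy, h6]

theorem PGData.card_classes [Finite Γ] (D : PGData ι N r) (hr : r.Prime) (hn : 1 ≤ n) (hrN : r ∣ Nat.card N) :
    Nat.card {C : ConjClasses (Γ ⧸ Subgroup.center Γ) // ∃ g : Γ ⧸ Subgroup.center Γ, ConjClasses.mk g = C ∧ orderOf g = r} =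
      (Nat.choose (n + r - 1) (r - 1) - r - (if r ∣ n then 1 else 0)) / r + r * (if r ∣ n then 1 else 0) := by
  classical
  have : Fact r.Prime := ⟨hr⟩
  have hcu : Nat.card Kˣ = Fintype.card K - 1 := by rw [Nat.card_units, Nat.card_eq_fintype_card]
  have hq : 1 < Fintype.card K := Fintype.one_lt_card
  have hrq : r ∣ Fintype.card K - 1 := by
    rw [← hcu]
    exact hrN.trans (Subgroup.card_subgroup_dvd_card N)
  have hrK : (r : K) ≠ 0 := by
    intro h0
    obtain ⟨k, hk⟩ := hrq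
    have h1 : Fintype.card K = r * k + 1 := by omega
    have h2 := congrArg (fun m : ℕ => (m : K)) h1
    simp only [FiniteField.cast_card_eq_zero, Nat.cast_add, Nat.cast_mul, h0, zero_mul, zero_add, Nat.cast_one] at h2
    exact zero_ne_one h2
  have := Fintype.ofFinite (rootsOfUnity r K)
  have hM : Fintype.card (rootsOfUnity r K) = r := by
    rw [← Nat.card_eq_fintype_card]
    have h1 : rootsOfUnity r K = (powMonoidHom r : Kˣ →* Kˣ).ker := by
      ext x; rw [mem_rootsOfUnity]; exact Iff.rfl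
    rw [h1, IsCyclic.card_powMonoidHom_ker, hcu, Nat.gcd_eq_right hrq]
  rw [← final_count hM hn, ← D.card_P1 hr hn hrK hrq, ← D.card_P2 hr hn hrK hrN, ← Nat.card_sum]
  · apply Nat.card_congr
    refine (Equiv.subtypeEquivRight (fun C => D.iff_or hr hn C)).trans ?_
    exact subtypeOrEquiv _ _ (by
      rw [Pi.disjoint_iff]
      intro C
      rw [Prop.disjoint_iff]
      exact fun h => D.disj hn C h.1 h.2)

end

end Cfsg.Agent.H41
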