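import Mathlib

set_option autoImplicit false
set_option linter.unusedSimpArgs false

/-! Weights of `R^ι` acting on a vector space, with a primitive additive character of the finite ring `R`. -/

namespace Cfsg.Agent.H41

open Matrix

open scoped Classical

section
variable {R : Type*} [CommRing R] [Fintype R] {L : Type*} [Field L]

variable (ψ : AddChar R L) (hψ : ψ.IsPrimitive) {ι : Type*} [Fintype ι] [DecidableEq ι]

/-- the character `u ↦ ψ (a ⬝ u)` -/
def chiR (a : ι → R) : AddChar (ι → R) L where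
  toFun u := ψ (a ⬝ᵥ u)
  map_zero_eq_one' := by simp
  map_add_eq_mul' u v := by rw [dotProduct_add, AddChar.map_add_eq_mul]

theorem chiR_apply (a u : ι → R) : chiR ψ a u = ψ (a ⬝ᵥ u) := rfl

include hψ in
theorem sum_chiR (u : ι → R) (hu : u ≠ 0) : ∑ a : ι → R, ψ (a ⬝ᵥ u) = 0 := by
  classical
  have h1 : chiR ψ u ≠ 1 := by
    intro h
    obtain ⟨i, hi⟩ : ∃ i, u i ≠ 0 := by
      by_contra hcon
      push Not at hcon
      exact hu (funext hcon)
    apply hψ hi
    ext x
    have := DFunLike.congr_fun h (Pi.single i x)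
    rw [chiR_apply, dotProduct_single] at this
    rw [AddChar.mulShift_apply]
    simpa using this
  have := AddChar.sum_eq_zero_of_ne_one h1
  rw [← this]
  apply Finset.sum_congr rfl
  intro a _
  rw [chiR_apply, dotProduct_comm]

section rep
variable {V : Type*} [AddCommGroup V] [Module L V] (W : (ι → R) → (V →ₗ[L] V))

/-- nonzero weight vectors exist -/
def WtNeR (a : ι → R) : Prop := ∃ v : V, v ≠ 0 ∧ ∀ u, W u v = ψ (a ⬝ᵥ u) • v

/-- the projection onto a weight space (unnormalised) -/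
noncomputable def PR (a : ι → R) : V →ₗ[L] V := ∑ u : ι → R, ψ (-(a ⬝ᵥ u)) • W u

theorem PR_apply (a : ι → R) (v : V) : PR ψ W a v = ∑ u : ι → R, ψ (-(a ⬝ᵥ u)) • W u v := by
  rw [PR, LinearMap.sum_apply]; rfl

theorem W_PR (hW : ∀ a b v, W (a + b) v = W a (W b v)) (a u : ι → R) (v : V) :
    W u (PR ψ W a v) = ψ (a ⬝ᵥ u) • PR ψ W a v := by
  rw [PR_apply, map_sum, Finset.smul_sum, ← Equiv.sum_comp (Equiv.subRight u) (fun x => W u (ψ (-(a ⬝ᵥ x)) • W x v))]
  apply Finset.sum_congr rfl
  intro x _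
  rw [map_smul, ← hW, Equiv.subRight_apply, add_sub_cancel, smul_smul, ← AddChar.map_add_eq_mul, dotProduct_sub]
  congr 2
  ring

include hψ in
theorem sum_PR (h0 : ∀ v, W 0 v = v) (v : V) : ∑ a, PR ψ W a v = (Fintype.card (ι → R) : L) • v := by
  simp only [PR_apply]
  rw [Finset.sum_comm]
  have h1 : ∀ u : ι → R, ∑ a : ι → R, ψ (-(a ⬝ᵥ u)) • W u v = if u = 0 then (Fintype.card (ι → R) : L) • v else 0 := by
    intro u
    rw [← Finset.sum_smul]
    split_ifs with hu
    · subst hu
      simp [h0]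
    · have : ∑ a : ι → R, ψ (-(a ⬝ᵥ u)) = 0 := by
        rw [← sum_chiR ψ hψ (-u) (neg_ne_zero.mpr hu)]
        apply Finset.sum_congr rfl
        intro a _
        rw [dotProduct_neg]
      rw [this, zero_smul]
  rw [Finset.sum_congr rfl (fun u _ => h1 u), Finset.sum_ite_eq']
  simp

include hψ in
/-- If `W u₀` is not the identity then there is a weight nontrivial on `u₀`. -/
theorem exists_weightR (hW : ∀ a b v, W (a + b) v = W a (W b v)) (h0 : ∀ v, W 0 v = v)
    (hcard : (Fintype.card (ι → R) : L) ≠ 0) (u₀ : ι → R) (v : V) (hv : W u₀ v ≠ v) :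
    ∃ a, WtNeR ψ W a ∧ a ⬝ᵥ u₀ ≠ 0 := by
  by_contra hcon
  push Not at hcon
  apply hv
  have h1 : ∀ a, W u₀ (PR ψ W a v) = PR ψ W a v := by
    intro a
    by_cases hp : PR ψ W a v = 0
    · rw [hp, map_zero]
    · have h2 := hcon a ⟨_, hp, fun u => W_PR ψ W hW a u v⟩
      rw [W_PR ψ W hW, h2, AddChar.map_zero_eq_one, one_smul]
  have h3 := congrArg (W u₀) (sum_PR ψ hψ W h0 v)
  rw [map_sum, Finset.sum_congr rfl (fun a _ => h1 a), sum_PR ψ hψ W h0, map_smul] at h3
  exact (smul_right_injective V hcard h3).symm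

include hψ in
theorem PR_of_weight (a b : ι → R) (v : V) (hv : ∀ u, W u v = ψ (a ⬝ᵥ u) • v) :
    PR ψ W b v = if b = a then (Fintype.card (ι → R) : L) • v else 0 := by
  rw [PR_apply]
  have h1 : ∀ u : ι → R, ψ (-(b ⬝ᵥ u)) • W u v = ψ (u ⬝ᵥ (a - b)) • v := by
    intro u
    rw [hv, smul_smul, ← AddChar.map_add_eq_mul, dotProduct_comm u, sub_dotProduct]
    congr 2
    ring
  rw [Finset.sum_congr rfl (fun u _ => h1 u), ← Finset.sum_smul]
  split_ifs with h
  · subst h
    simp
  · rw [sum_chiR ψ hψ _ (sub_ne_zero.mpr (Ne.symm h)), zero_smul]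

include hψ in
/-- the number of weights is at most the dimension -/
theorem card_weights_leR [FiniteDimensional L V] (hcard : (Fintype.card (ι → R) : L) ≠ 0) (S : Finset (ι → R))
    (hS : ∀ a ∈ S, WtNeR ψ W a) : S.card ≤ Module.finrank L V := by
  have h1 : ∀ a : S, WtNeR ψ W a := fun a => hS a a.2
  choose v hv0 hv using h1
  have hli : LinearIndependent L v := by
    rw [Fintype.linearIndependent_iff]
    intro c hc b
    have h2 := congrArg (PR ψ W b) hc
    rw [map_sum, map_zero, Finset.sum_eq_single b] at h2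
    · rw [map_smul, PR_of_weight ψ hψ W b b _ (hv b), if_pos rfl, smul_smul] at h2
      rcases smul_eq_zero.mp h2 with h3 | h3
      · exact (mul_eq_zero.mp h3).resolve_right hcard
      · exact absurd h3 (hv0 b)
    · intro a _ hab
      rw [map_smul, PR_of_weight ψ hψ W a b _ (hv a), if_neg (fun h => hab (Subtype.ext h).symm), smul_zero]
    · intro h; exact absurd (Finset.mem_univ b) h
  have := hli.fintype_card_le_finrank
  rwa [Fintype.card_coe] at this

/-- transport of weights -/
theorem WtNeR.transport {a b : ι → R} (h : WtNeR ψ W a) (T : V →ₗ[L] V) (hT : Function.Injective T) (g : (ι → R) → (ι → R))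
    (hg : ∀ u v, W u (T v) = T (W (g u) v)) (hab : ∀ u, a ⬝ᵥ g u = b ⬝ᵥ u) : WtNeR ψ W b := by
  obtain ⟨v, hv0, hv⟩ := h
  refine ⟨T v, fun h => hv0 (hT (by rw [h, map_zero])), fun u => ?_⟩
  rw [hg, hv, map_smul, hab]

end rep


end

end Cfsg.Agent.H41
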