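import Mathlib

set_option autoImplicit false
set_option linter.unusedSectionVars false
set_option linter.unusedVariables false

/-! Small matrices for kernel computations. -/

namespace Cfsg.Agent.H41.SmallMat

open Matrix

/-- the field with four elements -/
inductive E4 where
  | o | i | w | v
deriving DecidableEq

namespace E4

def add : E4 → E4 → E4
  | o, y => y
  | i, o => i
  | i, i => o
  | i, w => v
  | i, v => w
  | w, o => w
  | w, i => v
  | w, w => o
  | w, v => i
  | v, o => v
  | v, i => w
  | v, w => i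
  | v, v => o

def mul : E4 → E4 → E4
  | o, _ => o
  | i, y => y
  | w, o => o
  | w, i => w
  | w, w => v
  | w, v => i
  | v, o => o
  | v, i => v
  | v, w => i
  | v, v => w

instance : Add E4 := ⟨add⟩
instance : Mul E4 := ⟨mul⟩
instance : Zero E4 := ⟨o⟩
instance : One E4 := ⟨i⟩
instance : Neg E4 := ⟨id⟩

instance : Fintype E4 := ⟨{o, i, w, v}, fun x => by cases x <;> simp⟩

instance : CommRing E4 where
  add_assoc := by decide
  zero_add := by decide
  add_zero := by decide
  add_comm := by decide
  left_distrib := by decide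
  right_distrib := by decide
  zero_mul := by decide
  mul_zero := by decide
  mul_assoc := by decide
  one_mul := by decide
  mul_one := by decide
  mul_comm := by decide
  neg_add_cancel := by decide
  nsmul := nsmulRec
  zsmul := zsmulRec

/-- evaluation in a field of characteristic 2 -/
def ev {F : Type*} [Field F] (ω : F) : E4 → F
  | o => 0
  | i => 1
  | w => ω
  | v => ω + 1

def evHom {F : Type*} [Field F] [CharP F 2] (ω : F) (hω : ω ^ 2 + ω + 1 = 0) : E4 →+* F where
  toFun := ev ω
  map_zero' := rfl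
  map_one' := rfl
  map_add' x y := by
    have h2 : (2 : F) = 0 := CharTwo.two_eq_zero
    cases x <;> cases y <;> show ev ω (add _ _) = _ <;> simp only [add, ev] <;> grind
  map_mul' x y := by
    have h2 : (2 : F) = 0 := CharTwo.two_eq_zero
    cases x <;> cases y <;> show ev ω (mul _ _) = _ <;> simp only [mul, ev] <;> grind

/-- conjugation -/
def conj : E4 → E4
  | o => o
  | i => i
  | w => v
  | v => w

end E4

/-! ### 4 × 4 matrices -/

section four
variable {T : Type*} [CommRing T]

structure V4 (T : Type*) where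
  a : T
  b : T
  c : T
  d : T
deriving DecidableEq

def V4.f (x : V4 T) : Fin 4 → T := ![x.a, x.b, x.c, x.d]

structure M4 (T : Type*) where
  r0 : V4 T
  r1 : V4 T
  r2 : V4 T
  r3 : V4 T
deriving DecidableEq

def M4.f (m : M4 T) : Matrix (Fin 4) (Fin 4) T := ![m.r0.f, m.r1.f, m.r2.f, m.r3.f]

def dot (u v : V4 T) : T := u.a * v.a + u.b * v.b + u.c * v.c + u.d * v.d

def M4.act (m : M4 T) (v : V4 T) : V4 T := ⟨dot m.r0 v, dot m.r1 v, dot m.r2 v, dot m.r3 v⟩

theorem f_act (m : M4 T) (v : V4 T) : m.f *ᵥ v.f = (m.act v).f := by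
  funext i
  rw [Matrix.mulVec, dotProduct, Fin.sum_univ_four]
  fin_cases i <;> rfl

def wact (l : List (M4 T)) (v : V4 T) : V4 T := l.foldr (fun m v => m.act v) v

theorem f_wact (l : List (M4 T)) (v : V4 T) : (l.map M4.f).prod *ᵥ v.f = (wact l v).f := by
  induction l with
  | nil => rw [List.map_nil, List.prod_nil, Matrix.one_mulVec]; rfl
  | cons m l ih => rw [List.map_cons, List.prod_cons, ← Matrix.mulVec_mulVec, ih, f_act]; rfl

def e4 (T : Type*) [CommRing T] : Fin 4 → V4 T
  | 0 => ⟨1, 0, 0, 0⟩
  | 1 => ⟨0, 1, 0, 0⟩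
  | 2 => ⟨0, 0, 1, 0⟩
  | 3 => ⟨0, 0, 0, 1⟩

theorem e4_f (k : Fin 4) : (e4 T k).f = Pi.single k 1 := by
  funext i
  fin_cases k <;> fin_cases i <;> rfl

theorem mat_ext4 {A B : Matrix (Fin 4) (Fin 4) T} (h : ∀ k, A *ᵥ (e4 T k).f = B *ᵥ (e4 T k).f) : A = B := by
  ext i k
  have h1 := congrFun (h k) i
  rw [e4_f, Matrix.mulVec_single_one, Matrix.mulVec_single_one] at h1
  exact h1

theorem prod_eq {l l' : List (M4 T)} (h : ∀ k, wact l (e4 T k) = wact l' (e4 T k)) : (l.map M4.f).prod = (l'.map M4.f).prod := by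
  apply mat_ext4
  intro k
  rw [f_wact, f_wact, h k]

end four

end Cfsg.Agent.H41.SmallMat
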