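import Cfsg.Agent.H41.StHom
import Cfsg.Agent.H41.SmallMat

set_option autoImplicit false
set_option linter.unusedSectionVars false
set_option linter.unusedVariables false

/-! Homomorphisms from Steinberg groups to small matrix groups, checked by computation; isomorphisms by counting. -/

namespace Cfsg.Agent.H41.StHom

open Cfsg.Lie Cfsg.Agent.H41.SmallMat

theorem exists_hom4 {F : Type*} [Field F] [Fintype F] {p : ℕ} [Fact p.Prime] (hF : Fintype.card F = p) {T : Type*} [CommRing T] (D : ChevalleyDatum)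
    (m : ℕ → ZMod p → M4 T) {G N : Type*} [Group G] [Monoid N] (ι : G →* N) (hι : Function.Injective ι)
    (Φ : Matrix (Fin 4) (Fin 4) T →* N) (g : ℕ → ZMod p → G) (hg : ∀ r a, ι (g r a) = Φ (m r a).f)
    (c0 : ∀ r, D.nroots ≤ r → ∀ a, (m r a).f = 1)
    (c1 : ∀ r < D.nroots, ∀ a b, ∀ k, wact [m r a, m r b] (e4 T k) = wact [m r (a + b)] (e4 T k))
    (c2 : ∀ r < D.nroots, ∀ s < D.nroots, s ≠ r → s ≠ D.neg r → ∀ a b, ∀ k, wact [m s b, m r a] (e4 T k) =
      wact (m r a :: m s b :: ((D.commTerms r s).map fun c => m c.1 ((c.2.1 : ZMod p) * (-a) ^ c.2.2.1 * b ^ c.2.2.2))) (e4 T k))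
    (c3 : ∀ r < D.nroots, ∀ a b : ZMod p, a ≠ 0 → b ≠ 0 → ∀ k, wact ((D.hWord r a).map (fun c => m c.1 c.2) ++ (D.hWord r b).map (fun c => m c.1 c.2)) (e4 T k) =
      wact ((D.hWord r (a * b)).map fun c => m c.1 c.2) (e4 T k)) :
    ∃ φ : D.SteinbergGroup F →* G, ∀ r a, φ (D.stGen F r (ee hF a)) = g r a := by
  have hlist : ∀ l : List (ℕ × ZMod p), ι ((l.map fun c => g c.1 c.2).prod) = Φ (((l.map fun c => m c.1 c.2).map M4.f).prod) := by
    intro l
    rw [map_list_prod, map_list_prod, List.map_map, List.map_map, List.map_map]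
    congr 1
    apply List.map_congr_left
    intro c _
    exact hg c.1 c.2
  apply exists_hom hF D g
  · intro r hr a
    apply hι
    rw [hg, c0 r hr a, map_one, map_one]
  · intro r hr a b
    have h1 := prod_eq (c1 r hr a b)
    have h2 := hlist [(r, a), (r, b)]
    have h3 := hlist [(r, a + b)]
    simp only [List.map_cons, List.map_nil] at h1 h2 h3
    rw [h1, ← h3] at h2
    have h4 := hι h2
    simpa using h4
  · intro r hr s hs h3 h4 a b
    have h1 := prod_eq (c2 r hr s hs h3 h4 a b)
    have h2 := hlist [(s, b), (r, a)]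
    have h5 := hlist ((r, a) :: (s, b) :: ((D.commTerms r s).map fun c => (c.1, ((c.2.1 : ZMod p) * (-a) ^ c.2.2.1 * b ^ c.2.2.2))))
    simp only [List.map_cons, List.map_nil, List.map_map, Function.comp_def] at h1 h2 h5
    rw [h1, ← h5] at h2
    have h6 := hι h2
    simp only [List.prod_cons, List.prod_nil, mul_one] at h6
    rw [h6, mul_assoc]
  · intro r hr a b ha hb
    have h1 := prod_eq (c3 r hr a b ha hb)
    have h2 := hlist (D.hWord r a ++ D.hWord r b)
    have h5 := hlist (D.hWord r (a * b))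
    rw [List.map_append, List.map_append, h1, ← h5, List.prod_append] at h2
    exact hι h2

/-- isomorphism by counting -/
theorem iso_of_card {S G H : Type*} [Group S] [Group G] [Group H] (θ : S →* G) (hθ : Function.Surjective θ) (hker : θ.ker = Subgroup.center S)
    (hG : IsSimpleGroup G) [Finite H] (hcard : Nat.card H = Nat.card G) (ψ : S →* H) (hnc : ∃ a b, ψ a * ψ b ≠ ψ b * ψ a) :
    Nonempty (G ≃* H) := by
  have hN : ψ.ker ≤ Subgroup.center S := by
    have hn : (ψ.ker.map θ).Normal := Subgroup.Normal.map inferInstance θ hθ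
    rcases hG.eq_bot_or_eq_top_of_normal _ hn with h | h
    · rw [← hker]
      exact (Subgroup.map_eq_bot_iff _).1 h
    · exfalso
      have key : ∀ a : S, ∃ z ∈ Subgroup.center S, ψ a = ψ z := by
        intro a
        have h1 : θ a ∈ ψ.ker.map θ := by rw [h]; exact Subgroup.mem_top _
        obtain ⟨n, hn, hna⟩ := h1
        refine ⟨n⁻¹ * a, ?_, ?_⟩
        · rw [← hker, MonoidHom.mem_ker, map_mul, map_inv, hna, inv_mul_cancel]
        · have h2 : ψ n = 1 := hn
          rw [map_mul, map_inv, h2, inv_one, one_mul]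
      obtain ⟨a, b, hab⟩ := hnc
      obtain ⟨z, hz, haz⟩ := key a
      apply hab
      rw [haz, ← map_mul, ← map_mul, Subgroup.mem_center_iff.1 hz b]
  have h1 : Nat.card ψ.range = ψ.ker.index := by
    rw [Subgroup.index_ker]
  have h2 : (Subgroup.center S).index = Nat.card G := by
    rw [← hker, Subgroup.index_ker, MonoidHom.range_eq_top.2 hθ, Subgroup.card_top]
  have h3 : Nat.card ψ.range ≤ Nat.card H := Subgroup.card_le_card_group _
  have h4 : (Subgroup.center S).index ∣ ψ.ker.index := Subgroup.index_dvd_of_le hN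
  have h5 : 0 < ψ.ker.index := by rw [← h1]; exact Nat.card_pos
  have h6 : ψ.ker.index = (Subgroup.center S).index := by
    apply Nat.le_antisymm
    · rw [← h1, h2, ← hcard]; exact h3
    · exact Nat.le_of_dvd h5 h4
  have h7 : ψ.ker = Subgroup.center S := by
    apply le_antisymm hN
    rw [← Subgroup.relIndex_eq_one]
    have h8 := Subgroup.relIndex_mul_index hN
    rw [h6] at h8
    have h9 : 0 < (Subgroup.center S).index := by rw [← h6]; exact h5
    exact Nat.eq_of_mul_eq_mul_right h9 (by rw [h8, one_mul])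
  have h8 : Function.Surjective ψ := by
    rw [← MonoidHom.range_eq_top]
    apply Subgroup.eq_top_of_card_eq
    rw [h1, h6, h2, hcard]
  have e1 := QuotientGroup.quotientKerEquivOfSurjective θ hθ
  have e2 := QuotientGroup.quotientKerEquivOfSurjective ψ h8
  have e3 : S ⧸ θ.ker ≃* S ⧸ ψ.ker := QuotientGroup.quotientMulEquivOfEq (by rw [hker, h7])
  exact ⟨e1.symm.trans (e3.trans e2)⟩

end Cfsg.Agent.H41.StHom
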