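import Mathlib
import Cfsg.Agent.H4.CardSL

set_option autoImplicit false
set_option linter.unusedSimpArgs false

namespace Cfsg.Agent.H41

open Polynomial

section arith
variable {r q : ℕ} [Fact r.Prime]

theorem dvd_pow_sub_one_iff (hq : 1 ≤ q) (i : ℕ) : r ∣ q ^ i - 1 ↔ orderOf (q : ZMod r) ∣ i := by
  rw [orderOf_dvd_iff_pow_eq_one, ← ZMod.natCast_eq_zero_iff, Nat.cast_sub (Nat.one_le_pow _ _ hq)]
  push_cast
  exact sub_eq_zero

theorem orderOf_pos_zmod (hrq : ¬ r ∣ q) : 0 < orderOf (q : ZMod r) := by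
  have h0 : (q : ZMod r) ≠ 0 := by rwa [Ne, ZMod.natCast_eq_zero_iff]
  obtain ⟨u, hu⟩ : ∃ u : (ZMod r)ˣ, (u : ZMod r) = q := ⟨Units.mk0 _ h0, rfl⟩
  rw [← hu, orderOf_units]
  exact orderOf_pos u

theorem fact_mul (hq : 2 ≤ q) (j : ℕ) (hj0 : 0 < j) (hj : j < r) (d : ℕ) (hd0 : 0 < d) (hd : r ∣ q ^ d - 1) :
    (q ^ (d * j) - 1).factorization r = (q ^ d - 1).factorization r := by
  have hQ : 1 ≤ q ^ d := Nat.one_le_pow _ _ (by omega)
  have hQ1 : 1 < q ^ d := Nat.one_lt_pow hd0.ne' (by omega)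
  have h1 : q ^ (d * j) - 1 = (q ^ d - 1) * ∑ i ∈ Finset.range j, (q ^ d) ^ i := by
    have h := mul_geom_sum ((q ^ d : ℕ) : ℤ) j
    have h2 : 1 ≤ (q ^ d) ^ j := Nat.one_le_pow _ _ hQ
    rw [pow_mul]
    zify [h2, hQ]
    push_cast at h
    exact h.symm
  have hS0 : ∑ i ∈ Finset.range j, (q ^ d) ^ i ≠ 0 := by
    have : 0 < ∑ i ∈ Finset.range j, (q ^ d) ^ i := Finset.sum_pos (fun i _ => by positivity) ⟨0, by simp; omega⟩
    omega
  have hS : ¬ r ∣ ∑ i ∈ Finset.range j, (q ^ d) ^ i := by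
    intro h
    have h2 : (q ^ d : ℕ) ≡ 1 [MOD r] := by
      rw [Nat.ModEq.comm, Nat.modEq_iff_dvd' hQ]; exact hd
    have h3 : (∑ i ∈ Finset.range j, (q ^ d) ^ i) ≡ ∑ i ∈ Finset.range j, 1 [MOD r] := by
      apply Nat.ModEq.sum
      intro i _
      have := h2.pow i
      rwa [one_pow] at this
    simp only [Finset.sum_const, Finset.card_range, smul_eq_mul, mul_one] at h3
    have h4 : r ∣ j := by
      rw [← Nat.modEq_zero_iff_dvd] at h ⊢
      exact h3.symm.trans h
    exact absurd (Nat.le_of_dvd hj0 h4) (by omega)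
  rw [h1, Nat.factorization_mul (by omega) hS0, Finsupp.add_apply, Nat.factorization_eq_zero_of_not_dvd hS, add_zero]

theorem fact_cyclotomic (hq : 2 ≤ q) (hrq : ¬ r ∣ q) :
    padicValNat r ((cyclotomic (orderOf (q : ZMod r)) ℤ).eval (q : ℤ)).natAbs =
      (q ^ orderOf (q : ZMod r) - 1).factorization r := by
  obtain ⟨d, hd⟩ : ∃ d, d = orderOf (q : ZMod r) := ⟨_, rfl⟩
  have hd0 : 0 < d := hd ▸ orderOf_pos_zmod hrq
  have hfac : r.Prime := Fact.out
  rw [← hd]
  have h1 := congrArg (Polynomial.eval (q : ℤ)) (prod_cyclotomic_eq_X_pow_sub_one hd0 ℤ)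
  rw [eval_prod, ← Nat.cons_self_properDivisors hd0.ne', Finset.prod_cons] at h1
  simp only [eval_sub, eval_pow, eval_X, eval_one] at h1
  have hQ : 1 ≤ q ^ d := Nat.one_le_pow _ _ (by omega)
  have h2 : ((q : ℤ) ^ d - 1).natAbs = q ^ d - 1 := by
    have : ((q : ℤ) ^ d - 1) = ((q ^ d - 1 : ℕ) : ℤ) := by
      rw [Nat.cast_sub hQ]; push_cast; ring
    rw [this, Int.natAbs_natCast]
  have h3 := congrArg Int.natAbs h1
  rw [Int.natAbs_mul, h2] at h3
  have hQ1 : 1 < q ^ d := Nat.one_lt_pow hd0.ne' (by omega)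
  have hne : (∏ x ∈ d.properDivisors, eval (q : ℤ) (cyclotomic x ℤ)).natAbs ≠ 0 := by
    intro h0
    rw [h0, mul_zero] at h3
    omega
  have hne' : (eval (q : ℤ) (cyclotomic d ℤ)).natAbs ≠ 0 := by
    intro h0
    rw [h0, zero_mul] at h3
    omega
  have hnd : ¬ r ∣ (∏ x ∈ d.properDivisors, eval (q : ℤ) (cyclotomic x ℤ)).natAbs := by
    intro h
    have h4 : (r : ℤ) ∣ ∏ x ∈ d.properDivisors, eval (q : ℤ) (cyclotomic x ℤ) := Int.natCast_dvd.mpr h
    have hrp : Prime (r : ℤ) := Nat.prime_iff_prime_int.mp hfac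
    obtain ⟨x, hx, hx'⟩ := (Prime.dvd_finsetProd_iff hrp _).mp h4
    rw [Nat.mem_properDivisors] at hx
    have hx0 : 0 < x := Nat.pos_of_dvd_of_pos hx.1 hd0
    have h5 : eval (q : ℤ) (cyclotomic x ℤ) ∣ (q : ℤ) ^ x - 1 := by
      have := cyclotomic.dvd_X_pow_sub_one x ℤ
      obtain ⟨c, hc⟩ := this
      have h6 := congrArg (Polynomial.eval (q : ℤ)) hc
      simp only [eval_sub, eval_pow, eval_X, eval_one, eval_mul] at h6
      exact ⟨_, h6⟩
    have h6 : (r : ℤ) ∣ ((q ^ x - 1 : ℕ) : ℤ) := by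
      rw [Nat.cast_sub (Nat.one_le_pow _ _ (by omega))]
      push_cast
      exact hx'.trans h5
    have h7 : r ∣ q ^ x - 1 := by exact_mod_cast h6
    rw [dvd_pow_sub_one_iff (by omega), ← hd] at h7
    exact absurd (Nat.le_of_dvd hx0 h7) (by omega)
  rw [← h3, Nat.factorization_mul hne' hne, Finsupp.add_apply, Nat.factorization_eq_zero_of_not_dvd hnd, add_zero,
    Nat.factorization_def _ hfac]

theorem fact_gl (hq : 2 ≤ q) (hrq : ¬ r ∣ q) (n : ℕ) (hn : n < r) :
    (∏ i : Fin n, (q ^ n - q ^ (i : ℕ))).factorization r =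
      (n / orderOf (q : ZMod r)) * (q ^ orderOf (q : ZMod r) - 1).factorization r := by
  obtain ⟨d, hd⟩ : ∃ d, d = orderOf (q : ZMod r) := ⟨_, rfl⟩
  have hd0 : 0 < d := hd ▸ orderOf_pos_zmod hrq
  have hfac : r.Prime := Fact.out
  rw [← hd, Nat.factorization_prod_apply (by
    intro i _
    have : q ^ (i : ℕ) < q ^ n := Nat.pow_lt_pow_right (by omega) i.2
    omega)]
  have h1 : ∀ i : Fin n, (q ^ n - q ^ (i : ℕ)).factorization r = (q ^ (n - 1 - i + 1) - 1).factorization r := by
    intro i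
    have hi := i.2
    have h2 : q ^ n - q ^ (i : ℕ) = q ^ (i : ℕ) * (q ^ (n - 1 - i + 1) - 1) := by
      rw [Nat.mul_sub, mul_one, ← pow_add]
      congr 2
      omega
    have h3 : 1 < q ^ (n - 1 - i + 1) := Nat.one_lt_pow (by omega) (by omega)
    rw [h2, Nat.factorization_mul (by positivity) (by omega), Finsupp.add_apply,
      Nat.factorization_eq_zero_of_not_dvd (fun h => hrq (hfac.dvd_of_dvd_pow h)), zero_add]
  rw [Finset.sum_congr rfl (fun i _ => h1 i), Fin.sum_univ_eq_sum_range (fun i => (q ^ (n - 1 - i + 1) - 1).factorization r) n,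
    Finset.sum_range_reflect (fun i => (q ^ (i + 1) - 1).factorization r) n]
  have h2 : ∀ i ∈ Finset.range n, (q ^ (i + 1) - 1).factorization r =
      if d ∣ i + 1 then (q ^ d - 1).factorization r else 0 := by
    intro i hi
    rw [Finset.mem_range] at hi
    split_ifs with h
    · obtain ⟨j, hj⟩ := h
      rw [hj]
      apply fact_mul hq j _ _ d hd0
      · rw [dvd_pow_sub_one_iff (by omega), hd]
      · rcases Nat.eq_zero_or_pos j with h | h
        · rw [h, mul_zero] at hj; omega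
        · exact h
      · have : j ≤ d * j := Nat.le_mul_of_pos_left j hd0
        omega
    · apply Nat.factorization_eq_zero_of_not_dvd
      rw [dvd_pow_sub_one_iff (by omega), ← hd]
      exact h
  rw [Finset.sum_congr rfl h2, ← Finset.sum_filter, Finset.sum_const, Nat.card_multiples, smul_eq_mul]

end arith

section grp
open Function

theorem sylow_equiv_of_inj {G A : Type*} [Group G] [Finite G] [Group A] {r : ℕ} [Fact r.Prime] (f : A →* G)
    (hf : Injective f) (hA : Nat.card A = r ^ (Nat.card G).factorization r) (P : Sylow r G) : Nonempty (P ≃* A) := by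
  have h1 : Nat.card f.range = r ^ (Nat.card G).factorization r := by
    rw [← hA]
    exact (Nat.card_congr (MonoidHom.ofInjective hf).toEquiv).symm
  exact ⟨(Sylow.equiv P (Sylow.ofCard f.range h1)).trans (MonoidHom.ofInjective hf).symm⟩

/-- the torus action -/
noncomputable def actHom (F L : Type*) [Field F] [Field L] [Algebra F L] (m k : ℕ) :
    (Fin m → Lˣ) →* Module.End F ((Fin m → L) × (Fin k → F)) where
  toFun t := LinearMap.prodMap (LinearMap.pi fun i => (LinearMap.mulLeft F (t i : L)).comp (LinearMap.proj i)) LinearMap.id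
  map_one' := by
    ext <;> simp
  map_mul' := by
    intro s t
    apply LinearMap.ext
    intro x
    ext <;> simp [mul_assoc]

theorem actHom_injective (F L : Type*) [Field F] [Field L] [Algebra F L] (m k : ℕ) : Injective (actHom F L m k) := by
  intro s t h
  have h1 := congrArg (fun f => f (fun _ => (1 : L), (fun _ => (0 : F)))) h
  funext i
  have h2 := congrFun (congrArg Prod.fst h1) i
  simp [actHom] at h2
  exact Units.ext h2

theorem exists_gl_hom {F : Type*} [Field F] [Fintype F] {d : ℕ} (hd : 0 < d) (n : ℕ) :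
    ∃ (C : Type) (_ : Group C) (_ : IsCyclic C), Nat.card C = Fintype.card F ^ d - 1 ∧
      ∃ f : (Fin (n / d) → C) →* GL (Fin n) F, Injective f := by
  classical
  obtain ⟨p, hp⟩ := CharP.exists F
  have : Fact p.Prime := ⟨CharP.char_is_prime F p⟩
  have : NeZero d := ⟨hd.ne'⟩
  have hfin : Finite (FiniteField.Extension F p d) := Module.finite_of_finite F
  have hcard : Nat.card (FiniteField.Extension F p d)ˣ = Fintype.card F ^ d - 1 := by
    rw [Nat.card_units, FiniteField.natCard_extension, Nat.card_eq_fintype_card]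
  refine ⟨(FiniteField.Extension F p d)ˣ, inferInstance, inferInstance, hcard, ?_⟩
  have hfr : Module.finrank F ((Fin (n / d) → FiniteField.Extension F p d) × (Fin (n % d) → F)) = n := by
    rw [Module.finrank_prod, Module.finrank_pi_fintype]
    simp only [FiniteField.finrank_extension, Finset.sum_const, Finset.card_univ, Fintype.card_fin, smul_eq_mul,
      Module.finrank_fintype_fun_eq_card]
    rw [mul_comm]
    exact Nat.div_add_mod n d
  have b := Module.finBasisOfFinrankEq F ((Fin (n / d) → FiniteField.Extension F p d) × (Fin (n % d) → F)) hfr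
  refine ⟨(((algEquivMatrix b : _ ≃ₐ[F] _).toAlgHom.toRingHom.toMonoidHom).comp
    (actHom F (FiniteField.Extension F p d) (n / d) (n % d))).toHomUnits, ?_⟩
  intro s t h
  have h1 := congrArg Units.val h
  apply actHom_injective F (FiniteField.Extension F p d) (n / d) (n % d)
  exact (algEquivMatrix b).injective h1

theorem exists_cyc_hom {C : Type*} [Group C] [Finite C] [IsCyclic C] {k : ℕ} (hk : k ∣ Nat.card C) :
    ∃ f : Multiplicative (ZMod k) →* C, Injective f := by
  obtain ⟨g, hg⟩ := IsCyclic.exists_ofOrder_eq_natCard (α := C)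
  obtain ⟨c, hc⟩ := hk
  have hpos : 0 < Nat.card C := Nat.card_pos
  have hc0 : c ≠ 0 := by
    rintro rfl
    rw [mul_zero] at hc
    omega
  have hu : orderOf (g ^ c) = k := by
    rw [orderOf_pow_of_dvd hc0 (by rw [hg, hc]; exact dvd_mul_left c k), hg, hc, Nat.mul_div_cancel _ (by omega)]
  have h1 : Nat.card (Subgroup.zpowers (g ^ c)) = k := by rw [Nat.card_zpowers, hu]
  subst h1
  exact ⟨(Subgroup.zpowers (g ^ c)).subtype.comp (zmodCyclicMulEquiv (G := Subgroup.zpowers (g ^ c)) inferInstance).toMonoidHom,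
    (Subgroup.subtype_injective _).comp (zmodCyclicMulEquiv (G := Subgroup.zpowers (g ^ c)) inferInstance).injective⟩

theorem card_target (r k a : ℕ) : Nat.card (Fin k → Multiplicative (ZMod (r ^ a))) = r ^ (k * a) := by
  rw [Nat.card_fun, Nat.card_congr (Multiplicative.toAdd), Nat.card_zmod, Nat.card_eq_fintype_card, Fintype.card_fin,
    ← pow_mul, mul_comm]

theorem gl_sylow {F : Type*} [Field F] [Fintype F] {q : ℕ} (hq : Fintype.card F = q) (n : ℕ)
    (r : ℕ) [Fact r.Prime] (hrn : n < r) (hrq : ¬ r ∣ q) (P : Sylow r (GL (Fin n) F)) :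
    Nonempty (↥(P : Subgroup (GL (Fin n) F)) ≃*
      (Fin (n / orderOf (q : ZMod r)) → Multiplicative (ZMod (r ^ (q ^ orderOf (q : ZMod r) - 1).factorization r)))) := by
  have hq2 : 2 ≤ q := hq ▸ Fintype.one_lt_card
  obtain ⟨C, i1, i2, hC, f, hf⟩ := exists_gl_hom (F := F) (orderOf_pos_zmod hrq) n
  rw [hq] at hC
  have hQ1 : 1 < q ^ orderOf (q : ZMod r) := Nat.one_lt_pow (orderOf_pos_zmod hrq).ne' (by omega)
  have : Finite C := Nat.finite_of_card_ne_zero (by omega)
  obtain ⟨g, hg⟩ := exists_cyc_hom (C := C) (k := r ^ (q ^ orderOf (q : ZMod r) - 1).factorization r)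
    (by rw [hC]; exact Nat.ordProj_dvd _ _)
  refine sylow_equiv_of_inj (f.comp (MonoidHom.compLeft g (Fin (n / orderOf (q : ZMod r))))) ?_ ?_ P
  · exact hf.comp (fun s t h => by
      funext i
      exact hg (congrFun h i))
  · rw [card_target]
    have hcard : Nat.card (GL (Fin n) F) = ∏ i : Fin n, (q ^ n - q ^ (i : ℕ)) := by
      rw [Matrix.card_GL_field, hq]
    rw [hcard, fact_gl hq2 hrq n hrn]

end grp

end Cfsg.Agent.H41
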